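import Mathlib
import Cfsg.Agent.Base

/-!
Multipliers preserving the quadratic character of `1 + δ r²`.
-/

set_option autoImplicit false
set_option linter.unusedSectionVars false
set_option linter.unusedVariables false

namespace H28.Four

open Polynomial

theorem sq_mult {F : Type*} [Field F] [Fintype F] (h2 : (2 : F) ≠ 0) {δ ν : F} (hδ : δ ≠ 0)
    (hν : ν ≠ 0) (hq : 7 ≤ Fintype.card F ∨ ∀ r : F, 1 + δ * r ^ 2 ≠ 0)
    (hA : ∀ r : F, 1 + δ * r ^ 2 ≠ 0 → IsSquare (1 + δ * r ^ 2) →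
      1 + δ * (ν * r) ^ 2 ≠ 0 ∧ IsSquare (1 + δ * (ν * r) ^ 2)) :
    ν ^ 2 = 1 ∨ (ν ^ 2 = -1 ∧ (3 : F) = 0) := by
  classical
  have hc : ringChar F ≠ 2 := fun h => h2 (by
    have := (ringChar.spec F 2).2 (by rw [h]); exact_mod_cast this)
  have hodd := FiniteField.odd_card_of_char_ne_two hc
  have h1q : 1 < Fintype.card F := Fintype.one_lt_card
  set n := Fintype.card F / 2 with hn
  have hqn : Fintype.card F = 2 * n + 1 := by omega
  have hn0 : 2 * (n : F) + 1 = 0 := by
    have := FiniteField.cast_card_eq_zero F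
    rw [hqn] at this; exact_mod_cast this
  have hA' : ∀ r : F, 1 + δ * (ν * r) ^ 2 ≠ 0 → IsSquare (1 + δ * (ν * r) ^ 2) →
      IsSquare (1 + δ * r ^ 2) := fun r a1 a2 => by
    have key : ∀ k : ℕ, 1 + δ * (ν ^ (k + 1) * r) ^ 2 ≠ 0 ∧ IsSquare (1 + δ * (ν ^ (k + 1) * r) ^ 2) :=
      fun k => by
        induction k with
        | zero => simpa using ⟨a1, a2⟩
        | succ k ih => rw [pow_succ' ν (k + 1), mul_assoc]; exact hA _ ih.1 ih.2
    have := (key (Fintype.card F - 2)).2
    rwa [show Fintype.card F - 2 + 1 = Fintype.card F - 1 by omega,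
      FiniteField.pow_card_sub_one_eq_one ν hν, one_mul] at this
  have hχ : ∀ r : F, 1 + δ * r ^ 2 ≠ 0 → 1 + ν ^ 2 * (δ * r ^ 2) ≠ 0 →
      (1 + ν ^ 2 * (δ * r ^ 2)) ^ n = (1 + δ * r ^ 2) ^ n := fun r a1 a2 => by
    rw [show ν ^ 2 * (δ * r ^ 2) = δ * (ν * r) ^ 2 by ring] at a2 ⊢
    have b1 := FiniteField.isSquare_iff hc a1
    have b2 := FiniteField.isSquare_iff hc a2
    by_cases b3 : IsSquare (1 + δ * r ^ 2)
    · rw [b1.1 b3, b2.1 (hA r a1 b3).2]
    · rw [(FiniteField.pow_dichotomy hc a1).resolve_left (mt b1.2 b3),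
        (FiniteField.pow_dichotomy hc a2).resolve_left (mt b2.2 (mt (hA' r a2) b3))]
  have hμ : (ν ^ 2) ^ n = 1 := by
    rw [← pow_mul, show 2 * n = Fintype.card F - 1 by omega, FiniteField.pow_card_sub_one_eq_one ν hν]
  have hμ' : ∀ r : F, 1 + ν ^ 2 * (δ * r ^ 2) = 1 + δ * (ν * r) ^ 2 := fun r => by ring
  generalize ν ^ 2 = μ at *
  let S := Finset.univ.image fun r : F => δ * r ^ 2
  have hS : n + 1 ≤ S.card := by
    have := Finset.card_le_mul_card_image (f := fun r : F => δ * r ^ 2) Finset.univ 2 fun z _ => by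
      by_contra h
      obtain ⟨x, y, w, a1, a2, a3, a4, a5, a6⟩ := Finset.two_lt_card_iff.1 (not_le.1 h)
      simp only [Finset.mem_filter, Finset.mem_univ, true_and] at a1 a2 a3
      exact mul_ne_zero (mul_ne_zero (mul_ne_zero hδ (sub_ne_zero.2 a4)) (sub_ne_zero.2 a5))
        (sub_ne_zero.2 a6) (by linear_combination (y - w) * a1 - (x - w) * a2 + (x - y) * a3)
    rw [Finset.card_univ] at this
    change _ ≤ 2 * S.card at this
    omega
  let H : F[X] := ((1 + X) ^ n).comp (C μ * X) - (1 + X) ^ n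
  have hH : ∀ k, H.coeff k = (n.choose k : F) * (μ ^ k - 1) := fun k => by
    rw [coeff_sub, comp_C_mul_X_coeff, coeff_one_add_X_pow]; ring
  have hH' : ∀ k, n ≤ k → H.coeff k = 0 := fun k hk => by
    rw [hH]
    rcases hk.eq_or_lt with rfl | hk
    · rw [hμ, sub_self, mul_zero]
    · simp [Nat.choose_eq_zero_of_lt hk]
  have hE : ∀ z, H.eval z = (1 + μ * z) ^ n - (1 + z) ^ n := fun z => by simp [H]
  have hn1 : (n : F) ≠ 0 := fun h => by simp [h] at hn0
  rcases hq with hq | hq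
  swap
  · have := eq_zero_of_natDegree_lt_card_of_eval_eq_zero' H S (fun z hz => by
      obtain ⟨r, -, rfl⟩ := Finset.mem_image.1 hz
      rw [hE, hχ r (hq r) (hμ' r ▸ hq _), sub_self])
      ((natDegree_le_iff_coeff_eq_zero.2 fun k hk => hH' k hk.le).trans_lt (by omega : n < S.card))
    have h1 := hH 1
    rw [this, coeff_zero, Nat.choose_one_right, pow_one] at h1
    exact Or.inl (sub_eq_zero.1 ((mul_eq_zero.1 h1.symm).resolve_left hn1))
  let G : F[X] := H + C (1 + μ) * (H * X) + C μ * (H * X * X)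
  have hG : ∀ k, G.coeff (k + 2) = H.coeff (k + 2) + (1 + μ) * H.coeff (k + 1) + μ * H.coeff k :=
    fun k => by simp only [G, coeff_add, coeff_C_mul, coeff_mul_X]
  have h0 := eq_zero_of_natDegree_lt_card_of_eval_eq_zero'
    (G - C (G.coeff (n + 1)) * (X ^ (n + 1) - C (δ ^ n) * X)) S (fun z hz => by
      obtain ⟨r, -, rfl⟩ := Finset.mem_image.1 hz
      have a1 : (δ * r ^ 2) ^ (n + 1) = δ ^ n * (δ * r ^ 2) := by
        have := FiniteField.pow_card r
        rw [hqn] at this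
        rw [mul_pow, ← pow_mul, show 2 * (n + 1) = 2 * n + 1 + 1 by ring, pow_succ r, this]; ring
      have a2 : H.eval (δ * r ^ 2) * ((1 + δ * r ^ 2) * (1 + μ * (δ * r ^ 2))) = 0 := by
        by_cases b1 : 1 + δ * r ^ 2 = 0
        · simp [b1]
        by_cases b2 : 1 + μ * (δ * r ^ 2) = 0
        · simp [b2]
        rw [hE, hχ r b1 b2, sub_self, zero_mul]
      simp only [G, eval_sub, eval_add, eval_mul, eval_C, eval_X, eval_pow, a1]
      linear_combination a2)
    ((natDegree_le_iff_coeff_eq_zero.2 fun k hk => by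
      obtain ⟨k, rfl⟩ : ∃ j, k = j + 2 := ⟨k - 2, by omega⟩
      simp only [coeff_sub, coeff_C_mul, coeff_X_pow, coeff_X_of_ne_one (show k + 2 ≠ 1 by omega)]
      split_ifs with h
      · simp [h]
      · rw [hG, hH' _ (by omega), hH' _ (by omega), hH' _ (by omega)]; simp).trans_lt
      (by omega : n < S.card))
  have h1 : ∀ k, k + 1 < n → G.coeff (k + 2) = 0 := fun k hk => by
    have := congrArg (coeff · (k + 2)) h0
    simp only [coeff_sub, coeff_C_mul, coeff_X_pow, coeff_X_of_ne_one (show k + 2 ≠ 1 by omega),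
      if_neg (show k + 2 ≠ n + 1 by omega)] at this
    simpa using this
  have c2 := Nat.choose_succ_right_eq n 1
  have c3 := Nat.choose_succ_right_eq n 2
  apply_fun (Nat.cast : ℕ → F) at c2 c3
  push_cast [Nat.cast_sub (show 1 ≤ n by omega), Nat.cast_sub (show 2 ≤ n by omega),
    Nat.choose_one_right] at c2 c3
  have e2 := h1 0 (by omega)
  have e3 := h1 1 (by omega)
  simp only [hG, hH, Nat.choose_one_right, Nat.choose_zero_right, zero_add, Nat.reduceAdd] at e2 e3
  generalize (n.choose 2 : F) = s at *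
  generalize (n.choose 3 : F) = t at *
  have hs : 8 * s = 3 := by linear_combination 4 * c2 + (2 * n - 3) * hn0
  have ht : 48 * t = -15 := by linear_combination 16 * c3 + (2 * n - 4) * hs + 3 * hn0
  have e4 : (μ - 1) * (μ + 1) = 0 := by
    linear_combination -8 * e2 + (μ ^ 2 - 1) * hs + 4 * (μ ^ 2 - 1) * hn0
  refine (mul_eq_zero.1 e4).imp sub_eq_zero.1 fun h => ?_
  obtain rfl : μ = -1 := eq_neg_of_add_eq_zero_left h
  exact ⟨rfl, pow_eq_zero_iff two_ne_zero |>.1 (by linear_combination 24 * hn0 - 24 * e3 - ht)⟩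

end H28.Four
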