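import Mathlib
import Cfsg.Agent.Base
import Cfsg.Agent.Lib.ClassMax.OPlaneMax
import Cfsg.Agent.Lib.Four.Poly

/-!
Overgroups of the stabiliser of an orthogonal decomposition into three planes: reflections.
-/

set_option autoImplicit false
set_option linter.unusedSectionVars false
set_option linter.unusedVariables false

namespace H28.Four

open Module Cfsg H12 QuadraticMap H97o

variable {F V : Type*} [Field F] [Fintype F] [AddCommGroup V] [Module F V] {Q : QuadraticForm F V}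
  [FiniteDimensional F V] {D : Fin 3 → Submodule F V} {π : Fin 3 → V →ₗ[F] V} {X : Subgroup (O Q)}

theorem exists_third : ∀ {i j : Fin 3}, i ≠ j → ∃ l, l ≠ i ∧ l ≠ j ∧ ∀ m, m ≠ i → m ≠ j → m = l := by
  decide

theorem exists_others : ∀ l : Fin 3, ∃ i j, i ≠ j ∧ l ≠ i ∧ l ≠ j ∧ ∀ m, m ≠ i → m ≠ j → m = l := by
  decide

/-- The condition on the field. -/
structure Pl3 (Q : QuadraticForm F V) (D : Fin 3 → Submodule F V) : Prop where
  hq : 7 ≤ Fintype.card F ∨ (Fintype.card F ≠ 3 ∧ ∀ i, ∀ x ∈ D i, Q x = 0 → x = 0)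

namespace Pl3

theorem exists_rot (hp : Pl3 Q D) (h : Blk Q D π 2) {i : Fin 3} {a : V} (ha : a ∈ D i) (hq : Q a ≠ 0)
    {α β : F} (h1 : 5 ≤ Fintype.card F ∨ (4 ≤ Fintype.card F ∧ β = 4) ∨ (α = 4 ∧ β = 4)) :
    ∃ c ∈ D i, Q c ≠ 0 ∧ polar Q a c ^ 2 ≠ 4 * (Q a * Q c) ∧ polar Q a c ^ 2 ≠ α * (Q a * Q c) ∧
      polar Q a c ^ 2 ≠ β * (Q a * Q c) := by
  classical
  obtain ⟨b, hb, h2⟩ := exists_notMem_of_lt (W := D i) (U := F ∙ a)
    (by rw [h.dim, finrank_span_singleton (ne_zero_of_Q_ne hq)]; omega)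
  have h3 := sub_ne_zero.2 (h.disc_ne ha hb hq h2)
  set δ := polar Q a b ^ 2 - 4 * (Q a * Q b) with hδ
  obtain ⟨x, h4, h5, h6⟩ : ∃ x : F, Q (x • a + b) ≠ 0 ∧ (α = 4 ∨ Q (x • a + b) ≠ δ / ((α - 4) * Q a)) ∧
      (β = 4 ∨ Q (x • a + b) ≠ δ / ((β - 4) * Q a)) := by
    rcases hp.hq with h4 | ⟨-, h4⟩
    · obtain ⟨x, hx⟩ := exists_Q_notMem hq b {0, δ / ((α - 4) * Q a), δ / ((β - 4) * Q a)}
        (by have := Finset.card_le_three (a := 0) (b := δ / ((α - 4) * Q a)) (c := δ / ((β - 4) * Q a))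
            omega)
      simp only [Finset.mem_insert, Finset.mem_singleton, not_or] at hx
      exact ⟨x, hx.1, Or.inr hx.2.1, Or.inr hx.2.2⟩
    have h5 : ∀ x : F, Q (x • a + b) ≠ 0 := fun x hx => h2 (by
      rw [eq_neg_of_add_eq_zero_right (h4 i _ ((D i).add_mem ((D i).smul_mem x ha) hb) hx)]
      exact Submodule.neg_mem _ (Submodule.smul_mem _ _ (Submodule.mem_span_singleton_self a)))
    rcases h1 with h1 | h1 | h1
    · obtain ⟨x, hx⟩ := exists_Q_notMem hq b {δ / ((α - 4) * Q a), δ / ((β - 4) * Q a)}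
        (by have := Finset.card_le_two (a := δ / ((α - 4) * Q a)) (b := δ / ((β - 4) * Q a))
            omega)
      simp only [Finset.mem_insert, Finset.mem_singleton, not_or] at hx
      exact ⟨x, h5 x, Or.inr hx.1, Or.inr hx.2⟩
    · obtain ⟨x, hx⟩ := exists_Q_notMem hq b {δ / ((α - 4) * Q a)} (by simp; omega)
      exact ⟨x, h5 x, Or.inr (by simpa using hx), Or.inl h1.2⟩
    · exact ⟨0, h5 0, Or.inl h1.1, Or.inl h1.2⟩
  have h7 : polar Q a (x • a + b) ^ 2 - 4 * (Q a * Q (x • a + b)) = δ := by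
    rw [hδ, polar_add_right, B_smul_right, B_self, Q_add, Q_smul, B_smul_left]; ring
  have h8 : ∀ γ : F, γ = 4 ∨ Q (x • a + b) ≠ δ / ((γ - 4) * Q a) →
      polar Q a (x • a + b) ^ 2 ≠ γ * (Q a * Q (x • a + b)) := fun γ h8 h9 => by
    by_cases h10 : γ = 4
    · exact h3 (by rw [← h7, h9, h10, sub_self])
    · refine h8.resolve_left h10 ((eq_div_iff (mul_ne_zero (sub_ne_zero.2 h10) hq)).2 ?_)
      linear_combination h7 - h9
  exact ⟨_, (D i).add_mem ((D i).smul_mem x ha) hb, h4, h8 4 (Or.inl rfl), h8 α h5, h8 β h6⟩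

theorem rot4 (hp : Pl3 Q D) (h : Blk Q D π 2) {i : Fin 3} {a : V} (ha : a ∈ D i) (hq : Q a ≠ 0) :
    ∃ c ∈ D i, Q c ≠ 0 ∧ polar Q a c ^ 2 ≠ 4 * (Q a * Q c) ∧ polar Q a c ≠ 0 ∧
      polar Q a c ^ 2 ≠ 2 * (Q a * Q c) := by
  obtain ⟨c, h1, h2, h3, h4, h5⟩ := hp.exists_rot h ha hq (α := 0) (β := 2) (by
    by_cases h2 : (2 : F) = 0
    · exact Or.inr (Or.inr ⟨by linear_combination -2 * h2, by linear_combination -h2⟩)
    · exact Or.inl (hp.hq.elim (by omega) fun h => five_le_card h2 h.1))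
  exact ⟨c, h1, h2, h3, by simpa using h4, h5⟩

theorem exists_pair (hp : Pl3 Q D) (h : Blk Q D π 2) (i : Fin 3) {c : F} (hc : c ≠ 0) :
    ∃ a ∈ D i, ∃ b ∈ D i, Q a = c ∧ Q b = c ∧ polar Q a b ≠ 0 ∧
      polar Q a b ^ 2 ≠ 4 * (Q a * Q b) := by
  obtain ⟨a, ha, rfl⟩ := h.universal le_rfl i c
  obtain ⟨c, h1, h2, h3, h4, h5⟩ := hp.rot4 h ha hc
  refine ⟨a, ha, _, movIn_apply (refl_mem_movIn h1) ha, rfl, O.map_Q _ _, fun h6 => h5 ?_,
    fun h6 => mul_ne_zero (pow_ne_zero 2 h4) (sub_ne_zero.2 h3) ?_⟩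
  · rw [refl_apply, polar_sub_right, B_smul_right, B_self] at h6
    field_simp at h6
    linear_combination -h6
  · rw [O.map_Q, refl_apply, polar_sub_right, B_smul_right, B_self] at h6
    field_simp at h6
    linear_combination h6

theorem exists_skew (hp : Pl3 Q D) (h : Blk Q D π 2) {i : Fin 3} {v : V} (hv : v ∈ D i) (h0 : v ≠ 0)
    {c : F} (hc : c ≠ 0) : ∃ x ∈ D i, Q x = c ∧ x ∉ F ∙ v ∧ polar Q v x ≠ 0 := by
  obtain ⟨a, ha, b, hb, h1, h2, h3, h4⟩ := hp.exists_pair h i hc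
  by_contra h5
  push Not at h5
  by_cases h6 : a ∈ F ∙ v <;> by_cases h7 : b ∈ F ∙ v
  · obtain ⟨s, rfl⟩ := Submodule.mem_span_singleton.1 h6
    obtain ⟨t, rfl⟩ := Submodule.mem_span_singleton.1 h7
    exact h4 (by rw [B_smul_left, B_smul_right, B_self, Q_smul, Q_smul]; ring)
  · obtain ⟨s, rfl⟩ := Submodule.mem_span_singleton.1 h6
    exact h3 (by rw [B_smul_left, h5 b hb h2 h7, mul_zero])
  · obtain ⟨s, rfl⟩ := Submodule.mem_span_singleton.1 h7
    exact h3 (by rw [B_smul_right, B_symm (h5 a ha h1 h6), mul_zero])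
  · refine h0 (h.ndOn i v hv fun y hy => ?_)
    obtain ⟨s, t, rfl⟩ := mem_plane (h.dim i) ha hb h4 hy
    simp [h5 a ha h1 h6, h5 b hb h2 h7]

theorem uu_torus (hp : Pl3 Q D) (h : Ctx Q D π 2 X) (hF : 4 ≤ Fintype.card F) {i : Fin 3} {w y : V}
    (hw : w ∈ D i) (h0 : w ≠ 0) (hy : π i y = 0) (hq : Q y ≠ 0) (hu : UU D X (w + y))
    (hl : (2 : F) = 0 ∨ ∃ l, l ≠ i ∧ π l y = 0) {x : V} (hx : x ∈ D i) (t : F)
    (h1 : Q (x + t • y) ≠ 0) : UU D X (x + t • y) := by
  obtain ⟨a, ha, hqa⟩ := h.exists_nonsing i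
  obtain ⟨Γ, h2, h3⟩ : ∃ Γ : Subgroup (O Q), (∀ v, (∃ x ∈ D i, ∃ t : F, v = x + t • y) → UU D X v →
      refl Q v ∈ Γ) ∧ ∀ v, Q v ≠ 0 → refl Q v ∈ Γ → UU D X v := by
    rcases hl with h2 | ⟨l, hl, h2⟩
    · exact ⟨_, fun v _ hv => h.refl_mem_ext' h2 ha hqa hv, fun v => h.uu_of_ext ha⟩
    refine ⟨comp X (movIn Q (D l)), ?_, fun v hv ⟨_, c, h3, h4⟩ => ⟨hv, c, h.movIn_le l h3, h4⟩⟩
    rintro _ ⟨x, hx, t, rfl⟩ hv
    obtain ⟨c, h3, h4⟩ := h.exists_comp le_rfl l (refl Q (x + t • y))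
    refine ⟨fun c hc => commute_of_fix h.nd (fun w hw => refl_apply_of_orth (h.orth_of_proj hw ?_)) hc,
      c, h3, h.mul_mem hv (h.movIn_le l h3) h4⟩
    rw [map_add, map_smul, h2, h.proj_other hl hx, smul_zero, add_zero]
  obtain ⟨c, hc, t1, t2, t3, t4⟩ := hp.rot4 h.toBlk ha hqa
  obtain ⟨c', hc', t5, t6, t7, -⟩ := hp.exists_rot h.toBlk ha hqa (α := 1) (Or.inr (Or.inl ⟨hF, rfl⟩))
  refine h3 _ h1 (torus hF (h.ndOn i) (h.dim i) ha hc hc' hqa t1 t5 t2 t3 t4 t6 t7 hq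
    (fun x hx => B_symm (h.orth_of_proj hx hy)) (fun b hb => ?_) hw h0 hu.1
    (h2 _ ⟨w, hw, 1, by rw [one_smul]⟩ hu) hx t)
  by_cases h4 : Q b = 0
  · rw [refl_of_Q_eq_zero h4]; exact Γ.one_mem
  · exact h2 _ ⟨b, hb, 0, by simp⟩ (h.uu_of_mem hb h4)

theorem uu_two (hp : Pl3 Q D) (h : Ctx Q D π 2 X) (hF : 4 ≤ Fintype.card F) {i j : Fin 3} (hij : i ≠ j)
    {w y : V} (hw : w ∈ D i) (h0 : w ≠ 0) (hy : y ∈ D j) (hq : Q y ≠ 0) (hu : UU D X (w + y))
    {a b : V} (ha : a ∈ D i) (hb : b ∈ D j) (h1 : Q (a + b) ≠ 0) : UU D X (a + b) := by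
  obtain ⟨l, hl⟩ : ∃ l, l ≠ i ∧ l ≠ j := (exists_third hij).imp fun _ h => ⟨h.1, h.2.1⟩
  have key : ∀ i j, i ≠ j → l ≠ i → l ≠ j → ∀ w ∈ D i, ∀ y ∈ D j, w ≠ 0 → Q y ≠ 0 → UU D X (w + y) →
      ∀ x ∈ D i, Q x ≠ 0 → ∀ z ∈ D j, ∀ s : F, Q (z + s • x) ≠ 0 → UU D X (z + s • x) :=
    fun i j hij li lj w hw y hy h0 hq hu x hx h1 z hz s h2 => by
      obtain ⟨t, ht, h3⟩ := exists_sq_avoid hF h1 (Q y)
      have h4 := hp.uu_torus h hF hw h0 (h.proj_other hij hy) hq hu
        (Or.inr ⟨l, li, h.proj_other lj hy⟩) hx t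
        (by rwa [Q_add_orth (h.orth i j hij x hx _ ((D j).smul_mem t hy)), Q_smul])
      rw [add_comm] at h4
      exact hp.uu_torus h hF ((D j).smul_mem t hy) (smul_ne_zero ht (ne_zero_of_Q_ne hq))
        (h.proj_other hij.symm hx) h1 h4 (Or.inr ⟨l, lj, h.proj_other li hx⟩) hz s h2
  by_cases h2 : Q a = 0
  · rw [Q_add_orth (h.orth i j hij a ha b hb), h2, zero_add] at h1
    obtain ⟨x, hx, h3⟩ := h.exists_nonsing i
    obtain ⟨t, ht, h4⟩ := exists_sq_avoid hF h1 (Q x)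
    have h5 := key i j hij hl.1 hl.2 w hw y hy h0 hq hu x hx h3 b hb t
      (by rwa [Q_add_orth (h.orth j i hij.symm b hb _ ((D i).smul_mem t hx)), Q_smul])
    rw [add_comm] at h5
    simpa using hp.uu_torus h hF ((D i).smul_mem t hx) (smul_ne_zero ht (ne_zero_of_Q_ne h3))
      (h.proj_other hij hb) h1 h5 (Or.inr ⟨l, hl.1, h.proj_other hl.2 hb⟩) ha 1
      (by rwa [one_smul, Q_add_orth (h.orth i j hij a ha b hb), h2, zero_add])
  · simpa [add_comm] using key i j hij hl.1 hl.2 w hw y hy h0 hq hu a ha h2 b hb 1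
      (by rwa [one_smul, add_comm])

theorem of_two (hp : Pl3 Q D) (h : Ctx Q D π 2 X) (hF : 4 ≤ Fintype.card F) {i j : Fin 3} (hij : i ≠ j)
    (hu : ∀ a ∈ D i, ∀ b ∈ D j, Q (a + b) ≠ 0 → UU D X (a + b)) : Om Q ≤ X := by
  obtain ⟨a, ha, hq⟩ := h.exists_nonsing i
  obtain ⟨b, hb, h1⟩ := h.universal le_rfl j (-Q a)
  have hd : Q (a + b) = 0 := by rw [Q_add_orth (h.orth i j hij a ha b hb), h1, add_neg_cancel]
  have hc := exists_ne_zero_one (F := F) (by omega)
  have hW : NdOn Q (D i ⊔ D j) := fun x hx h2 => by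
    obtain ⟨y, hy, z, hz, rfl⟩ := Submodule.mem_sup.1 hx
    rw [h.ndOn i y hy fun w hw => by
        rw [← h2 w (Submodule.mem_sup_left hw), polar_add_left, h.orth j i hij.symm z hz w hw, add_zero],
      h.ndOn j z hz fun w hw => by
        rw [← h2 w (Submodule.mem_sup_right hw), polar_add_left, h.orth i j hij y hy w hw, zero_add],
      add_zero]
  have hu' : ∀ x ∈ D i ⊔ D j, Q x ≠ 0 → UU D X x := fun x hx h2 => by
    obtain ⟨y, hy, z, hz, rfl⟩ := Submodule.mem_sup.1 hx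
    exact hu y hy z hz h2
  have hπ : π i (a + b) = a := by rw [map_add, h.proj_self ha, h.proj_other hij hb, add_zero]
  have hdW := Submodule.add_mem_sup ha hb
  generalize a + b = d at hd hπ hdW
  obtain ⟨f, hf, hdf⟩ := hW.exists_hyp hdW (by rintro rfl; exact ne_zero_of_Q_ne hq (by simpa using hπ.symm)) hd
  have h2 : ∀ w ∈ D i ⊔ D j, polar Q d w = 0 → w ∈ TF X d := fun w hw h2 => by
    have h3 := (hW.inf_hyp hdW hf hdf).le_of_nonsing (Or.inr hc) (Y := TF X d)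
      (fun w ⟨⟨h3, h4⟩, _⟩ h5 => mem_TF_of_refl hd h5 (mem_orth.1 h4) fun c => by
        have h6 := Q_add_smul_sing hd (mem_orth.1 h4) c
        exact h.rr_uu (hu' _ (Submodule.add_mem _ h3 (Submodule.smul_mem _ c hdW)) (h6 ▸ h5))
          (hu' _ h3 h5) h6 i) (x := w - polar Q f w • d)
      ⟨⟨Submodule.sub_mem _ hw (Submodule.smul_mem _ _ hdW), mem_orth.2 (by
        rw [polar_sub_right, B_smul_right, h2, hdf.hee]; simp)⟩, mem_orth.2 (by
        rw [polar_sub_right, B_smul_right, hdf.hfe]; simp)⟩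
    simpa using Submodule.add_mem _ h3 (Submodule.smul_mem _ (polar Q f w) (self_mem_TF hd))
  have h3 : ∀ m, m ≠ i → m ≠ j → ∀ x ∈ D i ⊔ D j, ∀ w ∈ D m, polar Q x w = 0 := fun m mi mj x hx w hw => by
    obtain ⟨y, hy, z, hz, rfl⟩ := Submodule.mem_sup.1 hx
    rw [polar_add_left, h.orth i m mi.symm y hy w hw, h.orth j m mj.symm z hz w hw, add_zero]
  have d1 := finrank_inf_orth (Q := Q) (D j) d
  rw [h.dim] at d1
  obtain ⟨y, ⟨hy, h4⟩, h5⟩ := exists_notMem_of_lt (W := D j ⊓ orth Q d) (U := ⊥)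
    (by rw [finrank_bot]; omega)
  rw [SetLike.mem_coe, mem_orth] at h4
  obtain ⟨w, hw, h6, h7⟩ := hW.exists_orth_B_eq hdW (Submodule.mem_sup_right hy) (fun h6 => by
    obtain ⟨t, rfl⟩ := Submodule.mem_span_singleton.1 h6
    have := h.proj_other hij hy
    rw [map_smul, hπ, smul_eq_zero, or_iff_left (ne_zero_of_Q_ne hq)] at this
    simp [this] at h5) 1
  have hW2 : 2 ≤ finrank F ↥((D i ⊔ D j) ⊓ orth Q d ⊓ orth Q f) := by
    have d2 := finrank_inf_orth (Q := Q) (D i ⊔ D j) d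
    have d3 := finrank_inf_orth (Q := Q) ((D i ⊔ D j) ⊓ orth Q d) f
    have d4 := Submodule.finrank_sup_add_finrank_inf_eq (D i) (D j)
    rw [h.dim, h.dim, show D i ⊓ D j = ⊥ from eq_bot_iff.2 fun x hx => by_contra fun e =>
      hij (h.eq_of_mem hx.1 hx.2 e), finrank_bot] at d4
    omega
  have h8 : ∀ m, m ≠ i → m ≠ j → D m ≤ TF X d := fun m mi mj =>
    (h.ndOn m).le_of_nonsing (Or.inr hc) fun x hx h8 => by
      obtain ⟨t, ht, h9⟩ := exists_sq_avoid hF h8 (Q y)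
      obtain ⟨s, h10, h11, h12⟩ := h.exists_map i m
      obtain ⟨x', h13, rfl⟩ := h.onto h11 hx
      have h14 := (D j).smul_mem t hy
      have h15 := h.uu_move (hu x' h13 _ h14 (by
        rwa [Q_add_orth (h.orth i j hij _ h13 _ h14), Q_smul, ← O.map_Q s])) (l := m)
        (by rw [map_add, h.proj_other mi h13, h.proj_other mj h14, add_zero]) h10
      rw [map_add, h12 _ (h.proj_other hij h14) (h.proj_other mj h14)] at h15
      obtain ⟨c, ⟨⟨h16, h16'⟩, -⟩, h17⟩ := (hW.inf_hyp hdW hf hdf).universal hW2 (Q (s.1 x' + t • y))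
      rw [SetLike.mem_coe, mem_orth] at h16'
      have h18 := TF_fix (h.rr_uu h15 (hu' c h16 (h17 ▸ h15.1)) h17.symm i) (d := d) (by
        rw [O.mul_apply, refl_apply_of_orth h16', refl_apply_of_orth (by
          rw [polar_add_right, B_smul_right, h4, h3 m mi mj d hdW _ hx]; simp)])
        (h2 _ (movIn_apply (refl_mem_movIn h16) hw) (by
          rw [← h6, ← O.map_B (refl Q c) d w, refl_apply_of_orth h16']))
      rw [O.mul_apply, refl_refl] at h18
      have h19 := mem_of_refl_mem h15.1 (by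
        rwa [polar_add_right, B_smul_right, polar_comm _ w y, h7, h3 m mi mj w hw _ hx, zero_add,
          mul_one]) (h2 w hw h6) h18
      simpa using Submodule.sub_mem _ h19
        (Submodule.smul_mem _ t (h2 y (Submodule.mem_sup_right hy) h4))
  obtain ⟨l, hl⟩ : ∃ l, l ≠ i ∧ l ≠ j := (exists_third hij).imp fun _ h => ⟨h.1, h.2.1⟩
  have hm := Submodule.add_mem _ hdW (Submodule.smul_mem _ (1 : F) hf)
  have h9 : Q (d + (1 : F) • f) = 1 := by simpa using hdf.Q_comb 1 1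
  obtain ⟨c, h10, h11⟩ := h.universal le_rfl l 1
  refine Om_le_of_TF' h.nd h.good (h.finrank_ne hij) hd (fun x hx => ?_)
    (h.rr_mem (hu' _ hm (by rw [h9]; exact one_ne_zero)) h10 (h9.trans h11.symm)) ?_
  · have h12 : x - (π i x + π j x) ∈ TF X d := h.mem_of_proj_mem fun m => by
      rw [map_sub, map_add, h.proj_ite m (h.mem i x), h.proj_ite m (h.mem j x)]
      split_ifs with h12 h13 h13
      · exact absurd (h12.symm.trans h13) hij
      · simp [h12]
      · simp [h13]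
      · simpa using h8 m h12 h13 (h.mem m x)
    have h13 := h12.1
    rw [polar_sub_right, hx, zero_sub, neg_eq_zero] at h13
    simpa using Submodule.add_mem _ h12 (h2 _ (Submodule.add_mem_sup (h.mem i x) (h.mem j x)) h13)
  · rw [O.mul_apply, refl_apply_of_orth (h3 l hl.1 hl.2 d hdW c h10), hdf.refl_e one_ne_zero,
      B_smul_right, hdf.hef]
    simp

theorem four_le (hp : Pl3 Q D) (h2 : Fintype.card F ≠ 2) : 4 ≤ Fintype.card F := by
  have : 1 < Fintype.card F := Fintype.one_lt_card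
  rcases hp.hq with h | h <;> omega

theorem of_supp (hp : Pl3 Q D) (h : Ctx Q D π 2 X) {u : V} (hu : UU D X u) {i j l : Fin 3}
    (hij : i ≠ j) (hi : π i u ≠ 0) (hj : π j u ≠ 0) (hl : π l u = 0) : Om Q ≤ X := by
  have h3 : π i u + π j u = u := by
    rw [← Finset.sum_pair (f := fun m => π m u) hij, Finset.sum_subset (Finset.subset_univ _)
      fun m _ hm => ?_, h.sum]
    obtain ⟨l', -, -, h4⟩ := exists_third hij
    simp only [Finset.mem_insert, Finset.mem_singleton, not_or] at hm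
    rwa [h4 m hm.1 hm.2, ← h4 l (by rintro rfl; exact hi hl) (by rintro rfl; exact hj hl)]
  have h5 : Q u = Q (π i u) + Q (π j u) := by
    rw [← Q_add_orth (h.orth i j hij _ (h.mem i u) _ (h.mem j u)), h3]
  by_cases hF2 : Fintype.card F = 2
  · have h1 := (hp.hq.resolve_left (by omega)).2
    rw [eq_one_of_card_two hF2 (mt (h1 i _ (h.mem i u)) hi),
      eq_one_of_card_two hF2 (mt (h1 j _ (h.mem j u)) hj)] at h5
    exact absurd (by linear_combination h5 + two_eq_zero_of_card_two hF2) hu.1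
  have hF := hp.four_le hF2
  by_cases h4 : Q (π j u) = 0
  · exact hp.of_two h hF hij.symm fun a ha b hb => hp.uu_two h hF hij.symm (h.mem j u) hj
      (h.mem i u) (fun h6 => hu.1 (by rw [h5, h4, h6, add_zero])) (by rwa [add_comm, h3]) ha hb
  · exact hp.of_two h hF hij fun a ha b hb => hp.uu_two h hF hij (h.mem i u) hi (h.mem j u) h4
      (by rwa [h3]) ha hb

theorem of_card_two (hp : Pl3 Q D) (h : Ctx Q D π 2 X) (hF : Fintype.card F = 2) {u : V}
    (hu : UU D X u) (hs : ∀ m, π m u ≠ 0) : Om Q ≤ X := by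
  have h2 := two_eq_zero_of_card_two hF
  have h1 : ∀ {i}, ∀ {x}, x ∈ D i → x ≠ 0 → Q x = 1 := fun {i x} hx h0 =>
    eq_one_of_card_two hF fun e => h0 ((hp.hq.resolve_left (by omega)).2 i x hx e)
  obtain ⟨a₀, ha₀, hq₀⟩ := h.exists_nonsing 0
  by_contra hX
  refine hX (Om_le_of_extBy h.nd h.good h.le' hq₀ ?_)
  have hR := fun v => h.refl_mem_ext' h2 ha₀ hq₀ (v := v)
  generalize extBy X (refl Q a₀) (refl_mul_self a₀) = R at hR
  have hb : ∀ {i x}, x ∈ D i → x ≠ 0 → refl Q x ∈ R := fun hx h0 =>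
    hR _ (h.uu_of_mem hx (h1 hx h0 ▸ one_ne_zero))
  have h3 : ∀ i, ∀ x ∈ D i, ∀ z ∈ D i, x ≠ 0 → z ≠ 0 → ∀ y, π i y = 0 → refl Q (x + y) ∈ R →
      refl Q (z + y) ∈ R := fun i x hx z hz x0 z0 y hy h3 => by
    by_cases h4 : x - z = 0
    · rwa [← sub_eq_zero.1 h4]
    have h5 := (D i).sub_mem hx hz
    have := R.mul_mem (R.mul_mem (hb h5 h4) h3) (R.inv_mem (hb h5 h4))
    rwa [refl_conj, map_add, refl_sub_apply (by rw [h1 hx x0, h1 hz z0]) (h1 h5 h4 ▸ one_ne_zero),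
      refl_apply_of_orth (B_symm (h.orth_of_proj h5 hy))] at this
  refine (eq_top_of_refl h.nd h.good R fun v hv => ?_).ge.trans' le_top
  by_cases h4 : ∀ m, π m v ≠ 0
  · have h5 := hR u hu
    rw [← h.sum u, Fin.sum_univ_three, add_assoc] at h5
    have h6 := h3 0 _ (h.mem 0 u) _ (h.mem 0 v) (hs 0) (h4 0) _ (by simp [h.proj_proj']) h5
    rw [add_left_comm] at h6
    have h7 := h3 1 _ (h.mem 1 u) _ (h.mem 1 v) (hs 1) (h4 1) _ (by simp [h.proj_proj']) h6
    rw [← add_assoc, add_comm] at h7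
    have h8 := h3 2 _ (h.mem 2 u) _ (h.mem 2 v) (hs 2) (h4 2) _ (by simp [h.proj_proj']) h7
    rw [← h.sum v, Fin.sum_univ_three]
    convert h8 using 2
    abel
  push Not at h4
  obtain ⟨l, hl⟩ := h4
  obtain ⟨i, hi⟩ := h.exists_Q_proj_ne hv
  refine hb (i := i) (by_contra fun h5 => ?_) (ne_zero_of_Q_ne hv)
  obtain ⟨j, hji, hj⟩ := h.exists_proj_ne h5
  have h6 := h.Q_sum v
  have h7 : ∀ m, Q (π m v) = if m = l then 0 else 1 := fun m => by
    split_ifs with e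
    · rw [e, hl, map_zero]
    · refine h1 (h.mem m v) fun e' => ?_
      obtain ⟨l', -, -, h8⟩ := exists_third hji
      rw [h8 l (by rintro rfl; exact hj hl) (by rintro rfl; simp [hl] at hi),
        ← h8 m (by rintro rfl; exact hj e') (by rintro rfl; simp [e'] at hi)] at e
      exact e rfl
  simp only [h7, Fin.sum_univ_three] at h6
  refine hv ?_
  fin_cases l <;> simp at h6 <;> linear_combination h6 + h2

theorem of_even (hp : Pl3 Q D) (h : Ctx Q D π 2 X) (h3 : (2 : F) = 0) {u : V} (hu : UU D X u)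
    (hs : ∀ m, π m u ≠ 0) : Om Q ≤ X := by
  by_cases hF2 : Fintype.card F = 2
  · exact hp.of_card_two h hF2 hu hs
  have hF := hp.four_le hF2
  have key : ∀ v, UU D X v → (∀ m, π m v ≠ 0) → ∀ i, Q (π i v) ≠ Q v → Om Q ≤ X :=
    fun v hv h1 i h4 => by
      have hq : Q (v - π i v) ≠ 0 := fun e => h4 (by rw [h.Q_split i v, e, add_zero])
      have h5 : π i (v - π i v) = 0 := by rw [map_sub, h.proj_proj, sub_self]
      have := hp.uu_torus h hF (h.mem i v) (h1 i) h5 hq (by rwa [add_sub_cancel]) (Or.inl h3)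
        (D i).zero_mem 1 (by rwa [zero_add, one_smul])
      rw [zero_add, one_smul] at this
      obtain ⟨j, k, hjk, hij, hik, -⟩ := exists_others i
      exact hp.of_supp h this hjk (by simpa [h.proj_proj' hij.symm] using h1 j)
        (by simpa [h.proj_proj' hik.symm] using h1 k) h5
  by_cases h2 : ∃ i, Q (π i u) ≠ Q u
  · obtain ⟨i, h2⟩ := h2
    exact key u hu hs i h2
  push Not at h2
  obtain ⟨x, hx, h4, h5, h6, -⟩ := hp.exists_rot h.toBlk (h.mem 0 u) (h2 0 ▸ hu.1) (α := 1)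
    (Or.inr (Or.inl ⟨hF, rfl⟩))
  have h7 : polar Q (π 0 u) x ≠ 0 := fun e => h5 (by
    rw [e, show (4 : F) = 2 * 2 by norm_num, h3]; simp)
  have h8 : UU D X ((refl Q u).1 x) := h.uu_of_ext hx (by rwa [O.map_Q]) (by
    have := h.refl_mem_ext' h3 hx h4 hu
    rw [← refl_conj]
    exact Subgroup.mul_mem _ (Subgroup.mul_mem _ this (h.refl_mem_ext' h3 hx h4
      (h.uu_of_mem hx h4))) (Subgroup.inv_mem _ this))
  have h9 : ∀ m, π m ((refl Q u).1 x) =
      (if m = 0 then x else 0) - ((Q u)⁻¹ * polar Q (π 0 u) x) • π m u := fun m => by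
    rw [refl_apply, map_sub, map_smul, h.proj_ite m hx, ← h.B_proj hx, polar_comm]
  refine key _ h8 (fun m => ?_) 1 fun e => h6 ?_
  · rw [h9]
    split_ifs with h11
    · subst h11
      refine fun e => h5 ?_
      rw [sub_eq_zero.1 e, B_smul_right, B_self, Q_smul]
      ring
    · simp [hu.1, h7, hs]
  · rw [h9, if_neg (by decide), zero_sub, QuadraticMap.map_neg, Q_smul, h2 1, O.map_Q] at e
    have := hu.1
    rw [h2 0, ← e]
    field_simp

theorem rr_neg (h : Blk Q D π 2) (h2 : (2 : F) ≠ 0) {i : Fin 3} {a b : V} (ha : a ∈ D i)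
    (hb : b ∈ D i) (qa : Q a ≠ 0) (qb : Q b ≠ 0) (h8 : polar Q b a = 0) {z : V} (hz : z ∈ D i) :
    (refl Q a).1 ((refl Q b).1 z) = -z := by
  obtain ⟨s, t, rfl⟩ := mem_plane (h.dim i) ha hb (by
    rw [B_symm h8]
    exact fun e => mul_ne_zero (mul_ne_zero h2 h2) (mul_ne_zero qa qb) (by linear_combination -e)) hz
  simp only [map_add, map_smul, map_neg, refl_apply_of_orth h8, refl_apply_of_orth (B_symm h8),
    refl_apply_self qa, refl_apply_self qb]
  module

theorem exists_tau (h : Blk Q D π 2) (h2 : (2 : F) ≠ 0) {i j : Fin 3} (hij : i ≠ j) :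
    ∃ κ s s', κ ≠ 0 ∧ T2 Q D 1 {i, j} s ∧ T2 Q D κ {i, j} s' ∧
      ∀ m, ∀ z ∈ D m, (s * s').1 z = if m = i ∨ m = j then -z else z := by
  obtain ⟨κ, hκ, h5⟩ := h.exists_kappa i (one_ne_zero (α := F))
  obtain ⟨x, hx, qx⟩ := h.universal le_rfl i 1
  obtain ⟨x', hx', qx', h6⟩ := h5 i x hx qx
  obtain ⟨y, hy, qy⟩ := h.universal le_rfl j 1
  obtain ⟨y', hy', qy', h7⟩ := h5 j y hy qy
  refine ⟨κ, _, _, hκ, ⟨i, j, x, y, hij, rfl, hx, hy, qx, qy, rfl⟩,
    ⟨i, j, x', y', hij, rfl, hx', hy', qx', qy', rfl⟩, fun m z hz => ?_⟩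
  simp only [O.mul_apply]
  by_cases mi : m = i
  · subst mi
    rw [h.refl_other hij hz hy', h.refl_other hij (movIn_apply (refl_mem_movIn hx') hz) hy,
      rr_neg h h2 hx hx' (qx ▸ one_ne_zero) (qx' ▸ hκ) h6 hz, if_pos (Or.inl rfl)]
  by_cases mj : m = j
  · subst mj
    rw [h.refl_other mi (movIn_apply (refl_mem_movIn hy') hz) hx',
      rr_neg h h2 hy hy' (qy ▸ one_ne_zero) (qy' ▸ hκ) h7 hz, h.refl_other mi ((D m).neg_mem hz) hx,
      if_pos (Or.inr rfl)]
  rw [h.refl_other mj hz hy', h.refl_other mi hz hx', h.refl_other mj hz hy, h.refl_other mi hz hx,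
    if_neg (not_or.2 ⟨mi, mj⟩)]

theorem exists_sq (hp : Pl3 Q D) (h : Ctx Q D π 2 X) (h2 : (2 : F) ≠ 0) (hX : ¬ Om Q ≤ X) {u : V}
    (hu : UU D X u) (hs : ∀ m, π m u ≠ 0) (l : Fin 3) : ∃ t : F, Q (t • π l u) = Q u := by
  obtain ⟨i, j, hij, li, lj, hl⟩ := exists_others l
  obtain ⟨x, hx, qx, h3, h4⟩ := hp.exists_skew h.toBlk (h.mem i u) (hs i) hu.1
  obtain ⟨y, hy, qy⟩ := h.exists_nonsing j
  obtain ⟨κ, s₁, s₂, -, hs₁, hs₂, h9⟩ := exists_tau h.toBlk h2 hij
  have hτ := Subgroup.mul_mem _ (h.t2_mem hs₁).1 (h.t2_mem hs₂).1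
  generalize s₁ * s₂ = τ at h9 hτ
  have h10 : ∀ m z, π m (τ.1 z) = if m = i ∨ m = j then -π m z else π m z := fun m z => by
    rw [h.proj_comm (i := m) (fun w hw => by
      rw [h9 m w hw]; split_ifs
      exacts [(D m).neg_mem hw, hw]), h9 m _ (h.mem m z)]
  have h11 : ∀ m, π m (u - π l u) = if m = i ∨ m = j then π m u else 0 := fun m => by
    rw [map_sub, h.proj_ite m (h.mem l u)]
    by_cases mi : m = i
    · simp [mi, li.symm]
    by_cases mj : m = j
    · simp [mj, lj.symm]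
    simp [hl m mi mj, li, lj]
  have h12 : ∀ v, UU D X v → π i v ≠ 0 → π j v ≠ 0 → π l v ≠ 0 := fun v hv e1 e2 e3 =>
    hX (hp.of_supp h hv hij e1 e2 e3)
  have hτa : τ.1 (π l u) = π l u := by rw [h9 l _ (h.mem l u), if_neg (not_or.2 ⟨li, lj⟩)]
  generalize hb : u - π l u = b at h11
  have hτb : τ.1 b = -b := h.ext_proj fun l => by rw [h10, map_neg, h11]; split_ifs <;> simp
  have hτx : τ.1 x = -x := by rw [h9 i x hx, if_pos (Or.inl rfl)]
  have hab : π l u + b = u := by rw [← hb, add_sub_cancel]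
  rcases refl_invol_cases h.nd h2 (τ := τ) (h.mem_ext hx hτ.1 hτ.2)
    (O.ext fun z => h.ext_proj fun l => by
      rw [O.mul_apply, h10, h10, O.one_apply]; split_ifs <;> simp)
    (fun v hv e => by
      have e1 := hτx
      have e2 := h9 j y hy
      rw [if_pos (Or.inr rfl)] at e2
      rw [e, refl_apply] at e1 e2
      generalize (Q v)⁻¹ * polar Q x v = s, (Q v)⁻¹ * polar Q y v = t at e1 e2
      have e3 := congrArg (π j) (show (2 : F) • x = s • v by linear_combination (norm := module) e1)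
      have e4 := congrArg (π j) (show (2 : F) • y = t • v by linear_combination (norm := module) e2)
      rw [map_smul, map_smul, h.proj_other hij.symm hx, smul_zero, eq_comm, smul_eq_zero] at e3
      rw [map_smul, map_smul, h.proj_self hy] at e4
      rcases e3 with e3 | e3
      · exact ne_zero_of_Q_ne (qx ▸ hu.1)
          (eq_zero_of_eq_neg h2 (by rwa [e3, zero_smul, sub_zero] at e1))
      · rw [e3, smul_zero, smul_eq_zero] at e4
        exact ne_zero_of_Q_ne qy (e4.resolve_left h2)) hτa hτb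
    (by rw [hab]; exact hu.1) (by rw [hab]; exact h.refl_mem_ext hx hu (t := 1) (by rw [qx]; ring))
    with ⟨t, e1, e2⟩ | ⟨t, e1, e2⟩ | ⟨γ, e1, -, e2, e3, e4⟩
  · exact ⟨t, by rwa [hab] at e1⟩
  · refine absurd (by simp [h11, li, lj]) (h12 _ (h.uu_of_ext hx (fun e => hu.1 ?_) e2)
      (by simpa [h11] using hs i) (by simpa [h11] using hs j))
    rw [← hab, ← e1, Q_smul, e, mul_zero]
  · obtain ⟨s, t, hst⟩ := Submodule.mem_span_pair.1 (e3 x)
    have e5 : γ.1 x = x - s • π l u - t • b := by linear_combination (norm := module) hst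
    have e6 := congrArg (fun g : O Q => g.1 x) e4.eq
    simp only [O.mul_apply] at e6
    rw [hτx, map_neg, e5, map_sub _ (x - _), map_sub _ x, map_smul, map_smul, hτa, hτb, hτx] at e6
    rw [eq_zero_of_eq_neg h2 (x := s • π l u) (by linear_combination (norm := module) e6),
      sub_zero] at e5
    have ht : t ≠ 0 := by
      rintro rfl
      have e7 := O.map_B γ b x
      rw [e2, e5, zero_smul, sub_zero, polar_neg_left, polar_comm, ← h.B_proj hx, h11,
        if_pos (Or.inl rfl), polar_comm] at e7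
      exact mul_ne_zero h2 h4 (by linear_combination -e7)
    refine absurd ?_ (h12 _ (h.uu_of_ext hx (v := γ.1 x) (by rw [O.map_Q, qx]; exact hu.1) (by
      rw [← refl_conj]
      exact Subgroup.mul_mem _ (Subgroup.mul_mem _ e1 (h.refl_mem_ext hx (h.uu_of_mem hx (qx ▸ hu.1))
        (t := 1) (by ring))) (Subgroup.inv_mem _ e1))) (fun e7 => h3 ?_) ?_)
    · simp [e5, h11, h.proj_other li hx, li, lj]
    · rw [e5, map_sub, map_smul, h11, h.proj_self hx, if_pos (Or.inl rfl), sub_eq_zero] at e7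
      exact Submodule.mem_span_singleton.2 ⟨t, e7.symm⟩
    · simp [e5, h11, h.proj_other hij.symm hx, ht, hs]

theorem of_odd (hp : Pl3 Q D) (h : Ctx Q D π 2 X) (h2 : (2 : F) ≠ 0) {u : V} (hu : UU D X u)
    (hs : ∀ m, π m u ≠ 0) : Om Q ≤ X := by
  by_contra hX
  have hu0 := hu.1
  have key : ∀ l, Q (π l u) / Q u = 1 ∨ ((1 - 2 * (Q (π l u) / Q u)) ^ 2 = -1 ∧ (3 : F) = 0) := by
    intro l
    obtain ⟨t, ht⟩ := hp.exists_sq h h2 hX hu hs l
    obtain ⟨i, j, hij, li, lj, hl⟩ := exists_others l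
    have ha := h.mem l u
    have hB : ∀ x ∈ D l, polar Q x u = polar Q x (π l u) := fun x hx => (h.B_proj hx u).symm
    generalize hA : π l u = a at ht ha hB
    rw [Q_smul] at ht
    have qa : Q a ≠ 0 := right_ne_zero_of_mul (ht ▸ hu0)
    have t0 : t ≠ 0 := by rintro rfl; simp [hu0.symm] at ht
    obtain ⟨w, hw, qw, haw⟩ := h.exists_orth h2 ha qa
    obtain ⟨c, hc⟩ : ∃ c, c = 1 - 2 * (Q a / Q u) := ⟨_, rfl⟩
    have hQ : ∀ s r : F, Q (s • a + r • w) = Q a * (s ^ 2 + Q w / Q a * r ^ 2) := fun s r => by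
      rw [Q_add, Q_smul, Q_smul, B_smul_left, B_smul_right, haw]; field_simp; ring
    have h1 : ∀ r : F, 1 + Q w / Q a * r ^ 2 ≠ 0 → IsSquare (1 + Q w / Q a * r ^ 2) →
        ∃ s, s ^ 2 * (c ^ 2 + Q w / Q a * r ^ 2) = 1 + Q w / Q a * r ^ 2 := by
      rintro r h1 ⟨s, h3⟩
      have hx := (D l).add_mem ((D l).smul_mem 1 ha) ((D l).smul_mem r hw)
      have qx := hQ 1 r
      rw [one_pow] at qx
      have h4 : polar Q ((1 : F) • a + r • w) a = 2 * Q a := by
        rw [polar_add_left, B_smul_left, B_smul_left, B_self, B_symm haw]; ring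
      have h5 : ∀ m, π m ((refl Q u).1 ((1 : F) • a + r • w)) =
          (if m = l then (1 : F) • a + r • w else 0) - ((Q u)⁻¹ * (2 * Q a)) • π m u := fun m => by
        rw [refl_apply, map_sub, map_smul, h.proj_ite m hx, hB _ hx, h4]
      have h6 : π l ((refl Q u).1 ((1 : F) • a + r • w)) = c • a + r • w := by
        rw [h5, if_pos rfl, hA, hc, div_eq_mul_inv]; module
      generalize (1 : F) • a + r • w = x at *
      have qx0 : Q x ≠ 0 := qx ▸ mul_ne_zero qa h1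
      have s0 : s ≠ 0 := by rintro rfl; simp [h1] at h3
      have h8 : UU D X ((refl Q u).1 x) := h.uu_of_ext hx (by rwa [O.map_Q]) (by
        have := h.refl_mem_ext hx hu (t := t / s) (by rw [qx, h3, ← ht]; field_simp)
        rw [← refl_conj]
        exact Subgroup.mul_mem _ (Subgroup.mul_mem _ this (h.refl_mem_ext hx (h.uu_of_mem hx qx0)
          (t := 1) (by ring))) (Subgroup.inv_mem _ this))
      have h9 : ∀ m, m ≠ l → π m ((refl Q u).1 x) ≠ 0 := fun m hm => by simp [h5, hm, hu0, h2, qa, hs]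
      obtain ⟨s', h10⟩ := hp.exists_sq h h2 hX h8 (fun m => by
        by_cases hm : m = l
        · exact hm ▸ fun e => hX (hp.of_supp h h8 hij (h9 i li.symm) (h9 j lj.symm) e)
        · exact h9 m hm) l
      rw [Q_smul, h6, hQ, O.map_Q, qx] at h10
      exact ⟨s', mul_left_cancel₀ qa (by linear_combination h10)⟩
    have c0 : c ≠ 0 := by
      obtain ⟨s, h3⟩ := h1 0 (by simp) (by simp)
      rintro rfl
      simp at h3
    have := sq_mult h2 (div_ne_zero qw qa) (inv_ne_zero c0) (hp.hq.imp id fun h3 r h4 => by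
      have h5 := h3.2 l _ ((D l).add_mem ((D l).smul_mem 1 ha) ((D l).smul_mem r hw))
        (by rw [hQ, one_pow, h4, mul_zero])
      have h6 := congrArg (polar Q a) h5
      rw [polar_add_right, B_smul_right, B_smul_right, haw, B_self, polar_zero_right] at h6
      exact mul_ne_zero h2 qa (by linear_combination h6)) fun r h3 h4 => by
        obtain ⟨s, h5⟩ := h1 r h3 h4
        obtain ⟨s', h6⟩ := h4
        have s0 : s ≠ 0 := by rintro rfl; simp [h3.symm] at h5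
        have h7 : 1 + Q w / Q a * (c⁻¹ * r) ^ 2 = s' / (s * c) * (s' / (s * c)) := by
          generalize Q w / Q a = δ at *
          field_simp
          linear_combination h5 + h6
        refine ⟨fun e => h3 ?_, _, h7⟩
        rw [h6, (div_eq_zero_iff.1 (mul_self_eq_zero.1 (h7.symm.trans e))).resolve_right
          (mul_ne_zero s0 c0), mul_zero]
    rw [← hc]
    refine this.imp (fun e => ?_) (And.imp_left fun e => ?_)
    · rw [inv_pow, inv_eq_one] at e
      refine mul_left_cancel₀ (mul_ne_zero (mul_ne_zero h2 h2) (div_ne_zero qa hu0)) ?_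
      linear_combination e - (c + 1 - 2 * (Q a / Q u)) * hc
    · rw [inv_pow, inv_eq_iff_eq_inv] at e
      simpa using e
  have h1 : Q (π 0 u) / Q u + Q (π 1 u) / Q u + Q (π 2 u) / Q u = 1 := by
    rw [← add_div, ← add_div, ← Fin.sum_univ_three fun m => Q (π m u), ← h.Q_sum, div_self hu0]
  have k0 := key 0
  have k1 := key 1
  have k2 := key 2
  generalize Q (π 0 u) / Q u = a, Q (π 1 u) / Q u = b, Q (π 2 u) / Q u = c at h1 k0 k1 k2
  grind

theorem of_uu (hp : Pl3 Q D) (h : Ctx Q D π 2 X) {u : V} (hu : UU D X u) {i j : Fin 3} (hij : i ≠ j)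
    (hi : π i u ≠ 0) (hj : π j u ≠ 0) : Om Q ≤ X := by
  by_cases hs : ∀ m, π m u ≠ 0
  · by_cases h2 : (2 : F) = 0
    exacts [hp.of_even h h2 hu hs, hp.of_odd h h2 hu hs]
  · push Not at hs
    obtain ⟨l, hl⟩ := hs
    exact hp.of_supp h hu hij hi hj hl

end Pl3

end H28.Four
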