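import Mathlib
import Cfsg.Agent.Base
import Cfsg.Agent.Lib.Four.Three
import Cfsg.Agent.Lib.Orth12.Simple

/-!
The stabiliser in `Ω₆` of an orthogonal decomposition into three planes is maximal.
-/

set_option autoImplicit false
set_option linter.unusedSectionVars false
set_option linter.unusedVariables false

namespace H28.Four

open Module Cfsg H12 QuadraticMap H97o

variable {F V : Type*} [Field F] [Fintype F] [AddCommGroup V] [Module F V] {Q : QuadraticForm F V}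
  [FiniteDimensional F V] {D : Fin 3 → Submodule F V} {π : Fin 3 → V →ₗ[F] V} {X : Subgroup (O Q)}

theorem exists_fix (h : Blk Q D π 2) {g : O Q} (hg : g ∈ Hh Q D) {P : Submodule F V}
    (hP : finrank F P ≤ 2) (h1 : g ∈ movIn Q P) : ∃ p, ∀ x ∈ D p, g.1 x = x := by
  obtain ⟨σ, hσ⟩ := Hh_elim hg
  by_cases h2 : ∃ i, σ i ≠ i
  · obtain ⟨i, h2⟩ := h2
    let L : D i →ₗ[F] V := (LinearMap.id - (g.1 : V →ₗ[F] V)) ∘ₗ (D i).subtype
    have h3 : ∀ x : D i, π i (L x) = x := fun x => by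
      simp [L, h.proj_self x.2, h.proj_other h2.symm ((hσ i _).1 x.2)]
    have h4 : LinearMap.range L = P := Submodule.eq_of_le_of_finrank_le
      (by rintro _ ⟨x, rfl⟩; exact h1 x) (by
        rw [LinearMap.finrank_range_of_inj fun x y e => Subtype.ext (by rw [← h3, e, h3]), h.dim]
        exact hP)
    obtain ⟨m, m2, m1, -⟩ := exists_third h2
    refine ⟨m, fun z hz => H97o.movIn_fix h.nd h1 fun w hw => h.orth_of_proj hz ?_⟩
    obtain ⟨x, rfl⟩ := h4.ge hw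
    simp [L, h.proj_other m1 x.2, h.proj_other m2 ((hσ i _).1 x.2)]
  by_contra h3
  push Not at h2 h3
  choose x hx h3 using h3
  have h4 : ∀ p, x p - g.1 (x p) ∈ D p := fun p => (D p).sub_mem (hx p) (by
    simpa only [h2 p] using (hσ p _).1 (hx p))
  choose w hw h5 using fun p => (h.ndOn p).exists_B_ne (h4 p) (sub_ne_zero.2 (h3 p).symm)
  have := three_le_finrank (h1 (x 0)) (h1 (x 1)) (h1 (x 2)) (ne_zero_of_B_ne_left (h5 0))
    (h.orth 1 0 (by decide) _ (hw 1) _ (h4 0)) (B_symm_ne (h5 1))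
    (h.orth 2 0 (by decide) _ (hw 2) _ (h4 0)) (h.orth 2 1 (by decide) _ (hw 2) _ (h4 1))
    (B_symm_ne (h5 2))
  omega

namespace Pl3

theorem mem_of_blk (hp : Pl3 Q D) (h : Ctx Q D π 2 X) (hX : ¬ Om Q ≤ X) {g : O Q} (hg : g ∈ X)
    {i l : Fin 3} {y : V} (hy : y ∈ D i) (hq : Q y ≠ 0) (hgy : g.1 y ∈ D l) : g ∈ Hh Q D := by
  have h1 : ∀ m, ∀ b ∈ D m, Q b = Q y → ∃ j, g.1 b ∈ D j := fun m b hb h1 => by
    have h2 := h.uu_conj hg hy hgy (h.uu_of_mem hb (h1 ▸ hq)) (t := 1) (by rw [h1]; ring)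
    obtain ⟨j, hj⟩ := h.exists_Q_proj_ne h2.1
    refine ⟨j, by_contra fun h3 => hX ?_⟩
    obtain ⟨j', h4, h5⟩ := h.exists_proj_ne h3
    exact hp.of_uu h h2 h4 h5 (ne_zero_of_Q_ne hj)
  refine h.mem_Hh fun m => ?_
  obtain ⟨a, ha, b, hb, qa, qb, h2, h3⟩ := hp.exists_pair h.toBlk m hq
  obtain ⟨j, hj⟩ := h1 m a ha qa
  obtain ⟨j', hj'⟩ := h1 m b hb qb
  obtain rfl := h.eq_of_B_ne hj hj' (by rwa [O.map_B])
  refine ⟨j, fun x hx => ?_⟩
  obtain ⟨s, t, rfl⟩ := mem_plane (h.dim m) ha hb h3 hx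
  rw [map_add, map_smul, map_smul]
  exact (D j).add_mem ((D j).smul_mem _ hj) ((D j).smul_mem _ hj')

theorem mem_of_orth (hp : Pl3 Q D) (h : Ctx Q D π 2 X) (hX : ¬ Om Q ≤ X) {g : O Q} (hg : g ∈ X)
    {i p : Fin 3} {y : V} (hy : y ∈ D i) (hq : Q y ≠ 0) (hgy : π p (g.1 y) = 0) : g ∈ Hh Q D := by
  obtain ⟨a, ha, b, hb, qa, qb, h2, h3⟩ := hp.exists_pair h.toBlk p one_ne_zero
  have h4 := h.rr_mem (h.uu_of_mem ha (qa ▸ one_ne_zero)) hb (qa.trans qb.symm)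
  have h5 := hp.mem_of_blk h hX (X.mul_mem (X.mul_mem (X.inv_mem hg) h4) hg) hy hq (l := i) (by
    rwa [conj_fix (by rw [O.mul_apply, refl_apply_of_orth (B_symm (h.orth_of_proj hb hgy)),
      refl_apply_of_orth (B_symm (h.orth_of_proj ha hgy))])])
  have h6 := rr_conj_mem_movIn g⁻¹ a b
  rw [inv_inv] at h6
  have h7 : g⁻¹ * (refl Q a * refl Q b) * g * (g⁻¹ * (refl Q a * refl Q b) * g) ≠ 1 := fun e => by
    have e1 : refl Q a * refl Q b * (refl Q a * refl Q b) = 1 := by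
      calc _ = g * (g⁻¹ * (refl Q a * refl Q b) * g * (g⁻¹ * (refl Q a * refl Q b) * g)) * g⁻¹ := by
            group
        _ = 1 := by rw [e]; group
    have e2 : Commute (refl Q a) (refl Q b) := by
      have := inv_eq_of_sq e1
      rw [mul_inv_rev, refl_inv, refl_inv] at this
      exact this.symm
    rcases eq_or_neg_of_commute h.nd (qb ▸ one_ne_zero) e2 with e3 | e3
    · rw [refl_apply, sub_eq_self, qa, inv_one, one_mul] at e3
      exact smul_ne_zero (B_symm_ne h2) (ne_zero_of_B_ne_left h2) e3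
    · have e4 := O.map_B (refl Q a) b b
      nth_rewrite 1 [refl_apply] at e4
      rw [e3, polar_neg_right, polar_sub_left, B_smul_left, B_self, qa, qb, polar_comm Q b a] at e4
      exact h3 (by rw [qa, qb]; linear_combination e4)
  obtain ⟨m, x, hx, h8⟩ := h.exists_mov (g := g⁻¹ * (refl Q a * refl Q b) * g)
    (fun m => by_contra fun h8 => h7 (h.sq_eq_one h5 (finrank_span_pair_le _ _) h6 h8))
    fun e => h7 (by rw [e, one_mul])
  refine hp.mem_of_blk h hX hg ((D m).sub_mem hx (by_contra fun h9 =>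
    h7 (h.sq_eq_one h5 (finrank_span_pair_le _ _) h6 fun h10 => h9 (h10 x hx)))) h8 (l := p) ?_
  rw [map_sub, O.mul_apply, O.mul_apply, O.apply_inv_apply]
  exact Subgroup.mul_mem _ (refl_mem_movIn ha) (refl_mem_movIn hb) _

theorem mem_of_rr (hp : Pl3 Q D) (h : Ctx Q D π 2 X) (hX : ¬ Om Q ≤ X) {g : O Q} (hg : g ∈ X)
    {i : Fin 3} {a b : V} (ha : a ∈ D i) (hq : Q a ≠ 0) (hab : a ∉ F ∙ b)
    (h1 : g * (refl Q a * refl Q b) * g⁻¹ ∈ Hh Q D) : g ∈ Hh Q D := by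
  obtain ⟨p, h2⟩ := exists_fix h.toBlk h1 (finrank_span_pair_le _ _) (rr_conj_mem_movIn g a b)
  obtain ⟨y, hy⟩ := exists_mov_rr h.nd hq hab
  refine hp.mem_of_orth h hX hg ha hq (p := p) (h.proj_eq_zero fun w hw => ?_)
  have := O.B_fix_sub _ (h2 w hw) (g.1 y)
  rwa [O.mul_apply, O.mul_apply, O.inv_apply_apply, ← map_sub, hy] at this

theorem mem_of_t2 (hp : Pl3 Q D) (h : Ctx Q D π 2 X) (hX : ¬ Om Q ≤ X) {g : O Q} (hg : g ∈ X)
    {κ : F} (hκ : κ ≠ 0) {J : Finset (Fin 3)} {t : O Q} (ht : T2 Q D κ J t)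
    (h1 : g * t * g⁻¹ ∈ Hh Q D) : g ∈ Hh Q D := by
  obtain ⟨i, j, a, b, hij, -, ha, hb, qa, qb, rfl⟩ := ht
  exact hp.mem_of_rr h hX hg ha (qa ▸ hκ) (fun h3 => hij (h.eq_of_mem ha
    ((Submodule.span_singleton_le_iff_mem _ _).2 hb h3) (ne_zero_of_Q_ne (qa ▸ hκ)))) h1

theorem mem_of_fix (hp : Pl3 Q D) (h : Ctx Q D π 2 X) (hX : ¬ Om Q ≤ X) {g : O Q} (hg : g ∈ X)
    {c : O Q} (hc : ∀ i, ∀ x ∈ D i, c.1 x ∈ D i) (h1 : c ≠ 1) (h2 : Commute g c) {p : Fin 3}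
    (h3 : ∀ x ∈ D p, c.1 x = x) : g ∈ Hh Q D := by
  obtain ⟨m, x, hx, h5⟩ := h.exists_mov hc h1
  refine hp.mem_of_orth h hX hg ((D m).sub_mem hx (hc m x hx)) h5 (p := p)
    (h.proj_eq_zero fun w hw => ?_)
  rw [map_sub, ← O.mul_apply, h2.eq, O.mul_apply]
  exact O.B_fix_sub c (h3 w hw) _

theorem le_odd (hp : Pl3 Q D) (h : Ctx Q D π 2 X) (hX : ¬ Om Q ≤ X) (h2 : (2 : F) ≠ 0) :
    X ≤ Hh Q D ⊓ Om Q := by
  have := finiteO Q
  have h0 : ∀ m, ∃ x ∈ D m, x ≠ -x := fun m => (h.exists_nonsing m).imp fun x hx =>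
    ⟨hx.1, fun e => ne_zero_of_Q_ne hx.2 (eq_zero_of_eq_neg h2 e)⟩
  refine le_of_dihedral h.le
    {t | ∃ i j, i ≠ j ∧ ∀ m, ∀ z ∈ D m, t.1 z = if m = i ∨ m = j then -z else z}
    {s | ∃ κ J, κ ≠ 0 ∧ T2 Q D κ J s} ?_ ?_ ?_ ?_ ?_ ?_ ?_
  · rintro t ⟨i, j, hij, ht⟩
    obtain ⟨κ, s, s', -, h3, h4, h5⟩ := exists_tau h.toBlk h2 hij
    refine ⟨h.ext (g := s * s') (g' := t) (fun m z hz => by rw [h5 m z hz, ht m z hz]) ▸
      Subgroup.mul_mem _ (h.t2_mem h3).1 (h.t2_mem h4).1, h.ext fun m z hz => ?_⟩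
    rw [O.mul_apply, ht m z hz, O.one_apply]
    split_ifs with e
    · rw [map_neg, ht m z hz, if_pos e, neg_neg]
    · rw [ht m z hz, if_neg e]
  · rintro s ⟨κ, J, hκ, hs⟩
    refine ⟨(h.t2_mem hs).1, (h.t2_mem hs).2, fun ⟨i, j, hij, ht⟩ => ?_⟩
    obtain ⟨κ', h3, h4⟩ := h.exists_kappa i hκ
    obtain ⟨y, hy, h5, h6⟩ := h.t2_orth hs h4 i
    rw [ht i y hy, if_pos (Or.inl rfl)] at h6
    exact ne_zero_of_Q_ne (h5 ▸ h3) (eq_zero_of_eq_neg h2 h6.symm)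
  · rintro g hg t ⟨i, j, hij, ht⟩ h3
    obtain ⟨l, li, lj, hl⟩ := exists_third hij
    obtain ⟨a, ha, qa⟩ := h.exists_nonsing l
    obtain ⟨b, hb, qb, h4⟩ := h.exists_orth h2 ha qa
    have h5 : refl Q a * refl Q b = negO Q * t := h.ext fun m z hz => by
      rw [O.mul_apply, O.mul_apply, negO_apply, ht m z hz]
      by_cases e : m = l
      · subst e
        rw [rr_neg h.toBlk h2 ha hb qa qb (B_symm h4) hz, if_neg (not_or.2 ⟨li, lj⟩)]
      · rw [h.refl_other e hz hb, h.refl_other e hz ha, if_pos, neg_neg]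
        exact by_contra fun e' => e (hl m (not_or.1 e').1 (not_or.1 e').2)
    refine ⟨hp.mem_of_rr h hX hg ha qa (notMem_span_of_orth h2 qb (ne_zero_of_Q_ne qa) (B_symm h4)) ?_,
      h.le' hg⟩
    rw [h5, ← mul_assoc, ← negO_comm, mul_assoc, mul_assoc, ← mul_assoc g]
    exact Subgroup.mul_mem _ (mem_Hh_of_stab fun i x hx => (D i).neg_mem hx) h3.1
  · rintro g hg t ⟨i, j, hij, ht⟩
    obtain ⟨σ, hσ⟩ := Hh_elim hg.1
    refine ⟨σ i, σ j, σ.injective.ne hij, fun m z hz => ?_⟩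
    obtain ⟨m, rfl⟩ := σ.surjective m
    rw [O.mul_apply, O.mul_apply, ht m _ ((hσ m _).2 (by rwa [O.apply_inv_apply]))]
    simp only [σ.injective.eq_iff]
    split_ifs <;> simp only [map_neg, O.apply_inv_apply]
  · rintro s ⟨κ, J, hκ, hs⟩ g hg h3
    exact ⟨hp.mem_of_t2 h hX hg hκ hs (by rw [h3.eq, mul_inv_cancel_right]; exact (h.t2_mem hs).1.1),
      h.le' hg⟩
  · rintro t ⟨i, j, hij, ht⟩ s hs h3 g hg h4
    obtain ⟨h5, ⟨p, h6⟩, h7⟩ : (∀ m, ∀ x ∈ D m, s.1 x ∈ D m) ∧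
        (∃ p, (∀ x ∈ D p, s.1 x = x)) ∧ ∃ m, (m = i ∨ m = j) ∧ ∃ x ∈ D m, s.1 x ≠ x := by
      rcases hs with ⟨κ, J, hκ, hs⟩ | ⟨i', j', hij', hs⟩
      · have hJ := Blk.t2_card hs
        obtain ⟨p, -, h5⟩ := Finset.exists_mem_notMem_of_card_lt_card (s := J) (t := Finset.univ)
          (by simp [hJ])
        obtain ⟨l, li, lj, hl⟩ := exists_third hij
        obtain ⟨m, h6, h7⟩ := Finset.exists_mem_notMem_of_card_lt_card (s := {l}) (t := J) (by simp [hJ])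
        exact ⟨h.t2_stab hs, ⟨p, fun x => h.t2_fix hs h5⟩, m, by_contra fun e =>
          h7 (by simpa using hl m (not_or.1 e).1 (not_or.1 e).2), h.t2_ne hκ hs h6⟩
      · obtain ⟨p, pi, pj, -⟩ := exists_third hij'
        obtain ⟨m, h5, h6⟩ := (by decide : ∀ i j i' j' : Fin 3, i ≠ j → i' ≠ j' →
          ∃ m, (m = i ∨ m = j) ∧ (m = i' ∨ m = j')) i j i' j' hij hij'
        obtain ⟨x, hx, h7⟩ := h0 m
        refine ⟨fun m x hx => ?_, ⟨p, fun x hx => by rw [hs p x hx, if_neg (not_or.2 ⟨pi, pj⟩)]⟩, m, h5,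
          x, hx, by rw [hs m x hx, if_pos h6]; exact h7.symm⟩
        rw [hs m x hx]
        split_ifs
        exacts [(D m).neg_mem hx, hx]
    have h8 : ∀ m, ∀ x ∈ D m, (t * s).1 x ∈ D m := fun m x hx => by
      rw [O.mul_apply, ht m _ (h5 m x hx)]
      split_ifs
      exacts [(D m).neg_mem (h5 m x hx), h5 m x hx]
    refine ⟨?_, h.le' hg⟩
    by_cases e : p = i ∨ p = j
    · refine hp.mem_of_fix h hX hg (c := negO Q * (t * s)) (fun m x hx => (D m).neg_mem (h8 m x hx))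
        (fun e' => ?_) (Commute.mul_right (negO_comm g).symm h4) (p := p) fun x hx => by
          rw [O.mul_apply, O.mul_apply, h6 x hx, ht p x hx, if_pos e, negO_apply, neg_neg]
      obtain ⟨m, h9, x, hx, h10⟩ := h7
      have := congrArg (fun k : O Q => k.1 x) e'
      simp only [O.mul_apply, ht m _ (h5 m x hx), if_pos h9, negO_apply, neg_neg, O.one_apply] at this
      exact h10 this
    · exact hp.mem_of_fix h hX hg h8 h3 h4 (p := p) fun x hx => by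
        rw [O.mul_apply, h6 x hx, ht p x hx, if_neg e]
  · obtain ⟨κ, s, s', hκ, h3, h4, h5⟩ := exists_tau h.toBlk h2 (show (0 : Fin 3) ≠ 1 by decide)
    exact ⟨s, ⟨1, _, one_ne_zero, h3⟩, s', ⟨κ, _, hκ, h4⟩, 0, 1, by decide, h5⟩

theorem mem_of_swap (hp : Pl3 Q D) (h : Ctx Q D π 2 X) (hX : ¬ Om Q ≤ X) (h2 : (2 : F) = 0)
    {g : O Q} (hg : g ∈ X) {c : O Q} (h1 : Commute g c) {i j l : Fin 3} (hij : i ≠ j) (li : l ≠ i)
    (lj : l ≠ j) (hc : ∀ x ∈ D i, c.1 x ∈ D j) (hl : ∀ x ∈ D l, c.1 x = x) : g ∈ Hh Q D := by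
  by_contra hg'
  have h3 : ∀ a ∈ D l, π j (g.1 a) = c.1 (π i (g.1 a)) := fun a ha => by
    rw [← h.proj_comm hc, ← O.mul_apply, ← h1.eq, O.mul_apply, hl a ha]
  have h4 : ∀ a ∈ D l, Q a ≠ 0 → π i (g.1 a) ≠ 0 ∧ Q (π i (g.1 a)) = 0 := fun a ha qa => by
    refine ⟨fun e => hg' (hp.mem_of_orth h hX hg ha qa e), by_contra fun e => hg' ?_⟩
    have h5 := h.mem i (g.1 a)
    have h6 := hc _ h5
    have h7 : ∀ m, polar Q (g.1 a) (π m (g.1 a)) = 0 := fun m => by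
      rw [polar_comm, ← h.B_proj (h.mem m _), B_self, h2, zero_mul]
    have h8 := hp.mem_of_blk h hX (X.mul_mem (X.mul_mem (X.inv_mem hg)
      (h.rr_mem (h.uu_of_mem h5 e) h6 (O.map_Q _ _).symm)) hg) ha qa (l := l) (by
        rwa [conj_fix (by rw [O.mul_apply, ← h3 a ha, refl_apply_of_orth (h7 j),
          refl_apply_of_orth (h7 i)])])
    simpa using (Hh Q D).inv_mem (hp.mem_of_t2 h hX (X.inv_mem hg) e
      ⟨i, j, _, _, hij, rfl, h5, h6, rfl, O.map_Q _ _, rfl⟩ (by rwa [inv_inv]))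
  obtain ⟨a, ha, b, hb, qa, qb, h5, h6⟩ := hp.exists_pair h.toBlk l one_ne_zero
  obtain ⟨a0, a1⟩ := h4 a ha (qa ▸ one_ne_zero)
  obtain ⟨b0, b1⟩ := h4 b hb (qb ▸ one_ne_zero)
  have hq := hp.hq.resolve_right fun e => a0 (e.2 i _ (h.mem i _) a1)
  have h7 : polar Q (π i (g.1 a)) (π i (g.1 b)) = 0 := by
    classical
    obtain ⟨s, hs⟩ := exists_Q_notMem (qa ▸ one_ne_zero : Q a ≠ 0) b {0, Q b}
      (by have := Finset.card_le_two (a := 0) (b := Q b); omega)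
    simp only [Finset.mem_insert, Finset.mem_singleton, not_or] at hs
    have := (h4 _ ((D l).add_mem ((D l).smul_mem s ha) hb) hs.1).2
    simp only [map_add, map_smul, Q_add, Q_smul, a1, b1, B_smul_left, mul_zero, zero_add] at this
    exact (mul_eq_zero.1 this).resolve_left (by rintro rfl; simp at hs)
  obtain ⟨s, h8⟩ : ∃ s : F, π i (g.1 b) = s • π i (g.1 a) := by
    obtain ⟨f, hf, h8⟩ := (h.ndOn i).exists_hyp (h.mem i _) a0 a1
    obtain ⟨s, t, h9⟩ := mem_plane (h.dim i) (h.mem i _) hf (by rw [h8.hef, h8.he]; simp)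
      (h.mem i (g.1 b))
    rw [← h9, polar_add_right, B_smul_right, B_smul_right, h8.hee, h8.hef] at h7
    exact ⟨s, by rw [← h9, show t = 0 by linear_combination h7, zero_smul, add_zero]⟩
  have h9 := (D l).sub_mem hb ((D l).smul_mem s ha)
  have h10 : π i (g.1 (b - s • a)) = 0 := by simp [h8]
  have h11 : Q (b - s • a) = 0 := by_contra fun e => (h4 _ h9 e).1 h10
  obtain ⟨y, hy, qy⟩ := h.exists_nonsing j
  have h12 : polar Q y (g.1 b) = s * polar Q y (g.1 a) := by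
    have := h.orth_of_proj hy (x := g.1 (b - s • a)) (by rw [h3 _ h9, h10, map_zero])
    rwa [map_sub, map_smul, polar_sub_right, B_smul_right, sub_eq_zero] at this
  have h13 := X.mul_mem (X.mul_mem hg (h.rr_mem (h.uu_of_mem ha (qa ▸ one_ne_zero)) hb
    (qa.trans qb.symm))) (X.inv_mem hg)
  refine hg' (hp.mem_of_rr h hX hg ha (qa ▸ one_ne_zero) (b := b) (fun e => h6 ?_)
    (hp.mem_of_orth h hX h13 hy qy (p := i) ?_))
  · obtain ⟨t, rfl⟩ := Submodule.mem_span_singleton.1 e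
    rw [B_smul_left, B_self, Q_smul]; ring
  · rw [Q_sub, Q_smul, B_smul_right, qa, qb] at h11
    rw [rr_conj, O.mul_apply, refl_apply, refl_apply]
    simp only [map_sub, map_smul, h8, h.proj_other hij hy, O.map_Q, qa, qb, polar_sub_left,
      B_smul_left, O.map_B, h12, smul_smul, inv_one, one_mul]
    linear_combination (norm := module) (-polar Q y (g.1 a) * h11) • π i (g.1 a)

theorem mem_of_invol (hp : Pl3 Q D) (h : Ctx Q D π 2 X) (hX : ¬ Om Q ≤ X) (h2 : (2 : F) = 0)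
    {g : O Q} (hg : g ∈ X) {c : O Q} (hc : c ∈ Hh Q D ⊓ Om Q) (h0 : c ≠ 1) (hcc : c * c = 1)
    (h1 : Commute g c) : g ∈ Hh Q D := by
  classical
  have h3 : finrank F V ≤ 6 := by
    have e1 := Submodule.finrank_add_le_finrank_add_finrank (D 0 ⊔ D 1) (D 2)
    have e2 := Submodule.finrank_add_le_finrank_add_finrank (D 0) (D 1)
    rw [show D 0 ⊔ D 1 ⊔ D 2 = ⊤ from eq_top_iff.2 fun x _ => by
      rw [← h.sum x, Fin.sum_univ_three]
      exact Submodule.add_mem_sup (Submodule.add_mem_sup (h.mem 0 x) (h.mem 1 x)) (h.mem 2 x),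
      finrank_top] at e1
    simp only [h.dim] at e1 e2
    omega
  have h4 := NdOn.two_mul_le (Q := Q) (W := ⊤) (fun x _ hx => h.nd x fun y => hx y trivial)
    (N := mov c) le_top (by
      rintro _ ⟨x, rfl⟩ y hy
      refine B_fix_mov ?_ hy
      change c.1 (x - c.1 x) = x - c.1 x
      rw [map_sub, ← O.mul_apply, hcc, O.one_apply]
      linear_combination (norm := module) h2 • (c.1 x - x))
  have h5 := ((mem_Om_iff h.nd h.good c).1 hc.2).1
  rw [dk_apply, neg_one_pow_eq_one_iff_even (by decide), Nat.even_iff] at h5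
  rw [finrank_top] at h4
  obtain ⟨l, hl⟩ := exists_fix h.toBlk hc.1 (P := mov c) (by omega) (sub_mem_mov c)
  obtain ⟨σ, hσ⟩ := Hh_elim hc.1
  by_cases h6 : ∀ i, σ i = i
  · exact hp.mem_of_fix h hX hg (fun i x hx => by simpa only [h6 i] using (hσ i x).1 hx) h0 h1 hl
  push Not at h6
  obtain ⟨i, h6⟩ := h6
  obtain ⟨x, hx, qx⟩ := h.exists_nonsing l
  have h7 : σ l = l := h.eq_of_mem (hl x hx ▸ (hσ l x).1 hx) hx (ne_zero_of_Q_ne qx)
  have h8 : l ≠ i := by rintro rfl; exact h6 h7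
  exact hp.mem_of_swap h hX h2 hg h1 h6.symm h8 (h7 ▸ σ.injective.ne h8) (fun x => (hσ i x).1) hl

theorem le_even (hp : Pl3 Q D) (h : Ctx Q D π 2 X) (hX : ¬ Om Q ≤ X) (h2 : (2 : F) = 0) :
    X ≤ Hh Q D ⊓ Om Q := by
  classical
  have := finiteO Q
  obtain ⟨a, ha, qa⟩ := h.universal le_rfl 0 1
  obtain ⟨s, h1, h3, h4⟩ : ∃ s ∈ Hh Q D ⊓ Om Q, s * s = 1 ∧ ∀ x ∈ D 0, s.1 x ∈ D 1 := by
    obtain ⟨s, h1, h3, -, h4, h5⟩ := h.exists_swap (show (0 : Fin 3) ≠ 1 by decide)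
    rw [Om_eq_ker_dk h.nd h.good h2]
    rcases Int.units_eq_one_or (dk h.nd h.good s) with e | e
    · exact ⟨s, ⟨h1, e⟩, h5, h3⟩
    obtain ⟨c, hc, qc⟩ := h.exists_nonsing 2
    refine ⟨s * refl Q c, ⟨Subgroup.mul_mem _ h1 (h.refl_mem hc), ?_⟩, ?_, fun x hx => ?_⟩
    · simp [e, dk_refl _ _ qc]
    · rw [(commute_refl_of_fix (h4 c (h.proj_other (by decide) hc)
        (h.proj_other (by decide) hc))).symm.mul_mul_mul_comm, h5, refl_mul_self, one_mul]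
    · rw [O.mul_apply, h.refl_other (by decide) hx hc]; exact h3 x hx
  have ht : T2 Q D 1 {0, 1} (refl Q a * refl Q (s.1 a)) :=
    ⟨0, 1, _, _, by decide, rfl, ha, h4 a ha, qa, by rw [O.map_Q, qa], rfl⟩
  have h5 : Commute s (refl Q a * refl Q (s.1 a)) := by
    rw [Commute, SemiconjBy, ← mul_inv_eq_iff_eq_mul, rr_conj, ← O.mul_apply, h3, O.one_apply]
    exact (commute_refl_refl (h.orth 1 0 (by decide) _ (h4 a ha) _ ha)).eq
  generalize refl Q a * refl Q (s.1 a) = t at ht h5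
  obtain ⟨h6, h7⟩ := h.t2_mem ht
  intro g hg
  have key : ∀ s ∈ Hh Q D ⊓ Om Q, s * s = 1 → (∀ x ∈ D 0, s.1 x ∈ D 1) → g * s * g⁻¹ ∈ Hh Q D := by
    intro s h1 h3 h4
    have hs := X.mul_mem (X.mul_mem hg (h.le h1)) (X.inv_mem hg)
    have hr := fun k : ℕ => X.pow_mem (X.mul_mem (h.le h6) hs) k
    rcases dihedral_cases h7 (show g * s * g⁻¹ * (g * s * g⁻¹) = 1 by rw [conj_mul, h3]; group) with
      ⟨k, hk⟩ | ⟨N, e1, e2, e3, e4, -⟩
    · exfalso
      have h8 := hr k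
      generalize (t * (g * s * g⁻¹)) ^ k = r at hk h8
      have h9 : g⁻¹ * r * t * (g⁻¹ * r)⁻¹ = s := by
        calc _ = g⁻¹ * (r * t * r⁻¹) * g := by group
          _ = s := by rw [hk]; group
      obtain ⟨σ, hσ⟩ := Hh_elim (hp.mem_of_t2 h hX (X.mul_mem (X.inv_mem hg) h8) one_ne_zero ht
        (h9 ▸ h1.1))
      generalize g⁻¹ * r = k at h9 hσ
      obtain ⟨m, hm⟩ := σ.surjective 0
      have h10 := (hσ m _).1 (h.t2_stab ht m _ ((hσ m ((k⁻¹).1 a)).2 (by rwa [O.apply_inv_apply, hm])))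
      rw [← O.mul_apply, ← O.mul_apply, h9, hm] at h10
      exact absurd (h.eq_of_mem h10 (h4 a ha) (O.apply_ne_zero _ (ne_zero_of_Q_ne
        (qa ▸ one_ne_zero)))) (by decide)
    · exact hp.mem_of_invol h hX h2 hs ⟨hp.mem_of_t2 h hX (hr N) one_ne_zero ht (by
        rw [e3.eq, mul_inv_cancel_right]; exact h6.1), h.le' (hr N)⟩ e1 e2 e4.symm
  refine ⟨hp.mem_of_t2 h hX hg one_ne_zero ht ?_, h.le' hg⟩
  have := Subgroup.mul_mem _ (key s h1 h3 h4) (key (s * t) (Subgroup.mul_mem _ h1 h6)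
    (by rw [h5.symm.mul_mul_mul_comm, h3, h7, one_mul]) fun x hx => h4 _ (h.t2_stab ht 0 x hx))
  rwa [conj_mul, ← mul_assoc s, h3, one_mul] at this

end Pl3

theorem isMaximalIn_three (h : Blk Q D π 2) (hp : Pl3 Q D) :
    Geo.IsMaximalIn (Om Q) (Hh Q D ⊓ Om Q) := by
  refine H97.isMaximalIn_of inf_le_right (fun h1 => ?_) fun X hX hX' ⟨g, hg, hg'⟩ =>
    by_contra fun h1 => hg' ?_
  swap
  · by_cases h2 : (2 : F) = 0
    exacts [hp.le_even ⟨h, hX, hX'⟩ h1 h2 hg, hp.le_odd ⟨h, hX, hX'⟩ h1 h2 hg]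
  obtain ⟨i, j, hij, hl⟩ : ∃ i j : Fin 3, i ≠ j ∧ 2 ≠ i ∧ 2 ≠ j := ⟨0, 1, by decide⟩
  generalize (2 : Fin 3) = l at hl
  obtain ⟨a, ha, qa⟩ := h.universal le_rfl i (1 : F)
  obtain ⟨b, hb, qb⟩ := h.universal le_rfl j (-1 : F)
  obtain ⟨w, hw, qw⟩ := h.exists_nonsing l
  obtain ⟨x, hx, h2⟩ := (h.ndOn l).exists_B_ne hw (ne_zero_of_Q_ne qw)
  have hd : Q (a + b) = 0 := by rw [Q_add_orth (h.orth i j hij a ha b hb), qa, qb, add_neg_cancel]
  have h3 : ∀ w ∈ D l, polar Q (a + b) w = 0 := fun w hw => by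
    rw [polar_add_left, h.orth i l (Ne.symm hl.1) a ha w hw, h.orth j l (Ne.symm hl.2) b hb w hw,
      add_zero]
  obtain ⟨σ, hσ⟩ := Hh_elim (h1 (eich_mem_Om h.nd h.good (a + b) w)).1
  have h4 := (hσ l x).1 hx
  rw [eich_apply_of_orth_left hd (h3 w hw) (B_symm (h3 x hx))] at h4
  have e1 := h.proj_ite i h4
  have e2 := h.proj_ite j h4
  simp only [map_add, map_smul, h.proj_self ha, h.proj_self hb, h.proj_other hij hb, add_zero,
    h.proj_other hij.symm ha, h.proj_other (Ne.symm hl.1) hx, h.proj_other (Ne.symm hl.2) hx,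
    zero_add] at e1 e2
  by_cases h6 : i = σ l
  · rw [if_neg fun e => hij (h6.trans e.symm)] at e2
    exact smul_ne_zero (B_symm_ne h2) (ne_zero_of_Q_ne (by rw [qb]; simp)) e2
  · rw [if_neg h6] at e1
    exact smul_ne_zero (B_symm_ne h2) (ne_zero_of_Q_ne (by rw [qa]; simp)) e1

end H28.Four
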