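import Mathlib
import Cfsg.Agent.Base
import Cfsg.Agent.Lib.ClassMax.OThree

/-!
The stabiliser of a non-degenerate plane in `Ω₅(q)`, `q ≥ 5` odd, is a maximal subgroup.
-/

set_option autoImplicit false
set_option linter.unusedSectionVars false
set_option linter.unusedVariables false

namespace H28.Four

open Module Cfsg H12 QuadraticMap H97o

variable {F V : Type*} [Field F] [Fintype F] [AddCommGroup V] [Module F V] [FiniteDimensional F V]
  {Q : QuadraticForm F V}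

theorem mem_span_of_le_one {U : Submodule F V} (h : finrank F U ≤ 1) {a p : V} (ha : a ∈ U)
    (h0 : a ≠ 0) (hp : p ∈ U) : p ∈ F ∙ a := by
  rwa [Submodule.eq_of_le_of_finrank_le ((Submodule.span_singleton_le_iff_mem _ _).2 ha)
    (by rwa [finrank_span_singleton h0])]

theorem finrank_inf_orth_lt {U : Submodule F V} {a f : V} (hf : f ∈ U) (h : polar Q a f ≠ 0) :
    finrank F ↥(U ⊓ orth Q a) < finrank F U :=
  Submodule.finrank_lt_finrank_of_lt (lt_of_le_of_ne inf_le_left fun e =>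
    h (mem_orth.1 (e.symm ▸ hf : f ∈ U ⊓ orth Q a).2))

theorem eq_zero_of_plane (h2 : (2 : F) ≠ 0) {U : Submodule F V} (hU : finrank F U = 2) {a b x : V}
    (ha : a ∈ U) (hb : b ∈ U) (hqa : Q a ≠ 0) (hqb : Q b ≠ 0) (hab : polar Q a b = 0) (hx : x ∈ U)
    (h1 : polar Q a x = 0) (h3 : polar Q b x = 0) : x = 0 := by
  obtain ⟨s, t, rfl⟩ := mem_plane (Q := Q) hU ha hb (by
    rw [hab, show (4 : F) = 2 * 2 by norm_num]
    simpa using ⟨h2, hqa, hqb⟩) hx
  simp only [polar_add_right, B_smul_right, B_self, hab, B_symm hab, mul_zero, add_zero, zero_add,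
    mul_eq_zero, h2, hqa, hqb, or_false] at h1 h3
  simp [h1, h3]

theorem exists_orth_in (h2 : (2 : F) ≠ 0) {U : Submodule F V} (hU : NdOn Q U)
    (hd : 2 ≤ finrank F U) {a : V} (ha : a ∈ U) (hq : Q a ≠ 0) :
    ∃ b ∈ U, Q b ≠ 0 ∧ polar Q a b = 0 := by
  have := finrank_inf_orth (Q := Q) U a
  obtain ⟨b, hb, hb'⟩ := (hU.inf_orth h2 ha hq).exists_Q_ne' (by omega)
  exact ⟨b, hb.1, hb', mem_orth.1 hb.2⟩

/-- An orthogonal splitting of a five-dimensional space. -/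
structure Sp5 (Q : QuadraticForm F V) (Y W : Submodule F V) : Prop where
  nd : Nondeg Q
  two : (2 : F) ≠ 0
  big : 4 ≤ Fintype.card F
  orth : ∀ y ∈ Y, ∀ w ∈ W, polar Q y w = 0
  dec : ∀ x, ∃ y ∈ Y, ∃ w ∈ W, x = y + w
  dY : finrank F Y = 3
  dW : finrank F W = 2

theorem mem_mapO {T : Submodule F V} {g : O Q} {x : V} :
    x ∈ T.map (g.1 : V →ₗ[F] V) ↔ (g⁻¹).1 x ∈ T := H97.mem_map_le'

theorem app_mem_mapO {T : Submodule F V} {g : O Q} {x : V} :
    g.1 x ∈ T.map (g.1 : V →ₗ[F] V) ↔ x ∈ T := H97.mem_map_le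

namespace Sp5

variable {Y W : Submodule F V} (h : Sp5 Q Y W)
include h

theorem good : Good Q := good_of_two_ne_zero h.nd h.two

theorem ndY : NdOn Q Y := fun x hx h1 => h.nd x fun z => by
  obtain ⟨y, hy, w, hw, rfl⟩ := h.dec z
  rw [polar_add_right, h1 y hy, h.orth x hx w hw, add_zero]

theorem ndW : NdOn Q W := fun x hx h1 => h.nd x fun z => by
  obtain ⟨y, hy, w, hw, rfl⟩ := h.dec z
  rw [polar_add_right, h1 w hw, B_symm (h.orth y hy x hx), add_zero]

theorem eq_zero {x : V} (h1 : x ∈ Y) (h2 : x ∈ W) : x = 0 :=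
  h.ndY x h1 fun y hy => B_symm (h.orth y hy x h2)

theorem memY {x : V} (h1 : ∀ w ∈ W, polar Q x w = 0) : x ∈ Y := by
  obtain ⟨y, hy, w, hw, rfl⟩ := h.dec x
  have := h.ndW w hw fun z hz => by simpa [polar_add_left, h.orth y hy z hz] using h1 z hz
  simpa [this] using hy

theorem memW {x : V} (h1 : ∀ y ∈ Y, polar Q x y = 0) : x ∈ W := by
  obtain ⟨y, hy, w, hw, rfl⟩ := h.dec x
  have := h.ndY y hy fun z hz => by
    simpa [polar_add_left, B_symm (h.orth z hz w hw)] using h1 z hz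
  simpa [this] using hw

theorem dim : finrank F V = 5 := by
  have h1 := Submodule.finrank_sup_add_finrank_inf_eq Y W
  rw [show Y ⊔ W = ⊤ from eq_top_iff.2 fun x _ => by
      obtain ⟨y, hy, w, hw, rfl⟩ := h.dec x
      exact Submodule.add_mem_sup hy hw,
    show Y ⊓ W = ⊥ from eq_bot_iff.2 fun x hx => h.eq_zero hx.1 hx.2, finrank_top, finrank_bot,
    h.dY, h.dW] at h1
  exact h1

theorem map (g : O Q) : Sp5 Q (Y.map (g.1 : V →ₗ[F] V)) (W.map (g.1 : V →ₗ[F] V)) where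
  nd := h.nd
  two := h.two
  big := h.big
  orth := by
    rintro _ ⟨y, hy, rfl⟩ _ ⟨w, hw, rfl⟩
    exact (O.map_B g y w).trans (h.orth y hy w hw)
  dec x := by
    obtain ⟨y, hy, w, hw, e⟩ := h.dec ((g⁻¹).1 x)
    exact ⟨g.1 y, app_mem_mapO.2 hy, g.1 w, app_mem_mapO.2 hw, by
      rw [← map_add, ← e, O.apply_inv_apply]⟩
  dY := (LinearEquiv.finrank_map_eq _ _).trans h.dY
  dW := (LinearEquiv.finrank_map_eq _ _).trans h.dW

theorem mapsW {g : O Q} (hg : ∀ y ∈ Y, g.1 y ∈ Y) {w : V} (hw : w ∈ W) : g.1 w ∈ W :=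
  h.memW fun y hy => by
    have := (H97.mem_stab_of_maps (g := g.1) hg ((g⁻¹).1 y)).2 (by rwa [O.apply_inv_apply])
    rw [O.B_apply_left, B_symm (h.orth _ this w hw)]

theorem exists_basis {d : V} (hd : d ∈ Y) (h0 : d ≠ 0) (hq : Q d = 0) :
    ∃ e ∈ Y, ∃ p ∈ Y, IsHyp Q d e ∧ Q p ≠ 0 ∧ polar Q d p = 0 ∧ polar Q e p = 0 ∧
      ∀ T : Submodule F V, d ∈ T → e ∈ T → p ∈ T → Y ≤ T := by
  obtain ⟨e, he, hde⟩ := h.ndY.exists_hyp hd h0 hq
  obtain ⟨p, hp, h1, h2, h3⟩ := h.ndY.exists_orth_hyp h.dY.ge hd he hde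
  refine ⟨e, he, p, hp, hde, h1, h2, h3, fun T h4 h5 h6 => ?_⟩
  rw [← Submodule.eq_of_le_of_finrank_le (S₁ := Submodule.span F {d, e, p})
    (Submodule.span_le.2 (by rintro _ (rfl | rfl | rfl) <;> assumption))
    (h.dY.trans (finrank_three (Q := Q) (by simp [hde.hef, hq]) (B_symm h2) (B_symm h3) h1).symm).le]
  exact Submodule.span_le.2 (by rintro _ (rfl | rfl | rfl) <;> assumption)

theorem exists_sing : ∃ d ∈ Y, d ≠ 0 ∧ Q d = 0 := exists_sing_in Q Y h.dY.ge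

theorem rr_maps {u w : V} (hu : u ∈ Y) (hw : w ∈ W) {y : V} (hy : y ∈ Y) :
    (refl Q u * refl Q w).1 y ∈ Y := by
  rw [O.mul_apply, refl_apply_of_orth (h.orth y hy w hw)]
  exact movIn_apply (refl_mem_movIn hu) hy

/-- a subspace of `W` invariant under all reflections is trivial -/
theorem irr {S : Submodule F V} {s : V} (hs : s ∈ S) (hsW : s ∈ W) (h0 : s ≠ 0)
    (hS : ∀ w ∈ W, Q w ≠ 0 → (refl Q w).1 s ∈ S) : W ≤ S := by
  obtain ⟨z, hz, hzs⟩ := exists_notMem_of_lt (W := W) (U := F ∙ s)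
    (by rw [finrank_span_singleton h0, h.dW]; omega)
  have hsp : W = (F ∙ s) ⊔ F ∙ z := (Submodule.eq_of_le_of_finrank_le (sup_le
    ((Submodule.span_singleton_le_iff_mem _ _).2 hsW)
    ((Submodule.span_singleton_le_iff_mem _ _).2 hz)) (by
      rw [Submodule.finrank_sup_span_singleton hzs, finrank_span_singleton h0, h.dW])).symm
  have hne : polar Q s z ≠ 0 ∨ Q s ≠ 0 := by
    by_contra hc
    push Not at hc
    refine h0 (h.ndW s hsW fun y hy => ?_)
    rw [hsp] at hy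
    obtain ⟨a, ha, b, hb, rfl⟩ := Submodule.mem_sup.1 hy
    obtain ⟨c, rfl⟩ := Submodule.mem_span_singleton.1 ha
    obtain ⟨c', rfl⟩ := Submodule.mem_span_singleton.1 hb
    simp [polar_add_right, B_smul_right, B_self, hc.1, hc.2]
  obtain ⟨t, ht⟩ : ∃ t : F, (polar Q s z + t * (2 * Q s)) * (Q z + t * polar Q s z + t ^ 2 * Q s) ≠ 0 := by
    by_contra hc
    push Not at hc
    have := Polynomial.eq_zero_of_natDegree_lt_card_of_eval_eq_zero
      ((Polynomial.C (polar Q s z) + Polynomial.X * Polynomial.C (2 * Q s)) *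
        (Polynomial.C (Q z) + Polynomial.X * Polynomial.C (polar Q s z) +
          Polynomial.X ^ 2 * Polynomial.C (Q s))) (f := id) Function.injective_id
      (fun t => by
        rw [← hc t]
        simp only [id, Polynomial.eval_mul, Polynomial.eval_add, Polynomial.eval_C,
          Polynomial.eval_X, Polynomial.eval_pow]) (lt_of_le_of_lt (by compute_degree) (show 3 < _ from h.big))
    rcases mul_eq_zero.1 this with h1 | h1
    · have a0 := congrArg (Polynomial.coeff · 0) h1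
      have a1 := congrArg (Polynomial.coeff · 1) h1
      simp [h.two] at a0 a1
      tauto
    · have a1 := congrArg (Polynomial.coeff · 1) h1
      have a2 := congrArg (Polynomial.coeff · 2) h1
      simp [Polynomial.coeff_X, Polynomial.coeff_X_pow] at a1 a2
      tauto
  obtain ⟨h1, h2⟩ := mul_ne_zero_iff.1 ht
  have h3 : Q (z + t • s) ≠ 0 := by
    rw [Q_add, Q_smul, B_smul_right, polar_comm]
    convert h2 using 1; ring
  have h4 := mem_of_refl_mem h3 (by rwa [polar_add_right, B_smul_right, B_self]) hs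
    (hS _ (W.add_mem hz (W.smul_mem t hsW)) h3)
  rw [hsp]
  exact sup_le ((Submodule.span_singleton_le_iff_mem _ _).2 hs)
    ((Submodule.span_singleton_le_iff_mem _ _).2 ((S.add_mem_iff_left (S.smul_mem t hs)).1 h4))

variable {X : Subgroup (O Q)} (hH : ∀ g ∈ Om Q, (∀ y ∈ Y, g.1 y ∈ Y) → g ∈ X)
include hH

theorem eichX {d w : V} (hd : d ∈ Y) (hw : w ∈ Y) : eich Q d w ∈ X :=
  hH _ (eich_mem_Om h.nd h.good d w) fun y hy => movIn_apply (eich_mem_movIn hd hw) hy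

theorem rrX {u w : V} (hu : u ∈ Y) (hw : w ∈ W) (e : Q u = Q w) : refl Q u * refl Q w ∈ X :=
  hH _ (rr_mem_Om h.nd e) fun y hy => h.rr_maps hu hw hy

theorem TF_move {d d' s w : V} (hd : d ∈ Y) (hd' : d' ∈ Y) (hq : Q d = 0) (hq' : Q d' = 0)
    (hdd : polar Q d d' ≠ 0) (hs : s ∈ W) (hw : w ∈ W) (hw' : Q w ≠ 0) (h1 : s ∈ TF X d) :
    (refl Q w).1 s ∈ TF X d' := by
  have e : Q (d - (-(polar Q d d')⁻¹ * Q w) • d') = Q w := by
    rw [Q_sub, Q_smul, hq, hq', B_smul_right]; field_simp; ring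
  have hu : d - (-(polar Q d d')⁻¹ * Q w) • d' ∈ Y := Y.sub_mem hd (Y.smul_mem _ hd')
  have h2 := TF_apply (h.rrX hH hu hw e) h1
  rw [O.mul_apply, O.mul_apply, refl_apply_of_orth (h.orth d hd w hw),
    refl_sub_apply (by rw [Q_smul, hq, hq', mul_zero]) (by rwa [e]),
    refl_apply_of_orth (B_symm (h.orth _ hu _ (movIn_apply (refl_mem_movIn hw) hs)))] at h2
  have h3 := TF_smul h2 (-(polar Q d d')⁻¹ * Q w)⁻¹
  rwa [smul_smul, inv_mul_cancel₀ (mul_ne_zero (neg_ne_zero.2 (inv_ne_zero hdd)) hw'),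
    one_smul] at h3

theorem gain {d w : V} (hd : d ∈ Y) (h0 : d ≠ 0) (hq : Q d = 0) (hw : polar Q d w = 0)
    (hw' : w ∉ Y) (h1 : eich Q d w ∈ X) : Om Q ≤ X := by
  obtain ⟨e, he, p, hp, hde, hqp, hdp, hep, hsp⟩ := h.exists_basis hd h0 hq
  obtain ⟨y, hy, s, hs, rfl⟩ := h.dec w
  have hds := h.orth d hd s hs
  have hdy : polar Q d y = 0 := by simpa [polar_add_right, hds] using hw
  have hs0 : s ≠ 0 := by rintro rfl; exact hw' (by simpa using hy)
  rw [eich_add hq hdy hds] at h1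
  replace h1 := (X.mul_mem_cancel_left (h.eichX hH hd hy)).1 h1
  have hsq : ∀ t : F, eich Q d ((t ^ 2) • s) ∈ X := fun t => by
    by_cases ht : t = 0
    · simp [ht, eich_zero, X.one_mem]
    have ht' : (t⁻¹) ^ 2 ≠ 0 := pow_ne_zero 2 (inv_ne_zero ht)
    have hk : refl Q (d + (t⁻¹ ^ 2) • e) * refl Q (d + (1 : F) • e) ∈ X :=
      hH _ (refl_mul_refl_mem_Om h.nd (by simpa using (hde.Q_comb 1 1).trans_ne (by simp))
        (inv_ne_zero ht) (by
          have a1 := hde.Q_comb 1 (t⁻¹ ^ 2)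
          have a2 := hde.Q_comb 1 1
          rw [one_smul] at a1 a2
          rw [a1, a2]; ring)) fun y hy => movIn_apply (Subgroup.mul_mem _
            (refl_mem_movIn (Y.add_mem hd (Y.smul_mem _ he)))
            (refl_mem_movIn (Y.add_mem hd (Y.smul_mem _ he)))) hy
    have := X.mul_mem (X.mul_mem hk h1) (X.inv_mem hk)
    rwa [eich_conj, O.mul_apply, O.mul_apply, hde.refl_e one_ne_zero, map_smul, hde.refl_f ht',
      refl_apply_of_orth (B_symm (h.orth _ (Y.add_mem hd (Y.smul_mem _ he)) s hs)),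
      refl_apply_of_orth (B_symm (h.orth _ (Y.add_mem hd (Y.smul_mem _ he)) s hs)), smul_smul,
      eich_smul_left hq hds, show -1 * -(t⁻¹ ^ 2)⁻¹ = t ^ 2 by simp] at this
  have h2 : s ∈ TF X d := ⟨hds, fun c => by
    have hB : ∀ a : F, polar Q d (a • s) = 0 := fun a => by rw [B_smul_right, hds, mul_zero]
    have := X.mul_mem (hsq ((c + 1) / 2)) (X.inv_mem (hsq ((c - 1) / 2)))
    rwa [← eich_neg hq (hB _), ← eich_add hq (hB _) (by rw [← neg_smul]; exact hB _), ← neg_smul,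
      ← add_smul, show ((c + 1) / 2) ^ 2 + -((c - 1) / 2) ^ 2 = c by
        have := h.two; field_simp; ring] at this⟩
  have hf : Q ((-Q p) • d + (1 : F) • e + p) = 0 := by
    rw [hde.Q_comb' _ _ (mem_perp.2 ⟨hdp, hep⟩)]; ring
  have hfY : (-Q p) • d + (1 : F) • e + p ∈ Y :=
    Y.add_mem (Y.add_mem (Y.smul_mem _ hd) (Y.smul_mem _ he)) hp
  have h3 : W ≤ TF X d := h.irr h2 hs hs0 fun w hw hqw => by
    have a1 := h.TF_move hH hd he hq hde.hf (by simp [hde.hef]) hs hw hqw h2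
    have a2 := h.TF_move hH he hfY hde.hf hf (by
      rw [hde.B_f_comb _ _ (mem_perp.2 ⟨hdp, hep⟩)]; simpa) (movIn_apply (refl_mem_movIn hw) hs)
      hw hqw a1
    rw [refl_refl] at a2
    exact h.TF_move hH hfY hd hf hq (by
      rw [polar_comm, hde.B_e_comb _ _ (mem_perp.2 ⟨hdp, hep⟩)]; simp) hs hw hqw a2
  have key : ∀ d ∈ Y, W ≤ TF X d → ∀ w, polar Q d w = 0 → w ∈ TF X d := fun d hd h3 w hw => by
    obtain ⟨y, hy, s, hs, rfl⟩ := h.dec w
    refine (TF X d).add_mem ⟨by simpa [polar_add_right, h.orth d hd s hs] using hw, fun c => ?_⟩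
      (h3 hs)
    exact h.eichX hH hd (Y.smul_mem c hy)
  refine Om_le_of_TF h.nd h.good (by rw [h.dim]; omega) hq hde.hf (by simp [hde.hef]) (key d hd h3)
    (key e he fun s hs => ?_)
  obtain ⟨w, hw, hqw⟩ := h.ndW.exists_Q_ne' (by rw [h.dW]; omega)
  have a1 := movIn_apply (refl_mem_movIn (Q := Q) hw) hs
  have := h.TF_move hH hd he hq hde.hf (by simp [hde.hef]) a1 hw hqw (h3 a1)
  rwa [refl_refl] at this

end Sp5

/-- An overgroup without new root elements. -/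
structure Ng5 (Q : QuadraticForm F V) (Y W : Submodule F V) (X : Subgroup (O Q)) : Prop
    extends Sp5 Q Y W where
  le : X ≤ Om Q
  hH : ∀ g ∈ Om Q, (∀ y ∈ Y, g.1 y ∈ Y) → g ∈ X
  no : ∀ d ∈ Y, d ≠ 0 → Q d = 0 → ∀ w, polar Q d w = 0 → eich Q d w ∈ X → w ∈ Y

namespace Ng5

variable {Y W : Submodule F V} {X : Subgroup (O Q)} (h : Ng5 Q Y W X)
include h

theorem map' {k : O Q} (hk : k ∈ X) :
    Ng5 Q (Y.map (k.1 : V →ₗ[F] V)) (W.map (k.1 : V →ₗ[F] V)) X where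
  toSp5 := h.toSp5.map k
  le := h.le
  hH g hg h1 := by
    have := h.hH (k⁻¹ * g * k) (by simpa using Subgroup.Normal.conj_mem inferInstance g hg k⁻¹)
      fun y hy => mem_mapO.1 (h1 _ (app_mem_mapO.2 hy))
    simpa [mul_assoc] using X.mul_mem (X.mul_mem hk this) (X.inv_mem hk)
  no d hd h0 hq w hw h1 := by
    refine mem_mapO.2 (h.no _ (mem_mapO.1 hd) (O.apply_ne_zero _ h0) (by rwa [O.map_Q]) _
      (by rwa [O.map_B]) ?_)
    rw [← eich_conj]
    exact X.mul_mem (X.mul_mem (X.inv_mem hk) h1) (X.inv_mem (X.inv_mem hk))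

theorem stab {m : O Q} (hm : m ∈ X) {d : V} (hd : d ∈ Y) (h0 : d ≠ 0) (hq : Q d = 0)
    (hmd : m.1 d ∈ Y) {y : V} (hy : y ∈ Y) : m.1 y ∈ Y := by
  obtain ⟨e, he, p, hp, hde, hqp, hdp, hep, hsp⟩ := h.exists_basis hd h0 hq
  have hq' : Q (m.1 d) = 0 := by rwa [O.map_Q]
  have h0' := O.apply_ne_zero m h0
  have h1 : m.1 p ∈ Y := h.no _ hmd h0' hq' _ (by rwa [O.map_B]) (by
    rw [← eich_conj]
    exact X.mul_mem (X.mul_mem hm (h.eichX h.hH hd hp)) (X.inv_mem hm))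
  obtain ⟨u, hu, w, hw, hme⟩ := h.dec (m.1 e)
  have hdw := h.orth _ hmd w hw
  have key : ∀ k : O Q, k.1 d ∈ Y → k.1 e ∈ Y → k.1 p ∈ Y → ∀ y ∈ Y, k.1 y ∈ Y :=
    fun k a1 a2 a3 y hy => hsp (Y.comap (k.1 : V →ₗ[F] V)) a1 a2 a3 hy
  have h2 := h.hH (eich Q (m.1 d) w * m) ((Om Q).mul_mem (eich_mem_Om h.nd h.good _ _) (h.le hm))
    (key _ (by rwa [O.mul_apply, eich_apply_self hq' hdw]) (by
      rw [O.mul_apply, eich_apply hq' hdw, O.map_B, hde.hfe, one_smul, hme, add_right_comm,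
        add_sub_cancel_right]
      exact Y.sub_mem (Y.add_mem hu (Y.smul_mem _ hmd)) (Y.smul_mem _ hmd)) (by
      rw [O.mul_apply, eich_apply_of_orth_left hq' hdw (by rw [O.map_B, B_symm hdp])]
      exact Y.add_mem h1 (Y.smul_mem _ hmd)))
  have h3 := h.no _ hmd h0' hq' w hdw ((X.mul_mem_cancel_right hm).1 h2)
  exact key m hmd (by rw [hme]; exact Y.add_mem hu h3) h1 y hy

theorem split {T Z : Submodule F V} (h' : Ng5 Q T Z X)
    (han : ∀ x ∈ T, x ∈ Y → Q x = 0 → x = 0) {a b : V} (ha : a ∈ Y) (hb : b ∈ W) (hd : a + b ∈ T)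
    (h0 : a + b ≠ 0) (hq : Q (a + b) = 0) : a ∈ T := by
  have h2 := h.two
  have hfix : ∀ k ∈ X, k.1 (a + b) = a + b → ∀ x ∈ T, k.1 x ∈ T := fun k hk e x hx =>
    h'.stab hk hd h0 hq (by rwa [e]) hx
  by_cases hqa : Q a = 0
  · exfalso
    obtain ⟨a', ha', ha0, hqa', c, rfl⟩ : ∃ a' ∈ Y, a' ≠ 0 ∧ Q a' = 0 ∧ ∃ c : F, a = c • a' := by
      by_cases h1 : a = 0
      · obtain ⟨d, h3, h4, h5⟩ := h.exists_sing
        exact ⟨d, h3, h4, h5, 0, by simp [h1]⟩
      · exact ⟨a, ha, h1, hqa, 1, by simp⟩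
    obtain ⟨e, he, p, hp, hde, hqp, hdp, hep, -⟩ := h.exists_basis ha' ha0 hqa'
    have hk : ∀ t : F, ∀ x ∈ T, (eich Q a' (t • p)).1 x ∈ T := fun t =>
      hfix _ (h.eichX h.hH ha' (Y.smul_mem t hp)) (eich_apply_of_orth (by
        simp [polar_add_left, B_smul_left, B_sing hqa', B_symm (h.orth _ ha' b hb)]) (by
        simp [polar_add_left, B_smul_left, B_smul_right, hdp, B_symm (h.orth _ hp b hb)]))
    have hT : ∀ c : F, c • a' ∈ T → c = 0 := fun c hc =>
      (smul_eq_zero.1 (han _ hc (Y.smul_mem c ha') (by rw [Q_smul, hqa', mul_zero]))).resolve_right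
        ha0
    have h3 : ∀ x ∈ T, polar Q x a' = 0 := fun x hx => by
      have := T.sub_mem (T.smul_mem 2 hx) (T.add_mem (hk 1 x hx) (hk (-1) x hx))
      rw [eich_apply hqa' (by simp [B_smul_right, hdp]),
        eich_apply hqa' (by simp [B_smul_right, hdp])] at this
      simp only [B_smul_right, Q_smul] at this
      have h4 := hT (2 * Q p * polar Q x a') (by convert this using 1; module)
      simpa [h2, hqp] using h4
    have h4 : ∀ x ∈ T, polar Q x p = 0 := fun x hx => by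
      have := T.sub_mem (hk 1 x hx) hx
      rw [one_smul, eich_apply_of_orth_left hqa' hdp (h3 x hx), add_sub_cancel_left] at this
      exact hT _ this
    have h5 := h'.memW fun x hx => B_symm (h3 x hx)
    have h6 := h'.memW fun x hx => B_symm (h4 x hx)
    obtain ⟨f, hf, hf'⟩ := h'.ndW.exists_B_ne h5 ha0
    have h7 := finrank_inf_orth_lt hf hf'
    rw [h'.dW] at h7
    exact notMem_span_of_Q hqp hqa' (mem_span_of_le_one (U := Z ⊓ orth Q a') (by omega)
      ⟨h5, mem_orth.2 (B_sing hqa')⟩ ha0 ⟨h6, mem_orth.2 hdp⟩)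
  have hab := h.orth a ha b hb
  have hqb : Q b = -Q a := by rw [Q_add_orth hab] at hq; linear_combination hq
  have hqb' : Q b ≠ 0 := by rwa [hqb, neg_ne_zero]
  obtain ⟨b', hb', hq', hbb⟩ := exists_orth_in h2 h.ndW h.dW.ge hb hqb'
  have hU := h.ndY.inf_orth h2 ha hqa
  have hUd : finrank F ↥(Y ⊓ orth Q a) = 2 := by
    have a1 := finrank_inf_orth (Q := Q) Y a
    have a2 := finrank_inf_orth_lt ha (show polar Q a a ≠ 0 by rw [B_self]; exact mul_ne_zero h2 hqa)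
    rw [h.dY] at a1 a2
    omega
  obtain ⟨m, hm, hqm⟩ := hU.universal hUd.ge (Q b')
  have hqm' : Q m ≠ 0 := by rwa [hqm]
  obtain ⟨n, hn, hqn, hmn⟩ := exists_orth_in h2 hU hUd.ge hm hqm'
  obtain ⟨t, ht, ht'⟩ := exists_sq_avoid h.big hqm' (Q n)
  have hu : Q (m + t • n) ≠ 0 := by rwa [Q_add_orth (by simp [B_smul_right, hmn]), Q_smul]
  obtain ⟨α, β, hβ, hαβ⟩ : ∃ α β : F, β ≠ 0 ∧ Q (α • m + β • n) = Q b' :=
    ⟨1 - (Q (m + t • n))⁻¹ * (2 * Q m), -((Q (m + t • n))⁻¹ * (2 * Q m) * t),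
      neg_ne_zero.2 (mul_ne_zero (mul_ne_zero (inv_ne_zero hu) (mul_ne_zero h2 hqm')) ht), by
      have e := O.map_Q (refl Q (m + t • n)) m
      rw [refl_apply, polar_add_right, B_smul_right, hmn, B_self] at e
      rw [← hqm]
      refine Eq.trans ?_ e
      congr 1; module⟩
  set m' := α • m + β • n with hm'
  have hm'U : m' ∈ Y ⊓ orth Q a := add_mem (Submodule.smul_mem _ _ hm) (Submodule.smul_mem _ _ hn)
  have hZ : ∀ v ∈ Y ⊓ orth Q a, Q v = Q b' → ∀ z ∈ Z,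
      ((Q v)⁻¹ * polar Q z v) • v + ((Q b')⁻¹ * polar Q z b') • b' ∈ Z := fun v hv e z hz => by
    have h3 := h'.mapsW (hfix _ (h.rrX h.hH hv.1 hb' e) (by
      rw [O.mul_apply, refl_apply_of_orth (x := a + b) (by
        rw [polar_add_left, hbb, h.orth a ha b' hb', add_zero]), refl_apply_of_orth (by
        rw [polar_add_left, mem_orth.1 hv.2, B_symm (h.orth v hv.1 b hb), add_zero])])) hz
    have := Z.sub_mem hz h3
    rw [O.mul_apply, refl_apply, refl_apply, polar_sub_left, B_smul_left,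
      B_symm (h.orth v hv.1 b' hb')] at this
    convert this using 1; module
  have key : ∀ z ∈ Z, polar Q z m = 0 → polar Q z m' = 0 → polar Q z b' = 0 → polar Q a z = 0 := by
    intro z hz a1 a2 a3
    have a4 : polar Q z n = 0 := by simpa [hm', polar_add_right, B_smul_right, a1, hβ] using a2
    have a5 := h'.orth _ hd z hz
    rw [polar_add_left] at a5
    obtain ⟨y, hy, w, hw, e⟩ := h.dec (z - ((2 * Q a)⁻¹ * polar Q a z) • (a + b))
    have hY : ∀ v ∈ Y, polar Q v y = polar Q v z - (2 * Q a)⁻¹ * polar Q a z * polar Q v a :=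
      fun v hv => by
        have := congrArg (polar Q v) e
        simpa [polar_sub_right, polar_add_right, B_smul_right, h.orth v hv b hb, h.orth v hv w hw]
          using this.symm
    have hW : ∀ v ∈ W, polar Q v w = polar Q v z - (2 * Q a)⁻¹ * polar Q a z * polar Q v b :=
      fun v hv => by
        have := congrArg (polar Q v) e
        simpa [polar_sub_right, polar_add_right, B_smul_right, B_symm (h.orth a ha v hv),
          B_symm (h.orth y hy v hv)] using this.symm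
    have b1 : y = 0 := eq_zero_of_plane h2 hUd hm hn hqm' hqn hmn ⟨hy, mem_orth.2 (by
        rw [hY a ha, B_self]; field_simp; ring)⟩
      (by rw [hY m hm.1, B_symm a1, B_symm (mem_orth.1 hm.2)]; ring)
      (by rw [hY n hn.1, B_symm a4, B_symm (mem_orth.1 hn.2)]; ring)
    have b2 : w = 0 := eq_zero_of_plane h2 h.dW hb hb' hqb' hq' hbb hw
      (by rw [hW b hb, B_self, hqb, show polar Q b z = -polar Q a z by linear_combination a5]
          field_simp; ring)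
      (by rw [hW b' hb', B_symm a3, B_symm hbb]; ring)
    rw [b1, b2, add_zero, sub_eq_zero] at e
    rw [h'.eq_zero (e ▸ T.smul_mem _ hd) hz, polar_zero_right]
  refine h'.memY fun z hz => ?_
  by_contra hne
  have ham := mem_orth.1 hm.2
  have ham' := mem_orth.1 hm'U.2
  have hmb := h.orth m hm.1 b' hb'
  have hm'b := h.orth m' hm'U.1 b' hb'
  have hab' := h.orth a ha b' hb'
  obtain ⟨z, hz, hne, c1, c2⟩ : ∃ z ∈ Z, polar Q a z ≠ 0 ∧ polar Q z m = 0 ∧ polar Q z b' = 0 := by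
    refine ⟨_, Z.sub_mem hz (Z.smul_mem (2 : F)⁻¹ (hZ m hm hqm z hz)), ?_, ?_, ?_⟩
    · simpa [polar_sub_right, polar_add_right, B_smul_right, ham, hab'] using hne
    · simp only [polar_sub_left, polar_add_left, B_smul_left, B_self, B_symm hmb]
      field_simp; ring
    · simp only [polar_sub_left, polar_add_left, B_smul_left, B_self, hmb]
      field_simp; ring
  have hq2 : Q m' ≠ 0 := by rwa [hαβ]
  have c3 := hZ m' hm'U hαβ z hz
  rw [c2, mul_zero, zero_smul, add_zero] at c3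
  by_cases c4 : polar Q z m' = 0
  · exact hne (key z hz c1 c4 c2)
  replace c3 := (Z.smul_mem_iff (mul_ne_zero (inv_ne_zero hq2) c4)).1 c3
  have c5 := hZ m hm hqm m' c3
  rw [hm'b, mul_zero, zero_smul, add_zero] at c5
  have c6 := finrank_inf_orth_lt hz hne
  rw [h'.dW] at c6
  obtain ⟨c, c7⟩ := Submodule.mem_span_singleton.1 (mem_span_of_le_one (U := Z ⊓ orth Q a)
    (by omega) ⟨c3, hm'U.2⟩ (ne_zero_of_Q_ne hq2) ⟨c5, mem_orth.2 (by simp [B_smul_right, ham])⟩)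
  have c8 : polar Q m' m = 0 := by
    have a1 := congrArg (polar Q n) c7
    simp only [hm', polar_add_right, B_smul_right, B_symm hmn, B_self, mul_zero, zero_add,
      mul_eq_zero, hβ, h2, hqn, or_false] at a1
    rw [a1, zero_smul, eq_comm, smul_eq_zero, mul_eq_zero] at c7
    simpa [hqm', ne_zero_of_Q_ne hqm'] using c7
  refine hne ?_
  have := key _ (Z.sub_mem hz (Z.smul_mem ((2 * Q m')⁻¹ * polar Q z m') c3))
    (by simp [polar_sub_left, B_smul_left, c1, c8])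
    (by simp only [polar_sub_left, B_smul_left, B_self]; field_simp; ring)
    (by simp [polar_sub_left, B_smul_left, c2, hm'b])
  simpa [polar_sub_right, B_smul_right, ham'] using this

theorem comp {m : O Q} (hm : m ∈ X) {x : V} (hx : x ∈ Y.map (m.1 : V →ₗ[F] V)) :
    ∃ a ∈ Y, ∃ b ∈ W, x = a + b ∧ a ∈ Y.map (m.1 : V →ₗ[F] V) := by
  have h' := h.map' hm
  set T := Y.map (m.1 : V →ₗ[F] V)
  by_cases han : ∀ x ∈ T, x ∈ Y → Q x = 0 → x = 0
  swap
  · push Not at han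
    obtain ⟨d, h1, h2, h3, h4⟩ := han
    refine ⟨x, ?_, 0, zero_mem _, by simp, hx⟩
    have := h.stab hm (mem_mapO.1 h1) (O.apply_ne_zero _ h4) (by rwa [O.map_Q])
      (by rwa [O.apply_inv_apply]) (mem_mapO.1 hx)
    rwa [O.apply_inv_apply] at this
  have h1 : ∀ d ∈ T, d ≠ 0 → Q d = 0 → d ∈ T ⊓ Y ⊔ W := fun d hd h0 hq => by
    obtain ⟨a, ha, b, hb, rfl⟩ := h.dec d
    exact Submodule.add_mem_sup ⟨h.split h' han ha hb hd h0 hq, ha⟩ hb
  obtain ⟨d, hd, h0, hq⟩ := h'.exists_sing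
  obtain ⟨e, he, p, hp, hde, hqp, hdp, hep, hsp⟩ := h'.exists_basis hd h0 hq
  have h2 := h1 d hd h0 hq
  have h3 := h1 e he hde.f_ne hde.hf
  have h4 := h1 ((-Q p) • d + (1 : F) • e + p)
    (T.add_mem (T.add_mem (T.smul_mem _ hd) (T.smul_mem _ he)) hp)
    (ne_zero_of_B_ne_right (v := d) (by rw [hde.B_e_comb _ _ (mem_perp.2 ⟨hdp, hep⟩)]; simp))
    (by rw [hde.Q_comb' _ _ (mem_perp.2 ⟨hdp, hep⟩)]; ring)
  obtain ⟨a, ha, b, hb, rfl⟩ := Submodule.mem_sup.1 (hsp _ h2 h3 ((Submodule.add_mem_iff_right _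
    (add_mem (Submodule.smul_mem _ _ h2) (Submodule.smul_mem _ _ h3))).1 h4) hx)
  exact ⟨a, ha.2, b, hb, rfl, ha.1⟩

theorem not_line {R R' : Submodule F V} (hR : ∀ x ∈ R, ∀ y ∈ R', polar Q x y = 0)
    (hd : ∀ x ∈ R, x ∈ R' → x = 0) (h1 : ∀ y ∈ Y, ∃ a ∈ R, ∃ b ∈ R', y = a + b ∧ a ∈ Y)
    (h3 : ∀ k ∈ X, ∀ x ∈ R.map (k.1 : V →ₗ[F] V), ∃ a ∈ R, ∃ b ∈ R', x = a + b ∧
      a ∈ R.map (k.1 : V →ₗ[F] V)) : finrank F ↥(Y ⊓ R) ≠ 1 := by
  intro hr
  have h2 := h.two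
  obtain ⟨c, hc, hc0⟩ := H97.exists_ne_zero_mem hr.ge
  have hsp : ∀ x ∈ Y, x ∈ R → x ∈ F ∙ c := fun x a1 a2 => mem_span_of_le_one hr.le hc hc0 ⟨a1, a2⟩
  have hqc : Q c ≠ 0 := fun h0 => hc0 (h.ndY c hc.1 fun y hy => by
    obtain ⟨a, ha, b, hb, rfl, ha'⟩ := h1 y hy
    obtain ⟨t, rfl⟩ := Submodule.mem_span_singleton.1 (hsp a ha' ha)
    simp [polar_add_right, B_smul_right, B_sing h0, hR c hc.2 b hb])
  obtain ⟨l, hl, hl'⟩ := exists_sq_ne_one h.big
  have hl1 : l - 1 ≠ 0 := fun e => hl' (by rw [sub_eq_zero.1 e, one_pow])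
  have hl2 : 1 + l ≠ 0 := fun e => hl' (by rw [eq_neg_of_add_eq_zero_right e]; ring)
  have a1 := finrank_inf_orth (Q := Q) Y c
  obtain ⟨v, hv, hqv⟩ := (h.ndY.inf_orth h2 hc.1 hqc).universal (by have := h.dY; omega) (l * Q c)
  have hcv := mem_orth.1 hv.2
  have hu : Q (c + v) = (1 + l) * Q c := by rw [Q_add_orth hcv, hqv]; ring
  obtain ⟨w, hw, hqw⟩ := h.ndW.universal h.dW.ge (Q (c + v))
  have huY := Y.add_mem hc.1 hv.1
  set k := refl Q (c + v) * refl Q w with hk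
  have hkc : k.1 c = c - ((1 + l)⁻¹ * 2) • (c + v) := by
    rw [hk, O.mul_apply, refl_apply_of_orth (h.orth c hc.1 w hw), refl_apply, hu, polar_add_right,
      hcv, B_self]
    congr 2; field_simp; ring
  have hkY : ∀ y ∈ Y, k.1 y ∈ Y := fun y hy => h.rr_maps huY hw hy
  obtain ⟨a, ha, b, hb, e, ha'⟩ := h3 k (h.rrX h.hH huY hw hqw.symm) _ (app_mem_mapO.2 hc.2)
  obtain ⟨a', b1, b', b2, e', b3⟩ := h1 _ (hkY c hc.1)
  have haa : a = a' := sub_eq_zero.1 (hd _ (R.sub_mem ha b1) (by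
    rw [show a - a' = b' - b by linear_combination (norm := module) e' - e]
    exact R'.sub_mem b2 hb))
  subst haa
  obtain ⟨s, hs⟩ := Submodule.mem_span_singleton.1 (hsp a b3 ha)
  obtain ⟨t, ht⟩ := Submodule.mem_span_singleton.1 (hsp _
    ((H97.mem_stab_of_maps (g := k.1) hkY ((k⁻¹).1 a)).2 (by rwa [O.apply_inv_apply]))
    (mem_mapO.1 ha'))
  have ht' : a = t • k.1 c := by rw [← map_smul, ht, O.apply_inv_apply]
  have b4 := congrArg (polar Q v) (hs.trans ht')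
  rw [hkc] at b4
  simp only [B_smul_right, polar_sub_right, polar_add_right, B_symm hcv, B_self, hqv] at b4
  have b5 : t = 0 := by
    by_contra h0
    refine mul_ne_zero (mul_ne_zero (mul_ne_zero h0 (inv_ne_zero hl2)) (mul_ne_zero h2 h2))
      (mul_ne_zero hl hqc) ?_
    linear_combination b4
  rw [b5, zero_smul] at ht'
  have b6 := hR c hc.2 b hb
  rw [ht', zero_add, hkc] at e
  rw [← e] at b6
  simp only [B_smul_right, polar_sub_right, polar_add_right, hcv, B_self] at b6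
  field_simp at b6
  refine mul_ne_zero (mul_ne_zero h2 hqc) hl1 ?_
  linear_combination b6

theorem le_stab {g : O Q} (hg : g ∈ X) {y : V} (hy : y ∈ Y) : g.1 y ∈ Y := by
  have h' := h.map' hg
  by_contra hc
  set T := Y.map (g.1 : V →ₗ[F] V) with hT
  set Z := W.map (g.1 : V →ₗ[F] V)
  have e : T.map ((g⁻¹).1 : V →ₗ[F] V) = Y := H97.map_inv_le rfl
  have h1 : ∀ y ∈ Y, ∃ a ∈ T, ∃ b ∈ Z, y = a + b ∧ a ∈ Y := fun y hy => by
    have := h'.comp (X.inv_mem hg) (x := y) (by rwa [e])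
    rwa [e] at this
  have h2 := h.not_line h'.orth (fun _ => h'.eq_zero) h1 fun k hk x hx => h'.comp hk hx
  have h3 := h.not_line (R := Z) (R' := T) (fun x hx y hy => B_symm (h'.orth y hy x hx))
    (fun x a b => h'.eq_zero b a) (fun y hy => by
      obtain ⟨a, ha, b, hb, rfl, ha'⟩ := h1 y hy
      exact ⟨b, hb, a, ha, add_comm _ _, (Y.add_mem_iff_right ha').1 hy⟩) fun k hk x hx => by
      obtain ⟨a, ha, b, hb, rfl⟩ := h'.dec x
      refine ⟨b, hb, a, ha, add_comm _ _, (h'.map' hk).memW fun z hz => ?_⟩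
      obtain ⟨a', ha', b', hb', rfl, a1⟩ := h'.comp hk hz
      have a2 := (h'.map' hk).orth _ ((Submodule.add_mem_iff_right _ a1).1 hz) _ hx
      rw [polar_add_right, B_symm (h'.orth a ha b' hb'), zero_add] at a2
      rw [polar_add_right, B_symm a2, B_symm (h'.orth a' ha' b hb), add_zero]
  have h4 := Submodule.finrank_sup_add_finrank_inf_eq (Y ⊓ T) (Y ⊓ Z)
  rw [show Y ⊓ T ⊔ Y ⊓ Z = Y from le_antisymm (sup_le inf_le_left inf_le_left) fun y hy => by
      obtain ⟨a, ha, b, hb, rfl, ha'⟩ := h1 y hy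
      exact Submodule.add_mem_sup ⟨ha', ha⟩ ⟨(Y.add_mem_iff_right ha').1 hy, hb⟩,
    show Y ⊓ T ⊓ (Y ⊓ Z) = ⊥ from eq_bot_iff.2 fun x hx => h'.eq_zero hx.1.2 hx.2.2,
    finrank_bot, h.dY] at h4
  have h5 := Submodule.finrank_mono (inf_le_right : Y ⊓ Z ≤ Z)
  rw [h'.dW] at h5
  have h6 : Y ⊓ T = T := Submodule.eq_of_le_of_finrank_le inf_le_right (by rw [h'.dY]; omega)
  exact hc (h6.ge (app_mem_mapO.2 hy)).1

end Ng5

/-- The stabiliser of a subspace in the orthogonal group. -/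
def St (Q : QuadraticForm F V) (W : Submodule F V) : Subgroup (O Q) :=
  (H97.stab W).comap (O Q).subtype

theorem mem_St {W : Submodule F V} {g : O Q} : g ∈ St Q W ↔ ∀ x ∈ W, g.1 x ∈ W :=
  ⟨fun h x hx => (h x).1 hx, fun h => H97.mem_stab_of_maps h⟩

theorem Sp5.isMaximalIn {Y W : Submodule F V} (h : Sp5 Q Y W) :
    Geo.IsMaximalIn (Om Q) (St Q Y ⊓ Om Q) := by
  refine H97.isMaximalIn_of inf_le_right (fun hle => ?_) fun M h1 h2 ⟨g, hg, hg'⟩ => ?_
  · obtain ⟨d, hd, h0, hq⟩ := h.exists_sing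
    obtain ⟨e, he, hde⟩ := h.ndY.exists_hyp hd h0 hq
    obtain ⟨w, hw, hw0⟩ := H97.exists_ne_zero_mem (X := W) (by rw [h.dW]; omega)
    have := mem_St.1 (hle (eich_mem_Om h.nd h.good d w)).1 e he
    rw [eich_apply hq (h.orth d hd w hw), hde.hfe, one_smul,
      Y.sub_mem_iff_left (Y.smul_mem _ hd), Y.sub_mem_iff_right (Y.add_mem he (Y.smul_mem _ hd))]
      at this
    exact hw0 (h.eq_zero this hw)
  · have hH : ∀ g ∈ Om Q, (∀ y ∈ Y, g.1 y ∈ Y) → g ∈ M := fun g a b => h1 ⟨mem_St.2 b, a⟩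
    by_contra hc
    refine hg' ⟨mem_St.2 fun y hy => Ng5.le_stab ⟨h, h2, hH, fun d hd h0 hq w hw hw' => ?_⟩ hg hy,
      h2 hg⟩
    by_contra h3
    exact hc (h.gain hH hd h0 hq hw h3 hw')

end H28.Four
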