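import Mathlib
import Cfsg.Agent.Base
import Cfsg.Agent.Lib.Four.O5
import Cfsg.Agent.Lib.Orth12.Klein2
import Cfsg.Agent.Lib.Orth12.Simple
import Cfsg.Agent.Lib.Schur.Hopf

/-!
Transfer of maximality along the Klein correspondence; two classes of maximal subgroups of `Sp₄(q)`.
-/

set_option autoImplicit false
set_option linter.unusedSectionVars false
set_option linter.unusedVariables false

namespace H28.Four

open Module Cfsg H12 QuadraticMap H97o Matrix
open scoped commutatorElement MatrixGroups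

theorem isMaximalIn_transfer {G A B : Type*} [Group G] [Group A] [Group B] (j : G →* A) (ψ : G →* B)
    {K : Subgroup B} {X : Subgroup A} (h : Geo.IsMaximalIn ψ.range (K ⊓ ψ.range))
    (hX : ∀ g, ψ g ∈ K ↔ j g ∈ X) : Geo.IsMaximalIn j.range (X ⊓ j.range) := by
  refine H97.isMaximalIn_of inf_le_right (fun hle => h.1.not_ge ?_) fun M h1 h2 ⟨x, hx, hx'⟩ => ?_
  · rintro _ ⟨g, rfl⟩
    exact ⟨(hX g).2 (hle ⟨g, rfl⟩).1, g, rfl⟩
  rcases h.2 ((M.comap j).map ψ) (by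
      rintro _ ⟨h3, g, rfl⟩
      exact ⟨g, h1 ⟨(hX g).1 h3, g, rfl⟩, rfl⟩) (Subgroup.map_le_range _ _) with h3 | h3
  · obtain ⟨g, rfl⟩ := h2 hx
    exact absurd ⟨(hX g).1 (h3.le ⟨g, hx, rfl⟩).1, g, rfl⟩ hx'
  · rintro _ ⟨g, rfl⟩
    obtain ⟨g', h4, h5⟩ := h3.ge ⟨g, rfl⟩
    have h6 : j (g * g'⁻¹) ∈ M := h1 ⟨(hX _).1 (by rw [map_mul, map_inv, h5]; simp), _, rfl⟩
    simpa using M.mul_mem h6 h4

section Range

variable {F V : Type*} [Field F] [AddCommGroup V] [Module F V] {Q : QuadraticForm F V}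

theorem range_eq_Om [Finite F] [FiniteDimensional F V] (hQ : Nondeg Q) (hn : 5 ≤ finrank F V)
    {G : Type*} [Group G] [Finite G] (φ : G →* O Q)
    (hperf : commutator G = ⊤) (hs : IsSimpleGroup (G ⧸ Subgroup.center G))
    (hne : ∃ g, φ g ≠ 1 ∧ φ g ≠ negO Q)
    (hc : Nonempty (Om Q ⧸ Subgroup.center (Om Q) ≃* G ⧸ Subgroup.center G)) : φ.range = Om Q := by
  have hG := good_of_finrank_ne hQ (show finrank F V ≠ 4 by omega)
  have := finite_O Q
  have hφ : ∀ g, φ g ∈ Om Q := by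
    intro g
    have h1 : g ∈ commutator G := by rw [hperf]; exact Subgroup.mem_top g
    have h2 := Subgroup.mem_map_of_mem φ h1
    rw [commutator_def, Subgroup.map_commutator] at h2
    exact Subgroup.commutator_mono le_top le_top h2
  obtain ⟨e, f, h⟩ := hQ.exists_hyp_of_three_le (by omega)
  set ψ := (QuotientGroup.mk' (Subgroup.center (Om Q))).comp (φ.codRestrict _ hφ) with hψ
  have hk := H10.ker_le_center_of_perfect hperf hs ψ (by
      obtain ⟨g, h1, h2⟩ := hne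
      refine ⟨g, fun hg => ?_⟩
      rw [hψ, MonoidHom.comp_apply, QuotientGroup.mk'_apply, QuotientGroup.eq_one_iff,
        h.mem_center_Om_iff hQ hG (by omega)] at hg
      exact hg.elim h1 h2)
  have h1 : (Subgroup.center G).index ≤ ψ.ker.index :=
    Nat.le_of_dvd (Nat.pos_of_ne_zero Subgroup.FiniteIndex.index_ne_zero)
      (Subgroup.index_dvd_of_le hk)
  obtain ⟨ε⟩ := hc
  have h2 : ψ.range = ⊤ := Subgroup.eq_top_of_card_eq _ (le_antisymm (Subgroup.card_le_card_group _)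
    (by rw [← Subgroup.index_ker, Nat.card_congr ε.toEquiv]; exact h1))
  have h3 : ∀ x : Om Q, ∃ g, ∃ z ∈ Subgroup.center (Om Q), x = φ.codRestrict _ hφ g * z := fun x => by
    obtain ⟨g, hg⟩ : (x : Om Q ⧸ Subgroup.center (Om Q)) ∈ ψ.range := h2 ▸ Subgroup.mem_top _
    exact ⟨g, _, QuotientGroup.eq.1 hg, by group⟩
  have h4 : commutator (Om Q) ≤ (φ.codRestrict _ hφ).range := by
    rw [commutator_def, Subgroup.commutator_le]
    intro x _ y _
    obtain ⟨a, z, hz, rfl⟩ := h3 x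
    obtain ⟨b, w, hw, rfl⟩ := h3 y
    refine ⟨⁅a, b⁆, ?_⟩
    rw [map_commutatorElement, H78.Schur.comm_mul_center hz hw]
  refine le_antisymm (by rintro _ ⟨g, rfl⟩; exact hφ g) fun x hx => ?_
  obtain ⟨g, hg⟩ := h4 (commutator_Om_eq_top hQ hn ▸ Subgroup.mem_top (⟨x, hx⟩ : Om Q))
  exact ⟨g, congrArg Subtype.val hg⟩

end Range

section Sp

variable {F : Type*} [Field F]

/-- Self-adjoint matrices of trace zero. -/
def En : (Unit ⊕ (Fin 2 ⊕ Fin 2) → F) →ₗ[F] Matrix (Fin 2 ⊕ Fin 2) (Fin 2 ⊕ Fin 2) F where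
  toFun v := fromBlocks !![v (.inl ()), v (.inr (.inl 0)); v (.inr (.inr 0)), -v (.inl ())]
    !![0, v (.inr (.inl 1)); -v (.inr (.inl 1)), 0] !![0, -v (.inr (.inr 1)); v (.inr (.inr 1)), 0]
    !![v (.inl ()), v (.inr (.inr 0)); v (.inr (.inl 0)), -v (.inl ())]
  map_add' v w := by
    ext (i | i) (j | j) <;> fin_cases i <;> fin_cases j <;> simp <;> ring
  map_smul' c v := by
    ext (i | i) (j | j) <;> fin_cases i <;> fin_cases j <;> simp

theorem En_apply (v : Unit ⊕ (Fin 2 ⊕ Fin 2) → F) : En v =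
    fromBlocks !![v (.inl ()), v (.inr (.inl 0)); v (.inr (.inr 0)), -v (.inl ())]
    !![0, v (.inr (.inl 1)); -v (.inr (.inl 1)), 0] !![0, -v (.inr (.inr 1)); v (.inr (.inr 1)), 0]
    !![v (.inl ()), v (.inr (.inr 0)); v (.inr (.inl 0)), -v (.inl ())] := rfl

theorem En_inj : Function.Injective (En (F := F)) := by
  intro v w h
  have h1 := congrFun (congrFun h (.inl 0)) (.inl 0)
  have h2 := congrFun (congrFun h (.inl 0)) (.inl 1)
  have h3 := congrFun (congrFun h (.inl 1)) (.inl 0)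
  have h4 := congrFun (congrFun h (.inl 0)) (.inr 1)
  have h5 := congrFun (congrFun h (.inr 1)) (.inl 0)
  ext (i | i | i)
  · exact h1
  all_goals fin_cases i <;> assumption

theorem En_sq (v : Unit ⊕ (Fin 2 ⊕ Fin 2) → F) : En v * En v = QOdd F 2 v • 1 := by
  ext (i | i) (j | j) <;> fin_cases i <;> fin_cases j <;>
    simp [En_apply, QOdd_apply, quadFormOdd, Matrix.mul_apply, Fin.sum_univ_two] <;> ring

theorem En_anti (v w : Unit ⊕ (Fin 2 ⊕ Fin 2) → F) :
    En v * En w + En w * En v = polar (QOdd F 2) v w • 1 := by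
  have h := En_sq (v + w)
  rw [map_add, Q_add, add_mul, mul_add, mul_add, En_sq, En_sq, add_smul, add_smul] at h
  linear_combination (norm := module) h

theorem En_adj (v : Unit ⊕ (Fin 2 ⊕ Fin 2) → F) :
    (En v)ᵀ * J (Fin 2) F = J (Fin 2) F * En v := by
  ext (i | i) (j | j) <;> fin_cases i <;> fin_cases j <;>
    simp [En_apply, J, Matrix.mul_apply, Fin.sum_univ_two]

theorem En_trace (v : Unit ⊕ (Fin 2 ⊕ Fin 2) → F) : (En v).trace = 0 := by
  simp [En_apply, trace, Fin.sum_univ_two]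

theorem exists_En (h2 : (2 : F) ≠ 0) {A : Matrix (Fin 2 ⊕ Fin 2) (Fin 2 ⊕ Fin 2) F}
    (h : Aᵀ * J (Fin 2) F = J (Fin 2) F * A) (ht : A.trace = 0) : ∃ v, En v = A := by
  rw [← Matrix.ext_iff] at h
  simp [J, Matrix.mul_apply, Fin.sum_univ_two, Fin.forall_fin_two] at h
  simp only [trace, diag, Fintype.sum_sum_type, Fin.sum_univ_two] at ht
  refine ⟨Sum.elim (fun _ => A (.inl 0) (.inl 0)) (Sum.elim ![A (.inl 0) (.inl 1), A (.inl 0) (.inr 1)]
    ![A (.inl 1) (.inl 0), A (.inr 1) (.inl 0)]), ?_⟩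
  ext (i | i) (j | j) <;> fin_cases i <;> fin_cases j <;> simp [En_apply]
  all_goals grind

theorem scalar_of_comm {S : Matrix (Fin 2 ⊕ Fin 2) (Fin 2 ⊕ Fin 2) F}
    (h : ∀ v, S * En v = En v * S) : ∃ c : F, S = c • 1 := by
  have h1 := h (Pi.single (.inr (.inl 0)) 1)
  have h3 := h (Pi.single (.inr (.inr 0)) 1)
  have h4 := h (Pi.single (.inr (.inl 1)) 1)
  have h5 := h (Pi.single (.inr (.inr 1)) 1)
  rw [← Matrix.ext_iff] at h1 h3 h4 h5
  simp [En_apply, Matrix.mul_apply, Fin.sum_univ_two, Fin.forall_fin_two] at h1 h3 h4 h5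
  refine ⟨S (.inl 0) (.inl 0), ?_⟩
  ext (i | i) (j | j) <;> fin_cases i <;> fin_cases j <;> simp
  all_goals grind

theorem J_conj (g : symplecticGroup (Fin 2) F) :
    g.1ᵀ * J (Fin 2) F = J (Fin 2) F * (g⁻¹).1 := by
  rw [← SymplecticGroup.mem_iff'.1 g.2, Matrix.mul_assoc _ g.1, SymplecticGroup.mem_iff'.1 g.2,
    ← Submonoid.coe_mul, mul_inv_cancel, Submonoid.coe_one, Matrix.mul_one]

theorem val_mul_inv (g : symplecticGroup (Fin 2) F) : g.1 * (g⁻¹).1 = 1 := by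
  rw [← Submonoid.coe_mul, mul_inv_cancel, Submonoid.coe_one]

theorem val_inv_mul (g : symplecticGroup (Fin 2) F) : (g⁻¹).1 * g.1 = 1 := by
  rw [← Submonoid.coe_mul, inv_mul_cancel, Submonoid.coe_one]

theorem Q_of_En {v w : Unit ⊕ (Fin 2 ⊕ Fin 2) → F} (h : En w * En w = En v * En v) :
    QOdd F 2 w = QOdd F 2 v := by
  rw [En_sq, En_sq] at h
  simpa using congrFun (congrFun h (.inl 0)) (.inl 0)

theorem exists_repSp [Fintype F] (hodd : Odd (Fintype.card F)) :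
    ∃ φ : symplecticGroup (Fin 2) F →* O (QOdd F 2), φ.range = Om (QOdd F 2) ∧
      ∀ g v, En ((φ g).1 v) = g.1 * En v * (g⁻¹).1 := by
  have h2 := odd_card_iff.mp hodd
  obtain ⟨φ, hφ⟩ : ∃ φ : symplecticGroup (Fin 2) F →* O (QOdd F 2),
      ∀ g v, En ((φ g).1 v) = g.1 * En v * (g⁻¹).1 := by
    refine exists_repO id En En_inj (map_add _) (map_smul _) _ _ rfl (by simp) (fun _ _ => rfl)
      (fun g h => by simp) fun g v => ?_
    obtain ⟨w, hw⟩ := exists_En h2 (A := g.1 * En v * (g⁻¹).1) (by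
      rw [transpose_mul, transpose_mul, Matrix.mul_assoc, Matrix.mul_assoc, J_conj,
        ← Matrix.mul_assoc (En v)ᵀ, En_adj, ← Matrix.mul_assoc, ← Matrix.mul_assoc, J_conj, inv_inv]
      simp only [Matrix.mul_assoc])
      (by rw [trace_mul_cycle, val_inv_mul, Matrix.one_mul, En_trace])
    refine ⟨w, hw, Q_of_En ?_⟩
    rw [hw, show g.1 * En v * (g⁻¹).1 * (g.1 * En v * (g⁻¹).1) =
      g.1 * (En v * ((g⁻¹).1 * g.1) * En v) * (g⁻¹).1 by simp only [Matrix.mul_assoc],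
      val_inv_mul, Matrix.mul_one, En_sq, Matrix.mul_smul, Matrix.smul_mul, Matrix.mul_one,
      val_mul_inv]
  refine ⟨φ, ?_, hφ⟩
  have hq : 3 ≤ Fintype.card F := by
    have := Fintype.one_lt_card (α := F)
    obtain ⟨k, hk⟩ := hodd
    omega
  have hp := H11.Sp.commutator_eq_top (F := F) (m := 2) (Or.inr (Or.inl ⟨rfl, hq⟩))
  have : Finite (symplecticGroup (Fin 2) F) := Subtype.finite
  refine range_eq_Om (nondeg_QOdd h2 2) (by rw [finrank_odd]) φ hp
    (H11.Sp.isSimpleGroup_PSp_of_perfect (by omega) hp)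
    ⟨⟨J (Fin 2) F, SymplecticGroup.J_mem _ _⟩, ?_⟩ (nonempty_POm_five hodd)
  rw [← not_or, eq_one_or_negO_iff]
  rintro ⟨ε, -, H⟩
  have h1 := congrArg (· * J (Fin 2) F)
    (hφ ⟨J (Fin 2) F, SymplecticGroup.J_mem _ _⟩ (Pi.single (.inr (.inl 0)) 1))
  have h3 := val_inv_mul (⟨J (Fin 2) F, SymplecticGroup.J_mem _ _⟩ : symplecticGroup (Fin 2) F)
  simp only [H, Matrix.mul_assoc] at h1
  rw [h3] at h1
  simpa [En_apply, J, Matrix.mul_apply, Fin.sum_univ_two] using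
    congrFun (congrFun h1 (.inl 1)) (.inr 0)

theorem range_spGL : (symplecticGroup (Fin 2) F).subtype.toHomUnits.range = spGL 2 F := by
  ext g
  constructor
  · rintro ⟨g, rfl⟩
    exact H11.Sp.form_apply g
  · intro hg
    exact ⟨⟨g.1, H11.Sp.mem_iff_form.2 hg⟩, Units.ext rfl⟩

/-- The vectors whose matrices commute with `T` up to the sign `ε`. -/
def Cm (T : Matrix (Fin 2 ⊕ Fin 2) (Fin 2 ⊕ Fin 2) F) (ε : F) :
    Submodule F (Unit ⊕ (Fin 2 ⊕ Fin 2) → F) where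
  carrier := {v | T * En v = ε • (En v * T)}
  add_mem' {a b} ha hb := by
    simp only [Set.mem_ofPred_eq, map_add, Matrix.mul_add, Matrix.add_mul, smul_add] at *
    rw [ha, hb]
  zero_mem' := by simp
  smul_mem' c a ha := by
    simp only [Set.mem_ofPred_eq, map_smul, Matrix.mul_smul, Matrix.smul_mul] at *
    rw [ha, smul_comm]

theorem mem_Cm {T : Matrix (Fin 2 ⊕ Fin 2) (Fin 2 ⊕ Fin 2) F} {ε : F}
    {v : Unit ⊕ (Fin 2 ⊕ Fin 2) → F} : v ∈ Cm T ε ↔ T * En v = ε • (En v * T) := Iff.rfl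

variable [Fintype F] {T : Matrix (Fin 2 ⊕ Fin 2) (Fin 2 ⊕ Fin 2) F} {δ : F}

theorem cancel_sq {A B : Matrix (Fin 2 ⊕ Fin 2) (Fin 2 ⊕ Fin 2) F} (hδ : δ ≠ 0)
    (hT : A * A = δ • 1) (h : A * B = 0) : B = 0 := by
  have := congrArg (A * ·) h
  simpa [← Matrix.mul_assoc, hT, hδ] using this

theorem sp5_Cm (h2 : (2 : F) ≠ 0) (h4 : 4 ≤ Fintype.card F)
    (hT : Tᵀ * J (Fin 2) F = -(J (Fin 2) F * T)) (hδ : δ ≠ 0) (hsq : T * T = δ • 1) :
    Sp5 (QOdd F 2) (Cm T 1) (Cm T (-1)) := by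
  have hQ := nondeg_QOdd h2 2
  have hB : ∀ v w, En v * En w + En w * En v = 0 → polar (QOdd F 2) v w = 0 := fun v w h => by
    rw [En_anti] at h
    simpa using congrFun (congrFun h (.inl 0)) (.inl 0)
  have horth : ∀ y ∈ Cm T 1, ∀ w ∈ Cm T (-1), polar (QOdd F 2) y w = 0 := fun y hy w hw => by
    rw [mem_Cm] at hy hw
    have h1 : T * (En y * En w + En w * En y) = -((En y * En w + En w * En y) * T) := by
      rw [one_smul] at hy
      rw [neg_one_smul] at hw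
      linear_combination (norm := noncomm_ring) hy * En w + En y * hw + hw * En y - En w * hy
    rw [En_anti, Matrix.mul_smul, Matrix.smul_mul, Matrix.mul_one, Matrix.one_mul,
      eq_neg_iff_add_eq_zero, ← add_smul] at h1
    have h3 := cancel_sq hδ hsq (B := (polar (QOdd F 2) y w + polar (QOdd F 2) y w) • 1)
      (by rwa [Matrix.mul_smul, Matrix.mul_one])
    have h5 := congrFun (congrFun h3 (.inl 0)) (.inl 0)
    simpa [← two_mul, h2] using h5
  have hdec : ∀ x, ∃ y ∈ Cm T 1, ∃ w ∈ Cm T (-1), x = y + w := fun x => by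
    obtain ⟨z, hz⟩ := exists_En h2 (A := δ⁻¹ • (T * En x * T)) (by
      rw [transpose_smul, transpose_mul, transpose_mul, Matrix.smul_mul, Matrix.mul_assoc,
        Matrix.mul_assoc, hT, Matrix.mul_neg, ← Matrix.mul_assoc (En x)ᵀ, En_adj, Matrix.mul_neg,
        ← Matrix.mul_assoc, ← Matrix.mul_assoc, hT]
      simp [Matrix.mul_assoc])
      (by rw [trace_smul, trace_mul_cycle, hsq, Matrix.smul_mul, Matrix.one_mul, trace_smul,
        En_trace, smul_zero, smul_zero])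
    have e1 : T * En z = En x * T := by
      rw [hz, Matrix.mul_smul, ← Matrix.mul_assoc, ← Matrix.mul_assoc, hsq]
      simp [smul_smul, hδ]
    have e2 : En z * T = T * En x := by
      rw [hz, Matrix.smul_mul, Matrix.mul_assoc, hsq]
      simp [smul_smul, hδ]
    refine ⟨(2 : F)⁻¹ • (x + z), Submodule.smul_mem _ _ ?_, (2 : F)⁻¹ • (x - z),
      Submodule.smul_mem _ _ ?_, ?_⟩
    · rw [mem_Cm, map_add, Matrix.mul_add, Matrix.add_mul, e1, e2, one_smul, add_comm]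
    · rw [mem_Cm, map_sub, Matrix.mul_sub, Matrix.sub_mul, e1, e2, neg_one_smul, neg_sub]
    · match_scalars <;> field_simp <;> ring
  have hnd : NdOn (QOdd F 2) (Cm T (-1)) := fun x hx h1 => hQ x fun z => by
    obtain ⟨y, hy, w, hw, rfl⟩ := hdec z
    rw [polar_add_right, h1 w hw, B_symm (horth y hy x hx), add_zero]
  obtain ⟨a, ha, hqa⟩ := hnd.exists_Q_ne' (Nat.one_le_iff_ne_zero.2 fun h0 => by
    obtain ⟨c, rfl⟩ := scalar_of_comm (S := T) fun v => by
      obtain ⟨y, hy, w, hw, rfl⟩ := hdec v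
      rw [Submodule.finrank_eq_zero.1 h0, Submodule.mem_bot] at hw
      simpa [hw] using mem_Cm.1 hy
    have h1 := congrFun (congrFun hT (.inr 0)) (.inl 0)
    have h3 := congrFun (congrFun hsq (.inl 0)) (.inl 0)
    simp [J] at h1 h3
    grind)
  have ha' := mem_Cm.1 ha
  rw [neg_one_smul] at ha'
  obtain ⟨b, hb⟩ := exists_En h2 (A := T * En a) (by
      rw [transpose_mul, Matrix.mul_assoc, hT, Matrix.mul_neg, ← Matrix.mul_assoc, En_adj, ha',
        Matrix.mul_neg, Matrix.mul_assoc])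
    (by
      have := congrArg trace ha'
      rw [trace_neg, trace_mul_comm (En a)] at this
      exact eq_zero_of_eq_neg h2 this)
  have hbW : b ∈ Cm T (-1) := by
    rw [mem_Cm, hb, neg_one_smul, Matrix.mul_assoc, ← Matrix.mul_neg, ← ha']
  have hdW : finrank F (Cm T (-1)) = 2 := by
    have h1 := finrank_inf_orth (Q := QOdd F 2) (Cm T (-1)) a
    have h3 := finrank_inf_orth (Q := QOdd F 2) (Cm T (-1) ⊓ orth (QOdd F 2) a) b
    rw [show Cm T (-1) ⊓ orth (QOdd F 2) a ⊓ orth (QOdd F 2) b = ⊥ from eq_bot_iff.2 fun x hx => by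
      have e1 := En_anti a x
      have e2 := En_anti b x
      have e3 := mem_Cm.1 hx.1.1
      rw [mem_orth.1 hx.1.2, zero_smul] at e1
      rw [mem_orth.1 hx.2, zero_smul, hb, ← Matrix.mul_assoc,
        show En x * T = -(T * En x) by rw [e3]; simp, Matrix.neg_mul, Matrix.mul_assoc,
        Matrix.mul_assoc, eq_neg_of_add_eq_zero_right e1, Matrix.mul_neg, neg_neg,
        ← two_smul F, smul_eq_zero_iff_right h2] at e2
      exact En_inj ((cancel_sq hqa (En_sq a) (cancel_sq hδ hsq e2)).trans (map_zero _).symm),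
      finrank_bot] at h3
    have h5 : b ∉ F ∙ a := notMem_span_of_orth h2 hqa (fun h0 => ne_zero_of_Q_ne hqa (En_inj
      ((cancel_sq hδ hsq (by rw [← hb, h0, map_zero])).trans (map_zero _).symm))) (hB a b (by
        rw [hb, ← Matrix.mul_assoc, ← Matrix.add_mul, ha', add_neg_cancel, Matrix.zero_mul]))
    have h6 := Submodule.finrank_mono (sup_le ((Submodule.span_singleton_le_iff_mem _ _).2 ha)
      ((Submodule.span_singleton_le_iff_mem _ _).2 hbW))
    rw [Submodule.finrank_sup_span_singleton h5, finrank_span_singleton (ne_zero_of_Q_ne hqa)] at h6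
    omega
  refine ⟨hQ, h2, h4, horth, hdec, ?_, hdW⟩
  have h1 := Submodule.finrank_sup_add_finrank_inf_eq (Cm T 1) (Cm T (-1))
  rw [show Cm T 1 ⊔ Cm T (-1) = ⊤ from eq_top_iff.2 fun x _ => by
      obtain ⟨y, hy, w, hw, rfl⟩ := hdec x
      exact Submodule.add_mem_sup hy hw,
    show Cm T 1 ⊓ Cm T (-1) = ⊥ from eq_bot_iff.2 fun x hx => hnd x hx.2 (horth x hx.1),
    finrank_top, finrank_bot, hdW, finrank_odd] at h1
  omega

theorem sp4_of_skew (hodd : Odd (Fintype.card F)) (h4 : 4 ≤ Fintype.card F)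
    (hT : Tᵀ * J (Fin 2) F = -(J (Fin 2) F * T)) (hδ : δ ≠ 0) (hsq : T * T = δ • 1)
    {X : Subgroup (GL (Fin 2 ⊕ Fin 2) F)}
    (hX : ∀ g : GL (Fin 2 ⊕ Fin 2) F, g ∈ X ↔ ∃ c : F, c ≠ 0 ∧ T * g.1 = c • (g.1 * T)) :
    Geo.IsMaximalIn (spGL 2 F) (X ⊓ spGL 2 F) := by
  have h2 := odd_card_iff.mp hodd
  have h := sp5_Cm h2 h4 hT hδ hsq
  obtain ⟨φ, h1, hφ⟩ := exists_repSp hodd
  rw [← range_spGL]
  refine isMaximalIn_transfer _ φ (K := St _ (Cm T 1)) (h1 ▸ h.isMaximalIn) fun g => ?_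
  rw [hX, mem_St]
  change _ ↔ ∃ c : F, c ≠ 0 ∧ T * g.1 = c • (g.1 * T)
  have e1 := val_inv_mul g
  have e2 := val_mul_inv g
  have key : ∀ (ε : F) v, (φ g).1 v ∈ Cm T ε ↔
      (g⁻¹).1 * T * g.1 * En v = ε • (En v * ((g⁻¹).1 * T * g.1)) := fun ε v => by
    rw [mem_Cm, hφ]
    constructor
    · intro h3
      have := congrArg (fun Z => (g⁻¹).1 * Z * g.1) h3
      simp only [Matrix.mul_assoc, e1, Matrix.mul_one, Matrix.mul_smul, Matrix.smul_mul] at this ⊢
      rwa [← Matrix.mul_assoc _ g.1 (En v * ((g⁻¹).1 * _)), e1, Matrix.one_mul] at this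
    · intro h3
      have := congrArg (fun Z => g.1 * Z * (g⁻¹).1) h3
      simp only [Matrix.mul_assoc, e2, Matrix.mul_one, Matrix.mul_smul, Matrix.smul_mul] at this ⊢
      rwa [← Matrix.mul_assoc g.1 (g⁻¹).1, e2, Matrix.one_mul] at this
  constructor
  · intro h3
    obtain ⟨c, hc⟩ := scalar_of_comm (S := (g⁻¹).1 * T * g.1 * T) fun v => by
      obtain ⟨y, hy, w, hw, rfl⟩ := h.dec v
      have a1 := (key _ _).1 (h3 y hy)
      have a2 := (key _ _).1 (h.mapsW h3 hw)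
      generalize (g⁻¹).1 * T * g.1 = S at a1 a2
      rw [map_add, Matrix.mul_add, Matrix.add_mul, Matrix.mul_assoc, Matrix.mul_assoc, mem_Cm.1 hy,
        mem_Cm.1 hw, Matrix.mul_smul, Matrix.mul_smul, ← Matrix.mul_assoc, ← Matrix.mul_assoc, a1, a2]
      simp [Matrix.mul_assoc]
    have h5 : δ • (T * g.1) = c • (g.1 * T) := by
      have := congrArg (fun Z => g.1 * Z * T) hc
      simp only [Matrix.mul_assoc, hsq, Matrix.mul_one, Matrix.mul_smul, Matrix.smul_mul,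
        Matrix.one_mul] at this
      rwa [← Matrix.mul_assoc g.1 (g⁻¹).1, e2, Matrix.one_mul] at this
    refine ⟨δ⁻¹ * c, mul_ne_zero (inv_ne_zero hδ) fun h0 => ?_, by
      rw [mul_smul, ← h5, smul_smul, inv_mul_cancel₀ hδ, one_smul]⟩
    rw [h0, zero_smul, smul_eq_zero_iff_right hδ] at h5
    have := cancel_sq hδ hsq h5
    rw [this, Matrix.mul_zero] at e1
    exact zero_ne_one e1
  · rintro ⟨c, -, hc⟩ y hy
    rw [key, Matrix.mul_assoc _ T, hc, Matrix.mul_smul, ← Matrix.mul_assoc, e1, Matrix.one_mul,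
      Matrix.smul_mul, mem_Cm.1 hy, Matrix.mul_smul, smul_comm]

theorem skew_of_form (h : ∀ u v, sympForm 2 F (T *ᵥ u) v = -sympForm 2 F u (T *ᵥ v)) :
    Tᵀ * J (Fin 2) F = -(J (Fin 2) F * T) := by
  ext i j
  have := h (Pi.single i 1) (Pi.single j 1)
  rw [sympForm, sympForm, ← vecMul_transpose, ← dotProduct_mulVec, mulVec_mulVec, mulVec_mulVec]
    at this
  simpa using this

theorem isCompl_two {ι : Type} [Fintype ι] [DecidableEq ι] {k : ℕ} {D : Fin 2 → Submodule F (ι → F)}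
    (hD : Geo.IsMDecomposition k D) : IsCompl (D 0) (D 1) :=
  ⟨hD.indep.pairwiseDisjoint (show (0 : Fin 2) ≠ 1 by decide), codisjoint_iff.2 (by
    rw [← H97.iSup_two, hD.iSup_eq_top])⟩

theorem sp4_ti_pair (hodd : Odd (Fintype.card F)) (h5 : 5 ≤ Fintype.card F)
    (D : Fin 2 → Submodule F (Fin 2 ⊕ Fin 2 → F)) (hD : Geo.IsMDecomposition 2 D)
    (hts : ∀ i, Geo.IsTotallySingularFor (sympForm 2 F) (D i)) :
    Geo.IsMaximalIn (spGL 2 F) (Geo.decompositionStabilizer D ⊓ spGL 2 F) := by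
  have h2 := odd_card_iff.mp hodd
  have hc := isCompl_two hD
  obtain ⟨T, h0, h1⟩ : ∃ T : Matrix (Fin 2 ⊕ Fin 2) (Fin 2 ⊕ Fin 2) F,
      (∀ x ∈ D 0, T *ᵥ x = x) ∧ ∀ x ∈ D 1, T *ᵥ x = -x :=
    ⟨LinearMap.toMatrix' (LinearMap.ofIsCompl hc (D 0).subtype (-(D 1).subtype)),
      fun x hx => by rw [LinearMap.toMatrix'_mulVec]; exact LinearMap.ofIsCompl_apply_left hc ⟨x, hx⟩,
      fun x hx => by
        rw [LinearMap.toMatrix'_mulVec]; exact LinearMap.ofIsCompl_apply_right hc ⟨x, hx⟩⟩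
  have dec : ∀ x, ∃ a ∈ D 0, ∃ b ∈ D 1, a + b = x := fun x =>
    Submodule.mem_sup.1 (hc.sup_eq_top ▸ Submodule.mem_top)
  have m0 : ∀ x, T *ᵥ x = x → x ∈ D 0 := fun x hx => by
    obtain ⟨a, ha, b, hb, rfl⟩ := dec x
    rw [mulVec_add, h0 a ha, h1 b hb, add_right_inj] at hx
    simpa [eq_zero_of_eq_neg h2 hx.symm] using ha
  have m1 : ∀ x, T *ᵥ x = -x → x ∈ D 1 := fun x hx => by
    obtain ⟨a, ha, b, hb, rfl⟩ := dec x
    rw [mulVec_add, h0 a ha, h1 b hb, neg_add, add_left_inj] at hx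
    simpa [eq_zero_of_eq_neg h2 hx] using hb
  have ext' : ∀ A B : Matrix (Fin 2 ⊕ Fin 2) (Fin 2 ⊕ Fin 2) F, (∀ x ∈ D 0, A *ᵥ x = B *ᵥ x) →
      (∀ x ∈ D 1, A *ᵥ x = B *ᵥ x) → A = B := fun A B a b => Matrix.ext_iff_mulVec.2 fun x => by
    obtain ⟨u, hu, v, hv, rfl⟩ := dec x
    rw [mulVec_add, mulVec_add, a u hu, b v hv]
  refine sp4_of_skew (T := T) (δ := 1) hodd (by omega) (skew_of_form fun u v => ?_) one_ne_zero
    (ext' _ _ (fun x hx => by rw [← mulVec_mulVec, h0 x hx, h0 x hx]; simp)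
      fun x hx => by rw [← mulVec_mulVec, h1 x hx, mulVec_neg, h1 x hx]; simp) fun g => ?_
  · obtain ⟨a, ha, b, hb, rfl⟩ := dec u
    obtain ⟨a', ha', b', hb', rfl⟩ := dec v
    simp only [mulVec_add, h0 a ha, h0 a' ha', h1 b hb, h1 b' hb', H11.Sp.form_add_left,
      H11.Sp.form_add_right, H11.Sp.form_neg_left, H11.Sp.form_neg_right, hts 0 a ha a' ha',
      hts 1 b hb b' hb']
    ring
  rw [H97.decompositionStabilizer_eq, H97.mem_pull]
  constructor
  · intro hg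
    rcases H97.mem_dstab_two.1 hg with ⟨a, b⟩ | ⟨a, b⟩
    · refine ⟨1, one_ne_zero, ext' _ _ (fun x hx => ?_) fun x hx => ?_⟩
      · rw [one_smul, ← mulVec_mulVec, ← mulVec_mulVec, h0 x hx, h0 (g.1 *ᵥ x) ((a x).1 hx)]
      · rw [one_smul, ← mulVec_mulVec, ← mulVec_mulVec, h1 x hx, h1 (g.1 *ᵥ x) ((b x).1 hx),
          mulVec_neg]
    · refine ⟨-1, by simp, ext' _ _ (fun x hx => ?_) fun x hx => ?_⟩
      · rw [neg_one_smul, neg_mulVec, ← mulVec_mulVec, ← mulVec_mulVec, h0 x hx,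
          h1 (g.1 *ᵥ x) (a ▸ ⟨x, hx, rfl⟩)]
      · rw [neg_one_smul, neg_mulVec, ← mulVec_mulVec, ← mulVec_mulVec, h1 x hx,
          h0 (g.1 *ᵥ x) (b ▸ ⟨x, hx, rfl⟩), mulVec_neg, neg_neg]
  · rintro ⟨c, -, hg⟩
    have e : ∀ x, T *ᵥ (g.1 *ᵥ x) = c • (g.1 *ᵥ (T *ᵥ x)) := fun x => by
      rw [mulVec_mulVec, hg, smul_mulVec, mulVec_mulVec]
    obtain ⟨x, hx, hx0⟩ := (D 0).ne_bot_iff.1 (H97.ne_bot_of_decomp hD 0)
    have hc1 : c * c = 1 := by
      have e1 : T *ᵥ (T *ᵥ (g.1 *ᵥ x)) = (c * c) • (g.1 *ᵥ x) := by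
        rw [e x, h0 x hx, mulVec_smul, e x, h0 x hx, smul_smul]
      obtain ⟨a, ha, b, hb, e2⟩ := dec (g.1 *ᵥ x)
      have e3 : T *ᵥ (T *ᵥ (g.1 *ᵥ x)) = g.1 *ᵥ x := by
        rw [← e2, mulVec_add, h0 a ha, h1 b hb, mulVec_add, h0 a ha, mulVec_neg, h1 b hb, neg_neg]
      rw [e3] at e1
      have e4 : g.1 *ᵥ x ≠ 0 := fun h => hx0 ((H97.toLE _ F g).map_eq_zero_iff.1 h)
      exact smul_left_injective F e4 (e1.symm.trans (one_smul _ _).symm)
    refine H97.mem_dstab_of_maps (H97.injective_of_indep hD.indep (H97.ne_bot_of_decomp hD))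
      (fun i j => by rw [hD.finrank_eq, hD.finrank_eq]) (Fin.forall_fin_two.2 ?_)
    rcases mul_self_eq_one_iff.1 hc1 with rfl | rfl
    · exact ⟨⟨0, fun x hx => m0 (g.1 *ᵥ x) (by rw [e, h0 x hx, one_smul])⟩,
        1, fun x hx => m1 (g.1 *ᵥ x) (by rw [e, h1 x hx, one_smul, mulVec_neg])⟩
    · exact ⟨⟨1, fun x hx => m1 (g.1 *ᵥ x) (by rw [e, h0 x hx, neg_one_smul])⟩,
        0, fun x hx => m0 (g.1 *ᵥ x) (by rw [e, h1 x hx, neg_one_smul, mulVec_neg, neg_neg])⟩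

theorem sp4_unitary (hodd : Odd (Fintype.card F)) (h5 : 5 ≤ Fintype.card F)
    (K : Subalgebra F (Matrix (Fin 2 ⊕ Fin 2) (Fin 2 ⊕ Fin 2) F)) (hK : Geo.IsFieldSubalgebra 2 K)
    (hac : Geo.IsAdjointClosedFor (sympForm 2 F) K) (hns : ¬ Geo.IsSelfAdjointFor (sympForm 2 F) K) :
    Geo.IsMaximalIn (spGL 2 F) (Geo.subalgebraNormalizer K ⊓ spGL 2 F) := by
  have h2 := odd_card_iff.mp hodd
  obtain ⟨T, hTK, hT0, hT⟩ : ∃ T ∈ K, T ≠ 0 ∧ Tᵀ * J (Fin 2) F = -(J (Fin 2) F * T) := by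
    simp only [Geo.IsSelfAdjointFor, not_forall] at hns
    obtain ⟨k, hk, u, v, huv⟩ := hns
    obtain ⟨k', hk', e⟩ := hac k hk
    refine ⟨k - k', K.sub_mem hk hk', fun h => huv (by rw [e, sub_eq_zero.1 h]),
      skew_of_form fun u v => ?_⟩
    rw [sub_mulVec, sub_mulVec, H11.Sp.form_sub_left, H11.Sp.form_sub_right, e,
      H11.Sp.form_swap (k' *ᵥ u), ← e v u, H11.Sp.form_swap (k *ᵥ v)]
    ring
  have hJ : ∀ A : Matrix (Fin 2 ⊕ Fin 2) (Fin 2 ⊕ Fin 2) F, J (Fin 2) F * A = 0 → A = 0 :=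
    fun A h => cancel_sq (δ := -1) (by simp) (by simp [J_squared]) h
  have htr : T.trace = 0 := by
    have := congrArg (fun Z => trace (J (Fin 2) F * Z)) hT
    simp only [Matrix.mul_neg, ← Matrix.mul_assoc, J_squared] at this
    rw [trace_mul_cycle, J_squared] at this
    exact eq_zero_of_eq_neg h2 (by simpa using this.symm)
  have h4 : (4 : F) ≠ 0 := by
    rw [show (4 : F) = 2 * 2 by norm_num]; exact mul_ne_zero h2 h2
  have hsp : ∀ x ∈ K, ∃ a b : F, x = a • 1 + b • T := fun x hx => by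
    have h1 : T ∉ F ∙ (1 : Matrix (Fin 2 ⊕ Fin 2) (Fin 2 ⊕ Fin 2) F) := fun h => by
      obtain ⟨c, rfl⟩ := Submodule.mem_span_singleton.1 h
      simp [h4] at htr
      simp [htr] at hT0
    have h3 : (F ∙ (1 : Matrix (Fin 2 ⊕ Fin 2) (Fin 2 ⊕ Fin 2) F)) ⊔ (F ∙ T) = K.toSubmodule :=
      Submodule.eq_of_le_of_finrank_le (sup_le ((Submodule.span_singleton_le_iff_mem _ _).2 K.one_mem)
        ((Submodule.span_singleton_le_iff_mem _ _).2 hTK)) (by
          rw [Submodule.finrank_sup_span_singleton h1, finrank_span_singleton one_ne_zero]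
          exact hK.finrank_eq.le)
    obtain ⟨_, ha, _, hb, rfl⟩ := Submodule.mem_sup.1 (h3.ge hx)
    obtain ⟨a, rfl⟩ := Submodule.mem_span_singleton.1 ha
    obtain ⟨b, rfl⟩ := Submodule.mem_span_singleton.1 hb
    exact ⟨a, b, rfl⟩
  obtain ⟨δ, b, hsq⟩ := hsp _ (K.mul_mem hTK hTK)
  have hb : b = 0 := by
    have e : (T * T)ᵀ * J (Fin 2) F = J (Fin 2) F * (T * T) := by
      rw [transpose_mul, Matrix.mul_assoc, hT, Matrix.mul_neg, ← Matrix.mul_assoc, hT]
      simp [Matrix.mul_assoc]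
    rw [hsq, transpose_add, transpose_smul, transpose_smul, Matrix.add_mul, Matrix.smul_mul,
      Matrix.smul_mul, hT] at e
    have := hJ ((2 * b) • T) (by
      simp only [transpose_one, Matrix.mul_add, Matrix.mul_smul, Matrix.one_mul, Matrix.mul_one] at e ⊢
      linear_combination (norm := module) -e)
    simpa [h2, hT0] using this
  rw [hb, zero_smul, add_zero] at hsq
  have hδ : δ ≠ 0 := by
    rintro rfl
    obtain ⟨y, -, hy⟩ := hK.inv T hTK hT0
    have := congrArg (· * y) hsq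
    simp only [Matrix.mul_assoc, hy, Matrix.mul_one, zero_smul, Matrix.zero_mul] at this
    exact hT0 this
  refine sp4_of_skew hodd (by omega) hT hδ hsq fun g => ⟨fun hg => ?_, ?_⟩
  · obtain ⟨a, c, e⟩ := hsp _ (((Geo.subalgebraNormalizer K).inv_mem hg T).1 hTK)
    rw [inv_inv] at e
    have e1 := congrArg trace e
    rw [trace_mul_cycle, Units.mul_inv, Matrix.one_mul, trace_add, trace_smul, trace_smul, htr] at e1
    have ha : a = 0 := by
      simp at e1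
      norm_num [h4] at e1
      exact e1
    rw [ha, zero_smul, zero_add] at e
    have e2 : T * g.1 = c • (g.1 * T) := by
      rw [← Matrix.mul_smul, ← e, ← Matrix.mul_assoc, ← Matrix.mul_assoc, Units.mul_inv,
        Matrix.one_mul]
    refine ⟨c, fun h0 => ?_, e2⟩
    rw [h0, zero_smul] at e2
    exact g.ne_zero (cancel_sq hδ hsq e2)
  · rintro ⟨c, hc, e⟩ k
    have e1 : g.1 * T * (g⁻¹).1 = c⁻¹ • T := by
      rw [eq_inv_smul_iff₀ hc, ← Matrix.smul_mul, ← e, Matrix.mul_assoc, Units.mul_inv,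
        Matrix.mul_one]
    have e2 : (g⁻¹).1 * T * g.1 = c • T := by
      rw [Matrix.mul_assoc, e, Matrix.mul_smul, ← Matrix.mul_assoc, Units.inv_mul, Matrix.one_mul]
    constructor
    · intro hk
      obtain ⟨a, b, rfl⟩ := hsp k hk
      rw [Matrix.mul_add, Matrix.add_mul, Matrix.mul_smul, Matrix.mul_smul, Matrix.smul_mul,
        Matrix.smul_mul, e1, Matrix.mul_one, Units.mul_inv]
      exact K.add_mem (K.smul_mem K.one_mem _) (K.smul_mem (K.smul_mem hTK _) _)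
    · intro hk
      obtain ⟨a, b, e3⟩ := hsp _ hk
      have : k = (g⁻¹).1 * (a • 1 + b • T) * g.1 := by
        rw [← e3]
        simp only [← Matrix.mul_assoc, Units.inv_mul, Matrix.one_mul]
        rw [Matrix.mul_assoc, Units.inv_mul, Matrix.mul_one]
      rw [this, Matrix.mul_add, Matrix.add_mul, Matrix.mul_smul, Matrix.mul_smul, Matrix.smul_mul,
        Matrix.smul_mul, e2, Matrix.mul_one, Units.inv_mul]
      exact K.add_mem (K.smul_mem K.one_mem _) (K.smul_mem (K.smul_mem hTK _) _)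

end Sp

end H28.Four
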