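import Mathlib
import Cfsg.Agent.Base
import Cfsg.Agent.Lib.Four.Klein
import Cfsg.Agent.Lib.OrthLow.C1
import Cfsg.Agent.Lib.QF.Classify

/-!
The Klein correspondence for `SL₄(q)` and `SU₄(q)`: pairs of complementary planes.
-/

set_option autoImplicit false
set_option linter.unusedSectionVars false
set_option linter.unusedVariables false

namespace H28.Four

open Module Cfsg H12 QuadraticMap H97o Matrix
open scoped MatrixGroups

section Wedge

variable {K : Type*} [Field K]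

/-- The exterior product of two vectors. -/
def wd (x y : Fin 4 → K) : Matrix (Fin 4) (Fin 4) K := of fun i j => x i * y j - y i * x j

theorem wd_apply (x y : Fin 4 → K) (i j : Fin 4) : wd x y i j = x i * y j - y i * x j := rfl

theorem wd_conj (A : Matrix (Fin 4) (Fin 4) K) (x y : Fin 4 → K) :
    A * wd x y * Aᵀ = wd (A *ᵥ x) (A *ᵥ y) := by
  ext i j
  simp only [wd_apply, Matrix.mul_apply, mulVec, dotProduct, transpose_apply, Fin.sum_univ_four]
  ring

/-- Alternating matrices. -/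
def Alt (X : Matrix (Fin 4) (Fin 4) K) : Prop := ∃ a b c d e f, X = alt4 a b c d e f

theorem alt_wd (x y : Fin 4 → K) : Alt (wd x y) :=
  ⟨wd x y 0 1, wd x y 0 2, wd x y 0 3, wd x y 1 2, wd x y 1 3, wd x y 2 3, by
    ext i j; fin_cases i <;> fin_cases j <;> simp [alt4, wd_apply] <;> ring⟩

theorem Alt.smul {X : Matrix (Fin 4) (Fin 4) K} (h : Alt X) (r : K) : Alt (r • X) := by
  obtain ⟨a, b, c, d, e, f, rfl⟩ := h
  exact ⟨_, _, _, _, _, _, alt4_smul ..⟩

/-- The determinant of four vectors. -/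
def dt (x y z w : Fin 4 → K) : K := pf4 (wd x y + wd z w)

theorem dt_eq (x y z w : Fin 4 → K) : dt x y z w = (of ![x, y, z, w]).det := by
  rw [det_fin_four']
  simp [dt, pf4, wd_apply]
  ring

theorem pf4_comb (a f : K) (x y z w : Fin 4 → K) :
    pf4 (a • wd x y + f • wd z w) = a * f * dt x y z w := by
  simp only [dt, pf4, wd_apply, Matrix.add_apply, Matrix.smul_apply, smul_eq_mul]
  ring

theorem pf4_wd (x y : Fin 4 → K) : pf4 (wd x y) = 0 := by
  simp only [pf4, wd_apply]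
  ring

theorem dt_swap (x y z w : Fin 4 → K) : dt z w x y = dt x y z w := by rw [dt, dt, add_comm]

theorem wd_ne_zero {x y z w : Fin 4 → K} (h : dt x y z w ≠ 0) : wd x y ≠ 0 := fun h0 =>
  h (by rw [dt, h0, zero_add, pf4_wd])

theorem dt_ne_zero {x y z w : Fin 4 → K} (h : ⊤ ≤ Submodule.span K (Set.range ![x, y, z, w])) :
    dt x y z w ≠ 0 := by
  rw [dt_eq, ← isUnit_iff_ne_zero, ← isUnit_iff_isUnit_det, ← linearIndependent_rows_iff_isUnit]
  exact linearIndependent_of_top_le_span_of_card_eq_finrank h (by simp)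

theorem mem_of_wd {u v x y : Fin 4 → K} {a : K} (h : wd u v = a • wd x y) (h0 : wd u v ≠ 0) :
    u ∈ Submodule.span K {x, y} ∧ v ∈ Submodule.span K {x, y} := by
  obtain ⟨i, j, hij⟩ : ∃ i j, wd u v i j ≠ 0 := by
    by_contra hc
    push Not at hc
    exact h0 (Matrix.ext hc)
  have e := fun k l => congrFun (congrFun h k) l
  simp only [wd_apply, Matrix.smul_apply, smul_eq_mul] at e hij
  constructor
  · refine (Submodule.smul_mem_iff _ hij).1 (Submodule.mem_span_pair.2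
      ⟨a * (u i * y j - u j * y i), a * (u j * x i - u i * x j), funext fun k => ?_⟩)
    simp only [Pi.add_apply, Pi.smul_apply, smul_eq_mul]
    linear_combination u j * e k i - u i * e k j
  · refine (Submodule.smul_mem_iff _ hij).1 (Submodule.mem_span_pair.2
      ⟨a * (v i * y j - v j * y i), a * (v j * x i - v i * x j), funext fun k => ?_⟩)
    simp only [Pi.add_apply, Pi.smul_apply, smul_eq_mul]
    linear_combination v j * e k i - v i * e k j

theorem wd_of_mem {u v x y : Fin 4 → K} (hu : u ∈ Submodule.span K {x, y})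
    (hv : v ∈ Submodule.span K {x, y}) : ∃ a : K, wd u v = a • wd x y := by
  obtain ⟨a, b, rfl⟩ := Submodule.mem_span_pair.1 hu
  obtain ⟨c, d, rfl⟩ := Submodule.mem_span_pair.1 hv
  refine ⟨a * d - b * c, Matrix.ext fun i j => ?_⟩
  simp only [wd_apply, Pi.add_apply, Pi.smul_apply, Matrix.smul_apply, smul_eq_mul]
  ring

theorem conj_eq_zero {A B X : Matrix (Fin 4) (Fin 4) K} (hA : A.det ≠ 0) (hB : B.det ≠ 0)
    (h : A * X * B = 0) : X = 0 := by
  have h1 := congrArg (fun Z => A⁻¹ * Z * B⁻¹) h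
  simp only [← Matrix.mul_assoc, nonsing_inv_mul _ hA.isUnit, Matrix.one_mul] at h1
  rwa [Matrix.mul_assoc, mul_nonsing_inv _ hB.isUnit, Matrix.mul_one, Matrix.mul_zero,
    Matrix.zero_mul] at h1

theorem pair_cases (A : GL (Fin 4) K) {u v x y z w : Fin 4 → K} (h0 : wd u v ≠ 0)
    (hd : dt x y z w ≠ 0) {a f : K} (h : A.1 * wd u v * A.1ᵀ = a • wd x y + f • wd z w) :
    (∀ p ∈ Submodule.span K {u, v}, A.1 *ᵥ p ∈ Submodule.span K {x, y}) ∨
      ∀ p ∈ Submodule.span K {u, v}, A.1 *ᵥ p ∈ Submodule.span K {z, w} := by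
  have hA : A.1.det ≠ 0 := (isUnit_iff_isUnit_det _).1 A.isUnit |>.ne_zero
  have h1 : A.1 * wd u v * A.1ᵀ ≠ 0 := fun h2 => h0 (conj_eq_zero hA (by rwa [det_transpose]) h2)
  rw [wd_conj] at h h1
  have h2 := pf4_wd (A.1 *ᵥ u) (A.1 *ᵥ v)
  have key : ∀ T : Submodule K (Fin 4 → K), A.1 *ᵥ u ∈ T ∧ A.1 *ᵥ v ∈ T →
      ∀ p ∈ Submodule.span K {u, v}, A.1 *ᵥ p ∈ T := fun T hT p hp => by
    obtain ⟨a, b, rfl⟩ := Submodule.mem_span_pair.1 hp
    rw [mulVec_add, mulVec_smul, mulVec_smul]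
    exact T.add_mem (T.smul_mem _ hT.1) (T.smul_mem _ hT.2)
  rw [h, pf4_comb, mul_eq_zero, mul_eq_zero, or_iff_left hd] at h2
  rcases h2 with rfl | rfl
  · exact Or.inr (key _ (mem_of_wd (by simpa using h) h1))
  · exact Or.inl (key _ (mem_of_wd (by simpa using h) h1))

theorem exists_span_two {D : Submodule K (Fin 4 → K)} (h : finrank K D = 2) :
    ∃ x y, D = Submodule.span K {x, y} := by
  let b := Module.finBasisOfFinrankEq K D h
  refine ⟨b 0, b 1, ?_⟩
  have := congrArg (Submodule.map D.subtype) b.span_eq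
  rw [Submodule.map_subtype_top, Submodule.map_span, ← Set.range_comp] at this
  refine this.symm.trans ?_
  congr 1
  ext v
  simp [Fin.exists_fin_two, eq_comm]

theorem exists_basis_two {D : Fin 2 → Submodule K (Fin 4 → K)} (hD : Geo.IsMDecomposition 2 D) :
    ∃ x y z w, D 0 = Submodule.span K {x, y} ∧ D 1 = Submodule.span K {z, w} ∧ dt x y z w ≠ 0 := by
  obtain ⟨x, y, h0⟩ := exists_span_two (hD.finrank_eq 0)
  obtain ⟨z, w, h1⟩ := exists_span_two (hD.finrank_eq 1)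
  refine ⟨x, y, z, w, h0, h1, dt_ne_zero ?_⟩
  rw [← hD.iSup_eq_top, H97.iSup_two, h0, h1]
  refine sup_le (Submodule.span_mono ?_) (Submodule.span_mono ?_) <;> rintro _ (rfl | rfl) <;> simp

end Wedge

section Kl

variable {F K V G : Type*} [Field F] [Field K] [AddCommGroup V] [Module F V] [Group G]

/-- A group acting on a six-dimensional quadratic space through alternating matrices. -/
structure Kl (ι : F →+* K) (Q : QuadraticForm F V) (emb : V → Matrix (Fin 4) (Fin 4) K)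
    (j : G →* GL (Fin 4) K) (φ : G →* O Q) : Prop where
  nd : Nondeg Q
  dim : finrank F V = 6
  inj : Function.Injective emb
  add : ∀ v w, emb (v + w) = emb v + emb w
  smul : ∀ c v, emb (c • v) = ι c • emb v
  pf : ∀ v, pf4 (emb v) = ι (Q v)
  act : ∀ g v, emb ((φ g).1 v) = (j g).1 * emb v * (j g).1ᵀ
  range : φ.range = Om Q

/-- There are enough rational points in the span of two wedges. -/
def Gd (emb : V → Matrix (Fin 4) (Fin 4) K) (x y z w : Fin 4 → K) : Prop :=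
  dt x y z w ≠ 0 ∧ ∃ (v v' : V) (a f a' f' : K), emb v = a • wd x y + f • wd z w ∧
    emb v' = a' • wd x y + f' • wd z w ∧ a * f' - a' * f ≠ 0

namespace Kl

variable {ι : F →+* K} {Q : QuadraticForm F V} {emb : V → Matrix (Fin 4) (Fin 4) K}
  {j : G →* GL (Fin 4) K} {φ : G →* O Q} (h : Kl ι Q emb j φ)
include h

theorem zero : emb 0 = 0 := by simpa using h.smul 0 0

/-- The rational points in the span of two wedges. -/
def Pl (x y z w : Fin 4 → K) : Submodule F V where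
  carrier := {v | ∃ a f : K, emb v = a • wd x y + f • wd z w}
  add_mem' := by
    rintro u v ⟨a, f, e⟩ ⟨a', f', e'⟩
    exact ⟨a + a', f + f', by rw [h.add, e, e']; module⟩
  zero_mem' := ⟨0, 0, by simp [h.zero]⟩
  smul_mem' := by
    rintro c v ⟨a, f, e⟩
    exact ⟨ι c * a, ι c * f, by rw [h.smul, e]; module⟩

variable {x y z w x' y' z' w' : Fin 4 → K}

theorem Q_eq {v : V} {a f : K} (e : emb v = a • wd x y + f • wd z w) :
    ι (Q v) = a * f * dt x y z w := by rw [← h.pf, e, pf4_comb]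

theorem B_eq {v v' : V} {a f a' f' : K} (e : emb v = a • wd x y + f • wd z w)
    (e' : emb v' = a' • wd x y + f' • wd z w) :
    ι (polar Q v v') = (a * f' + a' * f) * dt x y z w := by
  rw [polar, map_sub, map_sub, h.Q_eq e, h.Q_eq e',
    h.Q_eq (x := x) (y := y) (z := z) (w := w) (a := a + a') (f := f + f')
      (by rw [h.add, e, e']; module)]
  ring

theorem eq_zero_of_orth {v v' u : V} {a f a' f' : K} (hd : dt x y z w ≠ 0)
    (e : emb v = a • wd x y + f • wd z w) (e' : emb v' = a' • wd x y + f' • wd z w)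
    (hn : a * f' - a' * f ≠ 0) (hu : u ∈ h.Pl x y z w) (h1 : polar Q v u = 0)
    (h2 : polar Q v' u = 0) : u = 0 := by
  obtain ⟨s, t, e''⟩ := hu
  have a1 := h.B_eq e e''
  have a2 := h.B_eq e' e''
  rw [h1, map_zero, eq_comm, mul_eq_zero, or_iff_left hd] at a1
  rw [h2, map_zero, eq_comm, mul_eq_zero, or_iff_left hd] at a2
  have hs : s = 0 := (mul_eq_zero.1 (show s * (a * f' - a' * f) = 0 by
    linear_combination a * a2 - a' * a1)).resolve_right hn
  have ht : t = 0 := (mul_eq_zero.1 (show t * (a * f' - a' * f) = 0 by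
    linear_combination f' * a1 - f * a2)).resolve_right hn
  exact h.inj (by rw [e'', hs, ht, h.zero]; simp)

theorem ndOn (hg : Gd emb x y z w) : NdOn Q (h.Pl x y z w) := by
  obtain ⟨hd, v, v', a, f, a', f', e, e', hn⟩ := hg
  exact fun u hu h1 => h.eq_zero_of_orth hd e e' hn hu (B_symm (h1 v ⟨a, f, e⟩))
    (B_symm (h1 v' ⟨a', f', e'⟩))

theorem disc {v v' : V} {a f a' f' : K} (hd : dt x y z w ≠ 0)
    (e : emb v = a • wd x y + f • wd z w) (e' : emb v' = a' • wd x y + f' • wd z w)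
    (hn : a * f' - a' * f ≠ 0) : polar Q v v' ^ 2 ≠ 4 * (Q v * Q v') := fun h1 => by
  have := congrArg ι h1
  rw [map_pow, map_mul, map_mul, h.B_eq e e', h.Q_eq e, h.Q_eq e', map_ofNat] at this
  exact pow_ne_zero 2 (mul_ne_zero hn hd) (by linear_combination this)

variable [FiniteDimensional F V]

theorem finrank_Pl (hg : Gd emb x y z w) : finrank F (h.Pl x y z w) = 2 := by
  obtain ⟨hd, v, v', a, f, a', f', e, e', hn⟩ := hg
  have h1 := finrank_inf_orth (Q := Q) (h.Pl x y z w) v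
  have h2 := finrank_inf_orth (Q := Q) (h.Pl x y z w ⊓ orth Q v) v'
  rw [show h.Pl x y z w ⊓ orth Q v ⊓ orth Q v' = ⊥ from eq_bot_iff.2 fun u hu =>
    h.eq_zero_of_orth hd e e' hn hu.1.1 (mem_orth.1 hu.1.2) (mem_orth.1 hu.2), finrank_bot] at h2
  have h3 : LinearIndependent F ![v, v'] := LinearIndependent.pair_iff.2 fun s t h4 =>
    coef_eq_zero (y := 0) (u := 0) (h.disc hd e e' hn) (polar_zero_left _ _) (polar_zero_left _ _)
      (by rw [h4]; simp) (by rw [h4]; simp)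
  have h4 := finrank_span_eq_card h3
  have h5 := Submodule.finrank_mono (Submodule.span_le.2 (show Set.range ![v, v'] ⊆ h.Pl x y z w by
    rintro _ ⟨i, rfl⟩
    fin_cases i
    exacts [⟨a, f, e⟩, ⟨a', f', e'⟩]))
  rw [Fintype.card_fin] at h4
  omega

theorem maps_of (hg : Gd emb x y z w) (hd' : dt x' y' z' w' ≠ 0) {g : G}
    (h1 : ∀ u ∈ h.Pl x y z w, (φ g).1 u ∈ h.Pl x' y' z' w') :
    ((∀ p ∈ Submodule.span K {x, y}, (j g).1 *ᵥ p ∈ Submodule.span K {x', y'}) ∨
      ∀ p ∈ Submodule.span K {x, y}, (j g).1 *ᵥ p ∈ Submodule.span K {z', w'}) ∧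
    ((∀ p ∈ Submodule.span K {z, w}, (j g).1 *ᵥ p ∈ Submodule.span K {x', y'}) ∨
      ∀ p ∈ Submodule.span K {z, w}, (j g).1 *ᵥ p ∈ Submodule.span K {z', w'}) := by
  obtain ⟨hd, v, v', a, f, a', f', e, e', hn⟩ := hg
  obtain ⟨s, t, e1⟩ := h1 v ⟨a, f, e⟩
  obtain ⟨s', t', e2⟩ := h1 v' ⟨a', f', e'⟩
  rw [h.act, e] at e1
  rw [h.act, e'] at e2
  simp only [Matrix.mul_add, Matrix.add_mul, Matrix.mul_smul, Matrix.smul_mul] at e1 e2
  constructor
  · refine pair_cases (j g) (wd_ne_zero hd) hd' (a := (a * f' - a' * f)⁻¹ * (f' * s - f * s'))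
      (f := (a * f' - a' * f)⁻¹ * (f' * t - f * t')) (smul_right_injective _ hn ?_)
    simp only [smul_add, smul_smul, mul_inv_cancel_left₀ hn]
    linear_combination (norm := module) f' • e1 - f • e2
  · refine pair_cases (j g) (wd_ne_zero (dt_swap x y z w ▸ hd)) hd'
      (a := (a * f' - a' * f)⁻¹ * (a * s' - a' * s))
      (f := (a * f' - a' * f)⁻¹ * (a * t' - a' * t)) (smul_right_injective _ hn ?_)
    simp only [smul_add, smul_smul, mul_inv_cancel_left₀ hn]
    linear_combination (norm := module) a • e2 - a' • e1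

theorem maps_to {g : G}
    (h1 : (∀ p ∈ Submodule.span K {x, y}, (j g).1 *ᵥ p ∈ Submodule.span K {x', y'}) ∨
      ∀ p ∈ Submodule.span K {x, y}, (j g).1 *ᵥ p ∈ Submodule.span K {z', w'})
    (h2 : (∀ p ∈ Submodule.span K {z, w}, (j g).1 *ᵥ p ∈ Submodule.span K {x', y'}) ∨
      ∀ p ∈ Submodule.span K {z, w}, (j g).1 *ᵥ p ∈ Submodule.span K {z', w'}) :
    ∀ u ∈ h.Pl x y z w, (φ g).1 u ∈ h.Pl x' y' z' w' := by
  have key : ∀ x y : Fin 4 → K,
      ((∀ p ∈ Submodule.span K {x, y}, (j g).1 *ᵥ p ∈ Submodule.span K {x', y'}) ∨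
      ∀ p ∈ Submodule.span K {x, y}, (j g).1 *ᵥ p ∈ Submodule.span K {z', w'}) →
      ∃ a f : K, (j g).1 * wd x y * (j g).1ᵀ = a • wd x' y' + f • wd z' w' := fun x y h3 => by
    rw [wd_conj]
    rcases h3 with h3 | h3
    · obtain ⟨a, ha⟩ := wd_of_mem (h3 x (Submodule.subset_span (by simp)))
        (h3 y (Submodule.subset_span (by simp)))
      exact ⟨a, 0, by simpa using ha⟩
    · obtain ⟨a, ha⟩ := wd_of_mem (h3 x (Submodule.subset_span (by simp)))
        (h3 y (Submodule.subset_span (by simp)))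
      exact ⟨0, a, by simpa using ha⟩
  rintro u ⟨a, f, e⟩
  obtain ⟨s, t, e1⟩ := key _ _ h1
  obtain ⟨s', t', e2⟩ := key _ _ h2
  refine ⟨a * s + f * s', a * t + f * t', ?_⟩
  rw [h.act, e]
  simp only [Matrix.mul_add, Matrix.add_mul, Matrix.mul_smul, Matrix.smul_mul, e1, e2]
  module

theorem range_EG [Finite F] : ((O Q).subtype.comp φ).range = H97.EG (PQ.ofQuad Q) := by
  rw [MonoidHom.range_comp, h.range, H97.EG_quad (fun v hv => h.nd v hv) (by rw [h.dim]; omega),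
    Subgroup.map_subtype_commutator]
  congr 1 <;> exact Subgroup.ext fun g => PQ.mem_isom_ofQuad.symm

theorem planes [Fintype F] (h3 : 3 ≤ Fintype.card F) {D : Fin 2 → Submodule K (Fin 4 → K)}
    (hD : Geo.IsMDecomposition 2 D) (h0 : D 0 = Submodule.span K {x, y})
    (h1 : D 1 = Submodule.span K {z, w}) (hg : Gd emb x y z w)
    (h4 : 4 ≤ Fintype.card F ∨ ∀ v ∈ h.Pl x y z w, Q v = 0 → v = 0) :
    Geo.IsMaximalIn j.range (Geo.decompositionStabilizer D ⊓ j.range) := by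
  have hP : (PQ.ofQuad Q).B.SeparatingLeft := fun v hv => h.nd v hv
  have hW : h.Pl x y z w ⊓ H97.perp (PQ.ofQuad Q) (h.Pl x y z w) = ⊥ :=
    eq_bot_iff.2 fun u hu => h.ndOn hg u hu.1 (H97.mem_perp'.1 hu.2)
  have h5 := H97.finrank_perp hP (h.Pl x y z w)
  have h6 := h.finrank_Pl hg
  rw [h.dim, h6] at h5
  refine isMaximalIn_transfer j ((O Q).subtype.comp φ) (K := H97.stab (h.Pl x y z w))
    (h.range_EG ▸ H12G.isMaximalIn_nondeg hP hW (fun e => by rw [e, finrank_bot] at h6; omega)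
      ((H97.irr_or hP hW).resolve_right fun ⟨_, _, ⟨e, he, he0, hq⟩, h7⟩ => h4.elim
        (fun h8 => absurd (H97.card_le_three_of_sq h7) (by omega)) fun h8 => he0 (h8 e he hq))
      (by omega) (fun ht => ?_) fun g _ => H97.not_swap_of_lt (by omega) g) fun g => ?_
  · obtain ⟨c, hc, hc'⟩ := exists_ne_zero_one (F := F) (by omega)
    exact absurd (mul_left_cancel₀ hc ((ht c).trans (mul_one c).symm)) hc'
  rw [H97.decompositionStabilizer_eq, H97.mem_pull]
  constructor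
  · intro h7
    obtain ⟨h8, h9⟩ := h.maps_of hg hg.1 fun u hu => (h7 u).1 hu
    rw [← h0, ← h1] at h8 h9
    exact H97.mem_dstab_of_maps (H97.injective_of_indep hD.indep (H97.ne_bot_of_decomp hD))
      (fun i j => by rw [hD.finrank_eq, hD.finrank_eq])
      (Fin.forall_fin_two.2 ⟨Fin.exists_fin_two.2 h8, Fin.exists_fin_two.2 h9⟩)
  · intro h7
    refine H97.mem_stab_of_maps (h.maps_to ?_ ?_) <;> rw [← h0, ← h1] <;>
      rcases H97.mem_dstab_two.1 h7 with ⟨a, b⟩ | ⟨a, b⟩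
    · exact Or.inl fun p hp => (a p).1 hp
    · exact Or.inr fun p hp => a ▸ ⟨p, hp, rfl⟩
    · exact Or.inr fun p hp => (b p).1 hp
    · exact Or.inl fun p hp => b ▸ ⟨p, hp, rfl⟩

end Kl

end Kl

section SL

variable {F : Type*} [Field F] [Fintype F]

theorem exists_emb6 {X : Matrix (Fin 4) (Fin 4) F} (h : Alt X) : ∃ v, emb6 v = X := by
  obtain ⟨a, b, c, d, e, f, rfl⟩ := h
  exact ⟨Sum.elim ![a, b, c] ![f, -e, d], by simp [emb6]⟩

theorem exists_klSL : ∃ φ, Kl (RingHom.id F) (QPlus F 3) emb6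
    (SpecialLinearGroup.toGL : SL(4, F) →* GL (Fin 4) F) φ := by
  obtain ⟨φ, hφ⟩ := exists_rep6 (F := F)
  refine ⟨φ, nondeg_QPlus 3, finrank_plus 3, emb6_injective, fun v w => ?_, fun c v => ?_,
    pf4_emb6, hφ, range_eq_Om (nondeg_QPlus 3) (by rw [finrank_plus]; omega) φ
    (H10.commutator_SL_fin_eq_top 4 (by omega)) (H10.isSimpleGroup_PSL_fin 4 (by omega) (by omega))
    ⟨SpecialLinearGroup.transvection (show (0 : Fin 4) ≠ 2 by decide) 1, ?_⟩ nonempty_POm_six_plus⟩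
  · simp only [emb6, alt4_add, Pi.add_apply]; congr 1; ring
  · simp [emb6, alt4_smul]
  · rw [← not_or, eq_one_or_negO_iff]
    rintro ⟨ε, -, H⟩
    have h1 := hφ (SpecialLinearGroup.transvection (show (0 : Fin 4) ≠ 2 by decide) 1)
      (Pi.single (.inr 0) 1)
    rw [H] at h1
    have h2 := congrFun (congrFun h1 0) 3
    rw [emb6, emb6, conj_alt4_apply] at h2
    simp [alt4, SpecialLinearGroup.transvection_coe] at h2

theorem gd_emb6 {x y z w : Fin 4 → F} (hd : dt x y z w ≠ 0) : Gd emb6 x y z w := by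
  obtain ⟨v, hv⟩ := exists_emb6 (alt_wd x y)
  obtain ⟨v', hv'⟩ := exists_emb6 (alt_wd z w)
  exact ⟨hd, v, v', 1, 0, 0, 1, by simpa, by simpa, by simp⟩

theorem sl4_planes (h4 : 4 ≤ Fintype.card F) (D : Fin 2 → Submodule F (Fin 4 → F))
    (hD : Geo.IsMDecomposition 2 D) : Geo.IsMaximalIn (Geo.specialLinear (Fin 4) F)
      (Geo.decompositionStabilizer D ⊓ Geo.specialLinear (Fin 4) F) := by
  obtain ⟨φ, h⟩ := exists_klSL (F := F)
  obtain ⟨x, y, z, w, h0, h1, hd⟩ := exists_basis_two hD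
  have := h.planes (by omega) hD h0 h1 (gd_emb6 hd) (Or.inl h4)
  rwa [H10.range_toGL] at this

end SL

section SU

open H11.U

variable {K : Type*} [Field K] [Fintype K] {q : ℕ} [IsSq K q]

/-- The conjugate Hodge dual. -/
def tau (q : ℕ) [IsSq K q] (X : Matrix (Fin 4) (Fin 4) K) : Matrix (Fin 4) (Fin 4) K :=
  hodge4 (X.map (cj q))

theorem tau_smul (a : K) (X : Matrix (Fin 4) (Fin 4) K) : tau q (a • X) = cj q a • tau q X := by
  simp [tau, hodge4, alt4_smul]

/-- The inclusion of `SU₄` in `GL₄`. -/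
def jSU (K : Type*) [Field K] (q : ℕ) : SU 4 K q →* GL (Fin 4) K :=
  SpecialLinearGroup.toGL.comp (SU 4 K q).subtype

theorem range_jSU : (jSU K q).range = GU 4 K q ⊓ Geo.specialLinear (Fin 4) K := by
  ext g
  constructor
  · rintro ⟨g, rfl⟩
    exact ⟨mem_GU.2 (mem_SU.1 g.2), Units.ext g.1.2⟩
  · rintro ⟨h1, h2⟩
    exact ⟨toSU g.1 (mem_GU.1 h1) (congrArg Units.val h2), Units.ext rfl⟩

theorem exists_klSU {F : Type*} [Field F] [Fintype F] (hF : Fintype.card F = q) :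
    ∃ (a b : F) (ι : F →+* K) (emb : _) (φ : _), Kl ι (QMinus 2 a b) emb (jSU K q) φ ∧
      (∀ c, cj q (ι c) = ι c) ∧ ∀ X, Alt X → ∃ v, emb v = X + tau q X := by
  obtain ⟨b, hab⟩ := H66.exists_aniso (F := F)
  obtain ⟨ι, ω, h⟩ := exists_quadGen (K := K) hF hab
  obtain ⟨l, hl⟩ := exists_trace_eq (F := K) (q := q) (c := 1) (map_one _)
  obtain ⟨η, hη⟩ := H11.U.exists_norm_eq (F := K) (q := q) (c := -1) (by simp)
  obtain ⟨μ, hμ⟩ : ∃ μ, μ * (ω - cj q ω) = 1 := ⟨_, inv_mul_cancel₀ (sub_ne_zero.mpr h.ne)⟩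
  have hsm : ∀ (c : F) v, emb6m q ι ω μ l η (c • v) = ι c • emb6m q ι ω μ l η v := by
    intro c v
    simp only [emb6m, herm3, alt4_smul, Pi.smul_apply, smul_eq_mul, map_add, map_mul, map_sub,
      map_neg, h.cj_ι]
    congr 1 <;> ring
  have hadd : ∀ v w, emb6m q ι ω μ l η (v + w) = emb6m q ι ω μ l η v + emb6m q ι ω μ l η w := by
    intro v w
    simp only [emb6m, herm3, alt4_add, Pi.add_apply, map_add, map_mul, map_sub, map_neg]
    congr 1 <;> ring
  obtain ⟨φ, hφ⟩ : ∃ φ : Cfsg.SU 4 K q →* O (QMinus 2 1 b),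
      ∀ g v, emb6m q ι ω μ l η ((φ g).1 v) = g.1.1 * emb6m q ι ω μ l η v * g.1.1ᵀ := by
    refine exists_repO ι _ (h.emb6m_injective hμ hl hη) hadd hsm _ _ rfl
      (by simp) (fun _ _ => rfl) (fun g h => by simp) (fun g v => ?_)
    obtain ⟨r, r', r'', hr⟩ := conj_herm3 g _ _ _
    obtain ⟨w, hw⟩ := h.exists_emb6m hμ hl hη r r' r''
    refine ⟨w, hw.trans hr.symm, ι.injective ?_⟩
    rw [← h.pf4_emb6m hμ hl hη, ← h.pf4_emb6m hμ hl hη, hw, ← hr, herm3, pf4_conj, g.1.2, one_mul]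
    rfl
  have hq := two_le_q K q
  let P : Matrix (Fin 4) (Fin 4) K := !![0, 0, 1, 0; 1, 0, 0, 0; 0, 1, 0, 0; 0, 0, 0, 1]
  have hP : IsIso q P := by
    rw [isIso_iff]
    ext i j; fin_cases i <;> fin_cases j <;> simp [P, Matrix.mul_apply, Fin.sum_univ_four]
  have hP' : P.det = 1 := by rw [det_fin_four']; simp [P]
  refine ⟨1, b, ι, _, φ, ⟨nondeg_QMinus hab 2, finrank_minus 2, h.emb6m_injective hμ hl hη, hadd, hsm,
    h.pf4_emb6m hμ hl hη, hφ, range_eq_Om (nondeg_QMinus hab 2) (by rw [finrank_minus]; omega) φ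
      (commutator_SU_eq_top (by omega) (by omega)) (isSimpleGroup_PSU (by omega) (by omega))
      ⟨toSU P hP hP', ?_⟩ (nonempty_POm_six_minus hF hab)⟩, h.cj_ι, ?_⟩
  · rw [← not_or, eq_one_or_negO_iff]
    rintro ⟨ε, -, H⟩
    obtain ⟨w, hw⟩ := h.exists_emb6m hμ hl hη 1 0 0
    have h1 := hφ (toSU P hP hP') w
    rw [H, hsm, hw] at h1
    have h2 := congrFun (congrFun h1 1) 2
    rw [herm3, conj_alt4_apply, toSU_val] at h2
    simp [alt4, P] at h2
  · rintro _ ⟨a, b, c, d, e, f, rfl⟩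
    obtain ⟨w, hw⟩ := h.exists_emb6m hμ hl hη (a + cj q f) (b - cj q e) (c + cj q d)
    refine ⟨w, ?_⟩
    rw [hw, tau, alt4_map, hodge4_alt4, alt4_add, herm3]
    simp only [map_add, map_sub, cj_cj]
    congr 1 <;> ring

theorem tau_wd {x y z w u v : Fin 4 → K} (hd : dt x y z w ≠ 0) (h0 : wd u v ≠ 0)
    (h1 : hermForm 4 K q u x = 0) (h2 : hermForm 4 K q u y = 0) (h3 : hermForm 4 K q v x = 0)
    (h4 : hermForm 4 K q v y = 0) : ∃ c : K, c ≠ 0 ∧ tau q (wd x y) = c • wd u v := by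
  set R : Matrix (Fin 4) (Fin 4) K := (of ![x, y, z, w]).map (cj q) with hR
  have hdet : R.det ≠ 0 := by
    rw [hR, ← RingHom.mapMatrix_apply, ← RingHom.map_det, ← dt_eq]
    exact cj_ne_zero.2 hd
  have e1 := hodge4_conj Rᵀ 1 0 0 0 0 0
  have e2 : Rᵀ * alt4 1 0 0 0 0 0 * Rᵀᵀ = (wd x y).map (cj q) := by
    ext i j
    rw [conj_alt4_apply]
    simp [hR, wd_apply]
  rw [e2, hodge4_alt4, transpose_transpose, det_transpose] at e1
  have e3 : R * wd u v * Rᵀ = wd (R *ᵥ u) (R *ᵥ v) 2 3 • alt4 0 (-0) 0 0 (-0) 1 := by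
    rw [wd_conj]
    have a : ∀ p r : Fin 4 → K, hermForm 4 K q p r = (cj q ∘ r) ⬝ᵥ p := fun p r => by
      rw [form_def, dotProduct]; exact Finset.sum_congr rfl fun i _ => mul_comm _ _
    have a1 : (R *ᵥ u) 0 = 0 := (a u x).symm.trans h1
    have a2 : (R *ᵥ u) 1 = 0 := (a u y).symm.trans h2
    have a3 : (R *ᵥ v) 0 = 0 := (a v x).symm.trans h3
    have a4 : (R *ᵥ v) 1 = 0 := (a v y).symm.trans h4
    generalize R *ᵥ u = u' at *
    generalize R *ᵥ v = v' at *
    ext i j; fin_cases i <;> fin_cases j <;> simp [alt4, wd_apply, a1, a2, a3, a4] <;> ring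
  generalize wd (R *ᵥ u) (R *ᵥ v) 2 3 = c at e3
  have hc : c ≠ 0 := by
    rintro rfl
    exact h0 (conj_eq_zero hdet (by rwa [det_transpose]) (by rw [e3, zero_smul]))
  refine ⟨c⁻¹ * R.det, mul_ne_zero (inv_ne_zero hc) hdet,
    sub_eq_zero.1 (conj_eq_zero hdet (by rwa [det_transpose]) ?_)⟩
  rw [Matrix.mul_sub, Matrix.sub_mul, Matrix.mul_smul, Matrix.smul_mul, e3, tau, e1, smul_smul,
    mul_right_comm, inv_mul_cancel₀ hc, one_mul, sub_self]

variable {V : Type*} {emb : V → Matrix (Fin 4) (Fin 4) K}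
  (hr : ∀ X, Alt X → ∃ v, emb v = X + tau q X)
include hr

theorem real_nd {x y z w : Fin 4 → K} {c : K} (hc : tau q (wd x y) = c • wd z w) (a : K) :
    ∃ v, emb v = a • wd x y + (cj q a * c) • wd z w := by
  obtain ⟨v, hv⟩ := hr _ ((alt_wd x y).smul a)
  exact ⟨v, by rw [hv, tau_smul, hc, smul_smul]⟩

theorem gd_nd {x y z w : Fin 4 → K} (hd : dt x y z w ≠ 0) {c : K} (h0 : c ≠ 0)
    (hc : tau q (wd x y) = c • wd z w) : Gd emb x y z w := by
  obtain ⟨θ, hθ⟩ := exists_cj_ne K q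
  obtain ⟨v, hv⟩ := real_nd hr hc 1
  obtain ⟨v', hv'⟩ := real_nd hr hc θ
  refine ⟨hd, v, v', _, _, _, _, hv, hv', fun h => mul_ne_zero (sub_ne_zero.2 hθ) h0 ?_⟩
  rw [map_one] at h
  linear_combination h

theorem real_ti {x y : Fin 4 → K} {c : K} (hc : tau q (wd x y) = c • wd x y) :
    ∃ v, ∃ a : K, a ≠ 0 ∧ emb v = a • wd x y := by
  obtain ⟨θ, hθ⟩ := exists_cj_ne K q
  obtain ⟨v, hv⟩ := real_nd hr hc 1
  obtain ⟨v', hv'⟩ := real_nd hr hc θ
  rw [← add_smul] at hv hv'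
  by_cases h : 1 + cj q 1 * c = 0
  · refine ⟨v', _, fun h1 => hθ ?_, hv'⟩
    rw [map_one] at h
    linear_combination cj q θ * h - h1
  · exact ⟨v, _, h, hv⟩

omit hr

theorem su4_ti_pair (h4 : 4 ≤ q) (D : Fin 2 → Submodule K (Fin 4 → K))
    (hD : Geo.IsMDecomposition 2 D) (hts : ∀ i, Geo.IsTotallySingularFor (hermForm 4 K q) (D i)) :
    Geo.IsMaximalIn (GU 4 K q ⊓ Geo.specialLinear (Fin 4) K)
      (Geo.decompositionStabilizer D ⊓ (GU 4 K q ⊓ Geo.specialLinear (Fin 4) K)) := by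
  have := Fintype.ofFinite (fixedField K q)
  have hF : Fintype.card (fixedField K q) = q := by rw [← Nat.card_eq_fintype_card, card_fixedField]
  obtain ⟨a, b, ι, emb, φ, h, -, hr⟩ := exists_klSU (K := K) hF
  obtain ⟨x, y, z, w, h0, h1, hd⟩ := exists_basis_two hD
  have key : ∀ (i : Fin 2) x y z w, D i = Submodule.span K {x, y} → dt x y z w ≠ 0 →
      ∃ v, ∃ a : K, a ≠ 0 ∧ emb v = a • wd x y := fun i x y z w e hd => by
    have hx : x ∈ D i := e ▸ Submodule.subset_span (by simp)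
    have hy : y ∈ D i := e ▸ Submodule.subset_span (by simp)
    obtain ⟨c, -, hc⟩ := tau_wd hd (wd_ne_zero hd) (hts i x hx x hx) (hts i x hx y hy)
      (hts i y hy x hx) (hts i y hy y hy)
    exact real_ti hr hc
  obtain ⟨v, s, hs, hv⟩ := key 0 x y z w h0 hd
  obtain ⟨v', t, ht, hv'⟩ := key 1 z w x y h1 (dt_swap x y z w ▸ hd)
  rw [← range_jSU]
  exact h.planes (by omega) hD h0 h1 ⟨hd, v, v', s, 0, 0, t, by simpa, by simpa, by simp [hs, ht]⟩
    (Or.inl (by omega))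

theorem aniso_nd {F V G : Type*} [Field F] [AddCommGroup V] [Module F V] [FiniteDimensional F V]
    [Group G] {ι : F →+* K} {Q : QuadraticForm F V} {emb : V → Matrix (Fin 4) (Fin 4) K}
    {j : G →* GL (Fin 4) K} {φ : G →* O Q} (h : Kl ι Q emb j φ) (hι : ∀ c, cj q (ι c) = ι c)
    (hr : ∀ X, Alt X → ∃ v, emb v = X + tau q X) {x y z w : Fin 4 → K} (hd : dt x y z w ≠ 0) {c : K}
    (h0 : c ≠ 0) (hc : tau q (wd x y) = c • wd z w) {u : V} (hu : u ∈ h.Pl x y z w) :
    ∃ a : K, emb u = a • wd x y + (cj q a * c) • wd z w := by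
  obtain ⟨θ, hθ⟩ := exists_cj_ne K q
  obtain ⟨v, hv⟩ := real_nd hr hc 1
  obtain ⟨v', hv'⟩ := real_nd hr hc θ
  obtain ⟨s, t, rfl⟩ := mem_plane (h.finrank_Pl (gd_nd hr hd h0 hc)) ⟨_, _, hv⟩ ⟨_, _, hv'⟩
    (h.disc hd hv hv' fun h1 => mul_ne_zero (sub_ne_zero.2 hθ) h0 (by
      rw [map_one] at h1
      linear_combination h1)) hu
  refine ⟨ι s + ι t * θ, ?_⟩
  rw [h.add, h.smul, h.smul, hv, hv', map_add, map_mul, hι, hι, map_one]
  module

theorem su4_planes (h3 : 3 ≤ q) (D : Fin 2 → Submodule K (Fin 4 → K))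
    (hD : Geo.IsNondegenerateMDecomposition (hermForm 4 K q) 2 D) :
    Geo.IsMaximalIn (GU 4 K q ⊓ Geo.specialLinear (Fin 4) K)
      (Geo.decompositionStabilizer D ⊓ (GU 4 K q ⊓ Geo.specialLinear (Fin 4) K)) := by
  have := Fintype.ofFinite (fixedField K q)
  have hF : Fintype.card (fixedField K q) = q := by rw [← Nat.card_eq_fintype_card, card_fixedField]
  obtain ⟨a, b, ι, emb, φ, h, hι, hr⟩ := exists_klSU (K := K) hF
  obtain ⟨x, y, z, w, h0, h1, hd⟩ := exists_basis_two hD.decomp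
  have ho := hD.orthogonal 1 0 (by decide)
  have hx : x ∈ D 0 := h0 ▸ Submodule.subset_span (by simp)
  have hy : y ∈ D 0 := h0 ▸ Submodule.subset_span (by simp)
  have hz : z ∈ D 1 := h1 ▸ Submodule.subset_span (by simp)
  have hw : w ∈ D 1 := h1 ▸ Submodule.subset_span (by simp)
  obtain ⟨c, hc0, hc⟩ := tau_wd hd (wd_ne_zero (dt_swap x y z w ▸ hd)) (ho z hz x hx) (ho z hz y hy)
    (ho w hw x hx) (ho w hw y hy)
  rw [← range_jSU]
  refine h.planes (by omega) hD.decomp h0 h1 (gd_nd hr hd hc0 hc) (Or.inr fun v hv hq => ?_)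
  obtain ⟨s, hs⟩ := aniso_nd h hι hr hd hc0 hc hv
  have := h.Q_eq hs
  rw [hq, map_zero] at this
  have h5 : s = 0 := by simpa [hd, hc0] using this
  exact h.inj (by rw [hs, h5, h.zero]; simp)

end SU

end H28.Four
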