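import Mathlib
import Cfsg.Agent.Base
import Cfsg.Agent.Lib.Four.Wedge
import Cfsg.Agent.Lib.Four.ThreeMax
import Cfsg.Agent.Lib.Imprim.FrameK

/-!
Stabilisers of frames in `SL₄(q)` and `SU₄(q)`.
-/

set_option autoImplicit false
set_option linter.unusedSectionVars false
set_option linter.unusedVariables false

namespace H28.Four

open Module Cfsg H12 QuadraticMap H97o Matrix
open scoped MatrixGroups

theorem exists_blk3 {F V : Type*} [Field F] [AddCommGroup V] [Module F V] [FiniteDimensional F V]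
    {Q : QuadraticForm F V} (hQ : Nondeg Q) (h6 : finrank F V = 6) {D : Fin 3 → Submodule F V}
    (hd : ∀ i, finrank F (D i) = 2)
    (ho : ∀ i j, i ≠ j → ∀ x ∈ D i, ∀ y ∈ D j, polar Q x y = 0) {α β γ : F} (h0 : γ ^ 2 ≠ 4 * (α * β))
    (hs : ∀ i, ∃ v ∈ D i, ∃ w ∈ D i, Q v = α ∧ Q w = β ∧ polar Q v w = γ) : ∃ π, Blk Q D π 2 := by
  choose v hv w hw h1 h2 h3 using hs
  have h4 : ∀ i, polar Q (v i) (w i) ^ 2 ≠ 4 * (Q (v i) * Q (w i)) := fun i => by rwa [h1, h2, h3]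
  have h5 : ∀ i, LinearIndependent F ![v i, w i] := fun i => LinearIndependent.pair_iff.2 fun s t h =>
    coef_eq_zero (y := 0) (u := 0) (h4 i) (polar_zero_left _ _) (polar_zero_left _ _)
      (by rw [h]; simp) (by rw [h]; simp)
  let L : (∀ i, D i) →ₗ[F] V := ∑ i, (D i).subtype ∘ₗ LinearMap.proj i
  have hL : ∀ x, L x = ∑ i, (x i : V) := fun x => by simp [L]
  have h7 : Function.Injective L := (injective_iff_map_eq_zero L).2 fun x hx => funext fun i => by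
    have key : ∀ y ∈ D i, polar Q (x i) y = 0 := fun y hy => by
      have := congrArg (polar Q · y) hx
      simp only [hL, B_sum_left, polar_zero_left] at this
      rwa [Finset.sum_eq_single i (fun j _ hj => ho j i hj _ (x j).2 y hy) (by simp)] at this
    obtain ⟨s, t, e⟩ := mem_plane (hd i) (hv i) (hw i) (h4 i) (x i).2
    obtain ⟨rfl, rfl⟩ := coef_eq_zero (y := 0) (u := 0) (s := s) (t := t) (h4 i) (polar_zero_left _ _)
      (polar_zero_left _ _) (by rw [smul_zero, add_zero, e, key _ (hv i)])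
      (by rw [smul_zero, add_zero, e, key _ (hw i)])
    exact Subtype.ext (by simpa using e.symm)
  let e := L.linearEquivOfInjective h7 (by simp [finrank_pi_fintype, hd, h6])
  refine ⟨fun i => (D i).subtype ∘ₗ LinearMap.proj i ∘ₗ (e.symm : V →ₗ[F] ∀ i, D i), hQ,
    good_of_finrank_ne hQ (by omega), fun i x => Submodule.coe_mem _,
    fun x => (hL (e.symm x)).symm.trans (e.apply_symm_apply x), ho, fun i j => ?_, hd, by omega⟩
  obtain ⟨g, hg⟩ := exists_O_family hQ _ _ (h5 i) (h5 j) (by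
    simp [Fin.forall_fin_two, h3, polar_comm Q (w _)]) (by simp [Fin.forall_fin_two, h1, h2])
  refine ⟨(g.1.submoduleMap (D i)).trans (LinearEquiv.ofEq _ _ (H97.map_eq_of_maps (fun x hx => ?_)
    (by rw [hd, hd]))), fun x => O.map_Q g x⟩
  obtain ⟨s, t, rfl⟩ := mem_plane (hd i) (hv i) (hw i) (h4 i) hx
  rw [map_add, map_smul, map_smul, show g.1 (v i) = v j from hg 0, show g.1 (w i) = w j from hg 1]
  exact (D j).add_mem ((D j).smul_mem _ (hv j)) ((D j).smul_mem _ (hw j))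

/-- The three partitions of four points into pairs. -/
def tb : Fin 3 → Fin 4 → Fin 4 := ![![0, 1, 2, 3], ![0, 2, 3, 1], ![0, 3, 1, 2]]

theorem dt_tb {K : Type*} [Field K] (b : Basis (Fin 4) K (Fin 4 → K)) (k : Fin 3) :
    dt (b (tb k 0)) (b (tb k 1)) (b (tb k 2)) (b (tb k 3)) ≠ 0 :=
  dt_ne_zero (b.span_eq.ge.trans (Submodule.span_mono (by
    rintro _ ⟨i, rfl⟩
    obtain ⟨m, rfl⟩ := (by decide : ∀ k i, ∃ m, tb k m = i) k i
    exact ⟨m, by fin_cases m <;> rfl⟩)))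

namespace Kl

variable {F K V G : Type*} [Field F] [Field K] [AddCommGroup V] [Module F V] [Group G]
  {ι : F →+* K} {Q : QuadraticForm F V} {emb : V → Matrix (Fin 4) (Fin 4) K}
  {j : G →* GL (Fin 4) K} {φ : G →* O Q} (h : Kl ι Q emb j φ)
include h

theorem orth_Pl {x y z w : Fin 4 → K} {u v : V} (hu : u ∈ h.Pl x y z w) (hv : v ∈ h.Pl x z w y) :
    polar Q u v = 0 := by
  obtain ⟨a, f, e⟩ := hu
  obtain ⟨a', f', e'⟩ := hv
  refine ι.injective ?_
  rw [polar, map_sub, map_sub, ← h.pf, ← h.pf, ← h.pf, h.add, e, e', map_zero]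
  simp only [pf4, wd_apply, Matrix.add_apply, Matrix.smul_apply, smul_eq_mul]
  ring

/-- The three planes attached to a frame. -/
noncomputable def Fp (b : Basis (Fin 4) K (Fin 4 → K)) (k : Fin 3) : Submodule F V :=
  h.Pl (b (tb k 0)) (b (tb k 1)) (b (tb k 2)) (b (tb k 3))

theorem frame [Fintype F] [FiniteDimensional F V] {D : Fin 4 → Submodule K (Fin 4 → K)}
    {b : Basis (Fin 4) K (Fin 4 → K)} (hb : H97.dstab D = H98.Mon b)
    (hg : ∀ k, Gd emb (b (tb k 0)) (b (tb k 1)) (b (tb k 2)) (b (tb k 3))) {α β γ : F}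
    (h0 : γ ^ 2 ≠ 4 * (α * β))
    (hs : ∀ i, ∃ v ∈ h.Fp b i, ∃ w ∈ h.Fp b i, Q v = α ∧ Q w = β ∧ polar Q v w = γ)
    (hp : Pl3 Q (h.Fp b)) : Geo.IsMaximalIn j.range (Geo.decompositionStabilizer D ⊓ j.range) := by
  obtain ⟨π, hπ⟩ := exists_blk3 h.nd h.dim (D := h.Fp b) (fun k => h.finrank_Pl (hg k))
    (fun k l hkl x hx y hy => by
      fin_cases k <;> fin_cases l <;> first
        | exact absurd rfl hkl | exact h.orth_Pl hx hy | exact B_symm (h.orth_Pl hy hx)) h0 hs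
  refine isMaximalIn_transfer j φ (K := Hh Q (h.Fp b)) (h.range ▸ isMaximalIn_three hπ hp) fun g => ?_
  rw [H97.decompositionStabilizer_eq, H97.mem_pull, hb]
  have m1 : ∀ x y : Fin 4 → K, x ∈ Submodule.span K {x, y} := fun x y => Submodule.subset_span (by simp)
  have m2 : ∀ x y : Fin 4 → K, y ∈ Submodule.span K {x, y} := fun x y => Submodule.subset_span (by simp)
  constructor
  · intro h1
    obtain ⟨τ, hτ⟩ := Hh_elim h1
    have key : ∀ i k, ∃ x, (x = 0 ∨ x = 2) ∧ ∀ l, l ≠ tb (τ k) x → l ≠ tb (τ k) (x + 1) →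
        b.coord l ((j g).1 *ᵥ b i) = 0 := fun i k => by
      obtain ⟨h2, h3⟩ := h.maps_of (hg k) (hg (τ k)).1 fun u hu => (hτ k u).1 hu
      have h4 : ∀ x y l, (j g).1 *ᵥ b i ∈ Submodule.span K {b x, b y} → l ≠ x → l ≠ y →
          b.coord l ((j g).1 *ᵥ b i) = 0 := fun x y l h4 h5 h6 => by
        obtain ⟨s, t, e⟩ := Submodule.mem_span_pair.1 h4
        rw [← e, map_add, map_smul, map_smul, H98.coord_ne b h5, H98.coord_ne b h6]
        simp
      obtain ⟨m, rfl⟩ := (by decide : ∀ k i, ∃ m, tb k m = i) k i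
      have h5 : (j g).1 *ᵥ b (tb k m) ∈ Submodule.span K {b (tb (τ k) 0), b (tb (τ k) 1)} ∨
          (j g).1 *ᵥ b (tb k m) ∈ Submodule.span K {b (tb (τ k) 2), b (tb (τ k) 3)} := by
        fin_cases m
        exacts [h2.imp (· _ (m1 _ _)) (· _ (m1 _ _)), h2.imp (· _ (m2 _ _)) (· _ (m2 _ _)),
          h3.imp (· _ (m1 _ _)) (· _ (m1 _ _)), h3.imp (· _ (m2 _ _)) (· _ (m2 _ _))]
      rcases h5 with h5 | h5
      exacts [⟨0, Or.inl rfl, fun l => h4 _ _ l h5⟩, ⟨2, Or.inr rfl, fun l => h4 _ _ l h5⟩]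
    refine H98.mem_Mon_of fun i => ?_
    obtain ⟨x, h2, h3⟩ := key i 0
    obtain ⟨y, h4, h5⟩ := key i 1
    obtain ⟨m, hm⟩ := (by decide : ∀ (k k' : Fin 3) (x y : Fin 4), k ≠ k' →
      x = 0 ∨ x = 2 → y = 0 ∨ y = 2 → ∃ m, ∀ l, l ≠ m →
        (l ≠ tb k x ∧ l ≠ tb k (x + 1)) ∨ (l ≠ tb k' y ∧ l ≠ tb k' (y + 1))) _ _ x y
          (τ.injective.ne (show (0 : Fin 3) ≠ 1 by decide)) h2 h4
    exact ⟨m, _, H98.eq_smul_of_coord fun l hl => (hm l hl).elim (fun e => h3 l e.1 e.2)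
      fun e => h5 l e.1 e.2⟩
  · intro h1
    obtain ⟨τ, c, hτ⟩ := H98.mem_Mon.1 h1
    have key : ∀ x y x' y', (τ x = x' ∨ τ x = y') ∧ (τ y = x' ∨ τ y = y') →
        ∀ p ∈ Submodule.span K {b x, b y}, (j g).1 *ᵥ p ∈ Submodule.span K {b x', b y'} :=
      fun x y x' y' h2 p hp => by
        have h3 : ∀ x, τ x = x' ∨ τ x = y' → (j g).1 *ᵥ b x ∈ Submodule.span K {b x', b y'} :=
          fun x h3 => by
            rw [show (j g).1 *ᵥ b x = _ from hτ x]
            rcases h3 with rfl | rfl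
            exacts [Submodule.smul_mem _ _ (m1 _ _), Submodule.smul_mem _ _ (m2 _ _)]
        obtain ⟨s, t, rfl⟩ := Submodule.mem_span_pair.1 hp
        rw [mulVec_add, mulVec_smul, mulVec_smul]
        exact Submodule.add_mem _ (Submodule.smul_mem _ _ (h3 x h2.1)) (Submodule.smul_mem _ _ (h3 y h2.2))
    refine hπ.mem_Hh fun k => ?_
    obtain ⟨l, h2, h3⟩ := (by decide : ∀ x y z w : Fin 4, x ≠ y → x ≠ z → x ≠ w → y ≠ z → y ≠ w → z ≠ w →
      ∃ l, (((x = tb l 0 ∨ x = tb l 1) ∧ (y = tb l 0 ∨ y = tb l 1)) ∨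
        ((x = tb l 2 ∨ x = tb l 3) ∧ (y = tb l 2 ∨ y = tb l 3))) ∧
        (((z = tb l 0 ∨ z = tb l 1) ∧ (w = tb l 0 ∨ w = tb l 1)) ∨
        ((z = tb l 2 ∨ z = tb l 3) ∧ (w = tb l 2 ∨ w = tb l 3))))
      (τ (tb k 0)) (τ (tb k 1)) (τ (tb k 2)) (τ (tb k 3)) (τ.injective.ne (by revert k; decide))
      (τ.injective.ne (by revert k; decide)) (τ.injective.ne (by revert k; decide))
      (τ.injective.ne (by revert k; decide)) (τ.injective.ne (by revert k; decide))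
      (τ.injective.ne (by revert k; decide))
    exact ⟨l, h.maps_to (h2.imp (key _ _ _ _) (key _ _ _ _)) (h3.imp (key _ _ _ _) (key _ _ _ _))⟩

end Kl

theorem sl4_frame {F : Type*} [Field F] [Fintype F] (h7 : 7 ≤ Fintype.card F)
    (D : Fin 4 → Submodule F (Fin 4 → F)) (hD : Geo.IsMDecomposition 1 D) :
    Geo.IsMaximalIn (Geo.specialLinear (Fin 4) F)
      (Geo.decompositionStabilizer D ⊓ Geo.specialLinear (Fin 4) F) := by
  obtain ⟨φ, h⟩ := exists_klSL (F := F)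
  choose x hx hx0 using fun i => H97.exists_ne_zero_mem (X := D i) (hD.finrank_eq i).ge
  obtain ⟨b, -, e⟩ := H98.exists_basis_of_lines hD.indep hD.iSup_eq_top hD.finrank_eq hx hx0
  have := h.frame e (fun k => gd_emb6 (dt_tb b k)) (α := 0) (β := 0) (γ := 1) (by simp) (fun k => by
    have hd := dt_tb b k
    obtain ⟨v, hv⟩ := exists_emb6 (alt_wd (b (tb k 0)) (b (tb k 1)))
    obtain ⟨w, hw⟩ := exists_emb6 ((alt_wd (b (tb k 2)) (b (tb k 3))).smul
      (dt (b (tb k 0)) (b (tb k 1)) (b (tb k 2)) (b (tb k 3)))⁻¹)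
    rw [← one_smul F (wd _ _), ← add_zero (_ • _), ← zero_smul F (wd (b (tb k 2)) (b (tb k 3)))] at hv
    rw [← zero_add (_ • _), ← zero_smul F (wd (b (tb k 0)) (b (tb k 1)))] at hw
    exact ⟨v, ⟨_, _, hv⟩, w, ⟨_, _, hw⟩, by simpa using h.Q_eq hv, by simpa using h.Q_eq hw,
      by simpa [hd] using h.B_eq hv hw⟩) ⟨Or.inl h7⟩
  rwa [H10.range_toGL] at this

open H11.U in
theorem su4_frame {K : Type*} [Field K] [Fintype K] {q : ℕ} [IsSq K q] (h3 : q ≠ 3)
    (D : Fin 4 → Submodule K (Fin 4 → K))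
    (hD : Geo.IsNondegenerateMDecomposition (hermForm 4 K q) 1 D) :
    Geo.IsMaximalIn (GU 4 K q ⊓ Geo.specialLinear (Fin 4) K)
      (Geo.decompositionStabilizer D ⊓ (GU 4 K q ⊓ Geo.specialLinear (Fin 4) K)) := by
  have := Fintype.ofFinite (fixedField K q)
  have hF : Fintype.card (fixedField K q) = q := by rw [← Nat.card_eq_fintype_card, card_fixedField]
  obtain ⟨a, a', ι, emb, φ, h, hι, hr⟩ := exists_klSU (K := K) hF
  choose x hx hx0 using fun i => H97.exists_ne_zero_mem (X := D i) (hD.decomp.finrank_eq i).ge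
  obtain ⟨b, hb, e⟩ := H98.exists_basis_of_lines hD.decomp.indep hD.decomp.iSup_eq_top
    hD.decomp.finrank_eq hx hx0
  have ho : ∀ k x y, x ≠ y → hermForm 4 K q (b (tb k x)) (b (tb k y)) = 0 := fun k x y hxy =>
    hD.orthogonal _ _ ((by decide : ∀ k x y, x ≠ y → tb k x ≠ tb k y) k x y hxy) _ (hb _ ▸ hx _) _
      (hb _ ▸ hx _)
  choose c hc0 hc using fun k => tau_wd (dt_tb b k) (wd_ne_zero ((dt_swap ..).trans_ne (dt_tb b k)))
    (ho k 2 0 (by decide)) (ho k 2 1 (by decide)) (ho k 3 0 (by decide)) (ho k 3 1 (by decide))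
  obtain ⟨θ, hθ⟩ := exists_cj_ne K q
  have key : ∀ k, ∃ v ∈ h.Fp b k, ∃ w ∈ h.Fp b k, ι (QMinus 2 a a' v) = 1 ∧
      ι (QMinus 2 a a' w) = θ * cj q θ ∧ ι (polar (QMinus 2 a a') v w) = θ + cj q θ := fun k => by
    obtain ⟨u, hu⟩ := real_nd hr (hc k) 1
    have h1 := h.Q_eq hu
    have hd := mul_ne_zero (hc0 k) (dt_tb b k)
    rw [map_one, one_mul, one_mul] at h1
    obtain ⟨s, hs⟩ := H11.U.exists_norm_eq (q := q) (c := (ι (QMinus 2 a a' u))⁻¹) (by rw [map_inv₀, hι])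
    rw [h1, ← mul_eq_one_iff_eq_inv₀ hd] at hs
    obtain ⟨v, hv⟩ := real_nd hr (hc k) s
    obtain ⟨w, hw⟩ := real_nd hr (hc k) (s * θ)
    refine ⟨v, ⟨_, _, hv⟩, w, ⟨_, _, hw⟩, ?_, ?_, ?_⟩
    · rw [h.Q_eq hv]; linear_combination hs
    · rw [h.Q_eq hw, map_mul]; linear_combination θ * cj q θ * hs
    · rw [h.B_eq hv hw, map_mul]; linear_combination (θ + cj q θ) * hs
  obtain ⟨v, -, w, -, h1, h2, h4⟩ := key 0
  rw [← range_jSU]
  refine h.frame e (fun k => gd_nd hr (dt_tb b k) (hc0 k) (hc k)) (α := QMinus 2 a a' v)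
    (β := QMinus 2 a a' w) (γ := polar (QMinus 2 a a') v w) (fun h5 => ?_) (fun k => ?_)
    ⟨Or.inr ⟨hF.trans_ne h3, fun k u hu hq => ?_⟩⟩
  · have := congrArg ι h5
    rw [map_pow, map_mul, map_mul, map_ofNat, h1, h2, h4] at this
    exact pow_ne_zero 2 (sub_ne_zero.2 hθ) (by linear_combination this)
  · obtain ⟨v', h5, w', h6, h7, h8, h9⟩ := key k
    exact ⟨v', h5, w', h6, ι.injective (h7.trans h1.symm), ι.injective (h8.trans h2.symm),
      ι.injective (h9.trans h4.symm)⟩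
  · obtain ⟨s, hs⟩ := aniso_nd h hι hr (dt_tb b k) (hc0 k) (hc k) hu
    have := h.Q_eq hs
    rw [hq, map_zero] at this
    have h5 : s = 0 := by simpa [dt_tb b k, hc0] using this
    exact h.inj (by rw [hs, h5, h.zero]; simp)

end H28.Four
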