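import Mathlib
import Cfsg.Agent.Base
import Cfsg.Agent.Lib.Subfld.Main

/-!
Subfield subgroups with rational transvections in dimension four.
-/

set_option autoImplicit false
set_option linter.unusedSectionVars false

namespace H28.Four

open Module Cfsg H97 H28 H11.Sub

variable {F V : Type*} [Field F] [AddCommGroup V] [Module F V] {σ : F →+* F}

/-- Two perpendicular hyperbolic pairs. -/
structure HB (P : PQ F V σ) (d e a a' : V) : Prop where
  qd : P.q d ∈ P.Λ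
  qe : P.q e ∈ P.Λ
  qa : P.q a ∈ P.Λ
  qa' : P.q a' ∈ P.Λ
  ed : P.B e d = 1
  aa : P.B a' a = 1
  da : P.B d a = 0
  da' : P.B d a' = 0
  ea : P.B e a = 0
  ea' : P.B e a' = 0

namespace HB

variable {P : PQ F V σ} {d e a a' : V} (h : HB P d e a a')
include h

theorem dd : P.B d d = 0 := P.self_eq_zero h.qd
theorem ee : P.B e e = 0 := P.self_eq_zero h.qe
theorem aa0 : P.B a a = 0 := P.self_eq_zero h.qa
theorem aa0' : P.B a' a' = 0 := P.self_eq_zero h.qa'
theorem de : P.B d e = P.ε := by rw [P.symm, h.ed]; simp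
theorem aa' : P.B a a' = P.ε := by rw [P.symm, h.aa]; simp
theorem ad : P.B a d = 0 := P.eq_zero_symm h.da
theorem ad' : P.B a' d = 0 := P.eq_zero_symm h.da'
theorem ae : P.B a e = 0 := P.eq_zero_symm h.ea
theorem ae' : P.B a' e = 0 := P.eq_zero_symm h.ea'

theorem eq_zero (hP : P.B.SeparatingLeft) [FiniteDimensional F V] (h4 : finrank F V = 4) {x : V}
    (h1 : P.B d x = 0) (h2 : P.B e x = 0) (h3 : P.B a x = 0) (h5 : P.B a' x = 0) : x = 0 := by
  have hli : LinearIndependent F ![d, e, a, a'] := by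
    rw [Fintype.linearIndependent_iff]
    intro g hg
    rw [Fin.sum_univ_four] at hg
    simp only [Matrix.cons_val_zero, Matrix.cons_val_one, Matrix.cons_val] at hg
    have e1 := congrArg (P.B d) hg
    have e2 := congrArg (P.B e) hg
    have e3 := congrArg (P.B a) hg
    have e4 := congrArg (P.B a') hg
    simp [h.dd, h.ee, h.aa0, h.aa0', h.de, h.aa', h.ad, h.ad', h.ae, h.ae', h.ed, h.aa, h.da,
      h.da', h.ea, h.ea', P.ε_ne_zero] at e1 e2 e3 e4
    intro i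
    fin_cases i <;> assumption
  have hs := hli.span_eq_top_of_card_eq_finrank' (by simp [h4])
  refine hP x fun y => P.eq_zero_symm ?_
  have hy : y ∈ Submodule.span F (Set.range ![d, e, a, a']) := hs ▸ Submodule.mem_top
  obtain ⟨c, rfl⟩ := (Submodule.mem_span_range_iff_exists_fun F).1 hy
  rw [Fin.sum_univ_four]
  simp [h1, h2, h3, h5]

theorem decomp (hP : P.B.SeparatingLeft) [FiniteDimensional F V] (h4 : finrank F V = 4) (x : V) :
    x = P.B e x • d + (P.ε * P.B d x) • e + P.B a' x • a + (P.ε * P.B a x) • a' := by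
  have hεε := P.εε
  rw [← sub_eq_zero]
  refine h.eq_zero hP h4 ?_ ?_ ?_ ?_ <;>
    simp only [map_sub, map_add, map_smul, smul_eq_mul, h.dd, h.ee, h.aa0, h.aa0', h.de, h.aa',
      h.ad, h.ad', h.ae, h.ae', h.ed, h.aa, h.da, h.da', h.ea, h.ea']
  · linear_combination (-P.B d x) * hεε
  · ring
  · linear_combination (-P.B a x) * hεε
  · ring

theorem notMem : a ∉ F ∙ d := fun hh => by
  obtain ⟨t, ht⟩ := Submodule.mem_span_singleton.1 hh
  have := h.aa
  rw [← ht] at this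
  simp [h.ad'] at this

theorem notMem' : a' ∉ F ∙ d := fun hh => by
  obtain ⟨t, ht⟩ := Submodule.mem_span_singleton.1 hh
  have := h.aa
  rw [← ht] at this
  simp [h.da] at this

end HB

variable {ι : Type*} [Fintype ι] {P : PQ F V σ} {b : Basis ι F V} {F₀ : Subfield F}
  {M : Subgroup (V ≃ₗ[F] V)} [FiniteDimensional F V] [Fintype F] {k : ℕ}

theorem ratSub_bot : RatSub b F₀ (⊥ : Submodule F V) :=
  fun f x hx => by rw [Submodule.mem_bot] at hx ⊢; rw [hx, proj_zero]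

theorem mem_perp_bot (z : V) : z ∈ perp P (⊥ : Submodule F V) :=
  fun u hu => by rw [Submodule.mem_bot] at hu; simp [hu]

theorem exists_hb' (h : RatPQ P b F₀) {d a : V} (hd : RS P b F₀ d) (ha : RS P b F₀ a)
    (hda : P.B d a = 0) (had : a ∉ F ∙ d) :
    ∃ e a', RS P b F₀ e ∧ RS P b F₀ a' ∧ HB P d e a a' := by
  obtain ⟨a', ha', haa, hda'⟩ := h.exists_partner (ratSub_single hd.rat.ratPt) ha had
    (mem_perp_singleton.2 hda)
  replace hda' := mem_perp_singleton.1 hda'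
  obtain ⟨e, he, hed, he'⟩ := h.exists_partner (ratSub_pair ha.rat.ratPt ha'.rat.ratPt) hd
    (notMem_span_hyp ha.self ha'.self haa (P.eq_zero_symm hda) (P.eq_zero_symm hda') hd.ne)
    (mem_perp_pair.2 ⟨P.eq_zero_symm hda, P.eq_zero_symm hda'⟩)
  obtain ⟨h1, h2⟩ := mem_perp_pair.1 he'
  exact ⟨e, a', he, ha', hd.sing, he.sing, ha.sing, ha'.sing, hed, haa, hda, hda',
    P.eq_zero_symm h1, P.eq_zero_symm h2⟩

theorem exists_hb (h : RatPQ P b F₀) (hk : RIso P b F₀ k) (hn : k + 2 ≤ Fintype.card ι) {d : V}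
    (hd : RS P b F₀ d) :
    ∃ e a a', RS P b F₀ e ∧ RS P b F₀ a ∧ RS P b F₀ a' ∧ HB P d e a a' := by
  obtain ⟨e, he, hed, -⟩ := h.exists_partner ratSub_bot hd (by simpa using hd.ne) (mem_perp_bot _)
  obtain ⟨a, ha, hda, hea⟩ := h.exists_rs_perp hk hn hd.rat.ratPt he.rat.ratPt
  obtain ⟨a', ha', haa, haU⟩ := h.exists_partner (ratSub_pair hd.rat.ratPt he.rat.ratPt) ha
    (notMem_span_hyp hd.self he.self hed hda hea ha.ne) (mem_perp_pair.2 ⟨hda, hea⟩)
  obtain ⟨h1, h2⟩ := mem_perp_pair.1 haU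
  exact ⟨e, a, a', he, ha, ha', hd.sing, he.sing, ha.sing, ha'.sing, hed, haa, hda, h1, hea, h2⟩

theorem zero_valid {w : V} (hw : P.q w ∈ P.Λ) (s : F) : 0 - P.q (s • w) ∈ P.Λ := by
  simpa using P.q_smul_mem hw s

/-- A rational torus element. -/
theorem exists_torus (h : RatPQ P b F₀) {d e a a' : V} (hd : RS P b F₀ d) (he : RS P b F₀ e)
    (ha : RS P b F₀ a) (ha' : RS P b F₀ a') (H : HB P d e a a') {l : F} (hl : l ∈ F₀)
    (hl0 : l ≠ 0) : ∃ g ∈ ratStab b F₀ ⊓ EG P, g d = l • d ∧ g a = σ l • a := by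
  have hεε := P.εε
  have hσ : σ l ≠ 0 := σ_ne_zero hl0
  obtain ⟨g1, h1, e1⟩ := h.has_eu_rat he (ha'.rat.smul F₀.one_mem) (by simp [H.ea']) F₀.zero_mem
    (zero_valid ha'.sing _)
  obtain ⟨g2, h2, e2⟩ := h.has_eu_rat hd (ha.rat.smul (F₀.sub_mem F₀.one_mem (h.σ_mem _ hl)))
    (by simp [H.da]) F₀.zero_mem (zero_valid ha.sing _)
  obtain ⟨g3, h3, e3⟩ := h.has_eu_rat he (ha'.rat.smul (F₀.neg_mem (F₀.inv_mem hl)))
    (by simp [H.ea']) F₀.zero_mem (zero_valid ha'.sing _)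
  refine ⟨g3 * g2 * g1, Subgroup.mul_mem _ (Subgroup.mul_mem _ h3 h2) h1, ?_, ?_⟩ <;>
    simp only [le_mul_apply, e1, e2, e3, eu_apply, map_add, map_sub, map_smul, B_smul_left,
      smul_eq_mul, H.dd, H.ee, H.aa0, H.aa0', H.de, H.aa', H.ad, H.ad', H.ae, H.ae', H.ed, H.aa,
      H.da, H.da', H.ea, H.ea', map_one, map_neg, map_inv₀, P.σσ] <;> match_scalars
  all_goals rcases mul_self_eq_one_iff.1 hεε with h5 | h5 <;> (try simp only [h5]) <;>
    field_simp <;> ring1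

/-- The short level along a rational singular direction is closed under rational multiples. -/
theorem inA_rat_smul (h : RatPQ P b F₀) (hM : ratStab b F₀ ⊓ EG P ≤ M) (hMI : M ≤ P.Isom)
    {d a : V} (hd : RS P b F₀ d) (ha : RS P b F₀ a) (hda : P.B d a = 0) (had : a ∉ F ∙ d) {s : F}
    (hs : InA P M d (s • a)) {c : F} (hc : c ∈ F₀) : InA P M d ((c * s) • a) := by
  obtain ⟨e, a', he, ha', H⟩ := exists_hb' h hd ha hda had
  have sq : ∀ m ∈ F₀, InA P M d ((m ^ 2 * s) • a) := fun m hm => by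
    by_cases hm0 : m = 0
    · simpa [hm0] using inA_zero d
    obtain ⟨g, hg, e1, e2⟩ := exists_torus h hd he ha ha' H (h.σ_mem m hm) (σ_ne_zero hm0)
    have h1 := hs.conj hMI (hM hg)
    rw [e1, map_smul, e2, P.σσ] at h1
    have h2 := h1.of_smul (σ_ne_zero hm0)
    rw [P.σσ, smul_smul, smul_smul] at h2
    convert h2 using 2; ring
  by_cases h2 : (2 : F) = 0
  · obtain ⟨t, ht⟩ := exists_sq_eq_of_two_eq_zero (F := F₀) (Subtype.ext h2) ⟨c, hc⟩
    have h1 : (t : F) ^ 2 = c := congrArg Subtype.val ht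
    exact h1 ▸ sq t t.2
  · have h3 : (2 : F) ∈ F₀ := by simp
    have := (sq _ (F₀.div_mem (F₀.add_mem hc F₀.one_mem) h3)).sub hd.sing
      (sq _ (F₀.div_mem (F₀.sub_mem hc F₀.one_mem) h3))
    rw [← sub_smul] at this
    convert this using 2
    field_simp; ring

theorem inA_tr (hMI : M ≤ P.Isom) {d a x : V} {c : F} (hd : P.q d ∈ P.Λ) (hda : P.B a d = 0)
    (hx : InA P M d x) (ht : Has M (eu P a 0 c)) : InA P M d ((P.ε * c * P.B a x) • a) := by
  obtain ⟨y, hy, ey⟩ := ht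
  have := (hx.fix hMI hd hy (by rw [ey]; exact eu_fix c hda (by simp))).neg hd
  convert this using 1
  rw [ey, eu_apply]; simp

theorem has_comm {d x y : V} (hd : P.q d ∈ P.Λ) (hx : InA P M d x) (hy : InA P M d y) :
    Has M (eu P d 0 (P.B x y - P.ε * σ (P.B x y))) := by
  obtain ⟨h1, c, -, k1⟩ := hx
  obtain ⟨h2, c', -, k2⟩ := hy
  have k3 := has_eu_add hd h1 h2 k1 k2
  have k4 := has_eu_add hd h2 h1 k2 k1
  rw [add_comm y] at k4
  have k5 := has_eu_sub_same hd (by simp [h1, h2]) k3 k4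
  convert k5 using 2
  rw [P.symm x y]; ring

/-- If some `M ∩ X_d` is bigger than the rational one, `M` contains `E`. -/
theorem EG_le_of_level4 (h : RatPQ P b F₀) (hk : RIso P b F₀ k) (hk2 : k ≤ 2)
    (h4 : Fintype.card ι = 4) {r : ℕ} (hr : r.Prime) (hcard : Fintype.card F = Nat.card F₀ ^ r)
    {c₀ : F} (hc₀ : c₀ ∈ F₀) (hc₀' : c₀ ∈ P.Λ) (hc0 : c₀ ≠ 0)
    (hΛ : ∀ l ∈ P.Λ, ∃ a, l = a - P.ε * σ a)
    (hβ : ∀ β ∉ F₀, (∃ c ∈ F₀, c * β - P.ε * σ (c * β) ∉ F₀) ∨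
      ∀ z, ∃ x ∈ F₀, ∃ y ∈ F₀, z = x + y * β)
    (hM : ratStab b F₀ ⊓ EG P ≤ M) (hMI : M ≤ P.Isom) {d₀ x₀ : V} (hd₀ : RS P b F₀ d₀)
    (hx₀ : InA P M d₀ x₀) (hx₀' : ∀ t : F, ¬ Rat b F₀ (x₀ + t • d₀)) : EG P ≤ M := by
  have hε := eps_mem P F₀
  have hεε := P.εε
  have hn : k + 2 ≤ Fintype.card ι := by omega
  have h4' : finrank F V = 4 := by rw [finrank_eq_card_basis b, h4]
  have hT : ∀ d, RS P b F₀ d → Has M (eu P d 0 c₀) := fun d hd =>
    (h.has_eu_rat hd rat_zero (by simp) hc₀ (P.Λ.sub_mem hc₀' P.q_zero)).mono hM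
  have trans : ∀ (s : F) d, RS P b F₀ d → (∀ w, Rat b F₀ w → P.B d w = 0 → InA P M d (s • w)) →
      ∀ d', RS P b F₀ d' → ∀ w, Rat b F₀ w → P.B d' w = 0 → InA P M d' (s • w) := by
    intro s d hd hs d' hd' w hw hdw
    obtain ⟨g, hg, t, ht, ht0, e⟩ := h.exists_map hk hn hd hd'
    have hw1 : Rat b F₀ ((σ t)⁻¹ • w) := hw.smul (F₀.inv_mem (h.σ_mem t ht))
    have h1 := (hs (g⁻¹ ((σ t)⁻¹ • w)) (((ratStab b F₀).inv_mem hg.1 _).1 hw1) (by
      rw [← (EG_le_isom hg.2).1, le_apply_inv, e]; simp [hdw])).conj hMI (hM hg)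
    rw [e, map_smul, le_apply_inv] at h1
    have h2 := h1.of_smul ht0
    rwa [smul_comm, smul_smul (σ t), mul_inv_cancel₀ (σ_ne_zero ht0), one_smul] at h2
  have full : ∀ {d e a a' : V} {s : F}, RS P b F₀ d → RS P b F₀ a → RS P b F₀ a' → HB P d e a a' →
      (∀ c ∈ F₀, InA P M d ((c * s) • a)) → (∀ c ∈ F₀, InA P M d ((c * s) • a')) →
      ∀ w, Rat b F₀ w → P.B d w = 0 → InA P M d (s • w) := by
    intro d e a a' s hd ha ha' H h1 h2 w hw hdw
    have := ((h1 _ (h.B_mem _ _ ha'.rat hw)).add hd.sing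
      (h2 _ (F₀.mul_mem hε (h.B_mem _ _ ha.rat hw)))).add_smul hd.sing (s * P.B e w)
    convert this using 1
    conv_lhs => rw [H.decomp h.nd h4' w, hdw]
    module
  let S : F → Prop := fun s => ∀ d, RS P b F₀ d → ∀ w, Rat b F₀ w → P.B d w = 0 → InA P M d (s • w)
  have hone : S 1 := fun d hd w hw hdw => by rw [one_smul]; exact h.inA_rat hM hd hw hdw
  have hS0 : ∀ c ∈ F₀, ∀ s, S s → S (c * s) := fun c hc s hs d hd w hw hdw => by
    have := hs d hd _ (hw.smul hc) (by simp [hdw])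
    rwa [smul_smul, mul_comm] at this
  have hSadd : ∀ s t, S s → S t → S (s + t) := fun s t hs ht d hd w hw hdw => by
    rw [add_smul]; exact (hs d hd w hw hdw).add hd.sing (ht d hd w hw hdw)
  have hG : ∀ t, S t → ∀ d, RS P b F₀ d → Has M (eu P d 0 (t - P.ε * σ t)) := by
    intro t ht d hd
    obtain ⟨e, a, a', -, ha, ha', H⟩ := exists_hb h hk hn hd
    have := has_comm hd.sing (hone d hd a' ha'.rat H.da') (ht d hd a ha.rat H.da)
    simpa [H.aa] using this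
  have hmul : ∀ γ, (∀ d, RS P b F₀ d → Has M (eu P d 0 γ)) → ∀ s, S s → S (γ * s) := by
    intro γ hγ s hs d hd
    obtain ⟨e, a, a', -, ha, ha', H⟩ := exists_hb h hk hn hd
    refine full hd ha ha' H (fun c hc => ?_) fun c hc => ?_
    · have := inA_tr hMI hd.sing H.ad (hS0 c hc s hs d hd a' ha'.rat H.da') (hγ a ha)
      convert this using 2
      simp only [map_smul, H.aa', smul_eq_mul]
      linear_combination (-c * γ * s) * hεε
    · have := inA_tr hMI hd.sing H.ad' (hS0 _ (F₀.mul_mem hε hc) s hs d hd a ha.rat H.da) (hγ a' ha')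
      convert this using 2
      simp only [map_smul, H.aa, smul_eq_mul]
      linear_combination (-c * γ * s) * hεε
  -- an irrational level
  obtain ⟨β, hβ1, hβ2⟩ : ∃ β, S β ∧ β ∉ F₀ := by
    obtain ⟨e, a, a', he, ha, ha', H⟩ := exists_hb h hk hn hd₀
    have key : ∀ s, InA P M d₀ (s • a) → S s := fun s hs => by
      have h1 := fun c hc => inA_rat_smul h hM hMI hd₀ ha H.da H.notMem hs (c := c) hc
      refine trans s d₀ hd₀ (full hd₀ ha ha' H h1 fun c hc => ?_)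
      have := inA_tr hMI hd₀.sing H.ad' (h1 _ (F₀.mul_mem hε (F₀.div_mem hc hc₀))) (hT a' ha')
      convert this using 2
      simp only [map_smul, H.aa, smul_eq_mul]
      field_simp
      linear_combination (-c * s) * hεε
    by_contra hc
    push Not at hc
    have h1 := hc _ (key _ (inA_tr hMI hd₀.sing H.ad hx₀ (hT a ha)))
    have h2 := hc _ (key _ (inA_tr hMI hd₀.sing H.ad
      (inA_tr hMI hd₀.sing H.ad' hx₀ (hT a' ha')) (hT a ha)))
    have h3 : P.ε * P.B a x₀ ∈ F₀ := by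
      convert F₀.div_mem h1 hc₀ using 1; field_simp
    have h5 : P.B a' x₀ ∈ F₀ := by
      convert F₀.div_mem (F₀.div_mem (F₀.mul_mem hε h2) hc₀) hc₀ using 1
      simp only [map_smul, H.aa', smul_eq_mul]
      field_simp
      linear_combination (-P.B a' x₀ * (P.ε * P.ε + 1)) * hεε
    refine hx₀' (-P.B e x₀) ?_
    convert (ha.rat.smul h5).add (ha'.rat.smul h3) using 1
    conv_lhs => rw [H.decomp h.nd h4' x₀, hx₀.perp]
    simp only [map_add, map_smul, H.ed, H.ee, H.ea, H.ea', smul_eq_mul]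
    module
  have hall : ∀ s, S s := by
    rcases hβ β hβ2 with ⟨c, hc, hc'⟩ | h2
    · let T : Subring F :=
        { carrier := {t | ∀ s, S s → S (t * s)}
          mul_mem' := fun h1 h2 s hs => by rw [mul_assoc]; exact h1 _ (h2 _ hs)
          one_mem' := fun s hs => by rwa [one_mul]
          add_mem' := fun h1 h2 s hs => by rw [add_mul]; exact hSadd _ _ (h1 s hs) (h2 s hs)
          zero_mem' := hS0 0 F₀.zero_mem
          neg_mem' := fun {t} h1 s hs => by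
            have := hS0 (-1) (F₀.neg_mem F₀.one_mem) _ (h1 s hs)
            rwa [neg_one_mul, ← neg_mul] at this }
      intro s
      simpa using subring_eq_top hr hcard T hS0 (hmul _ (hG _ (hS0 c hc β hβ1))) hc' s 1 hone
    · intro s
      obtain ⟨x, hx, y, hy, rfl⟩ := h2 s
      exact hSadd _ _ (by simpa using hS0 x hx 1 hone) (hS0 y hy β hβ1)
  have hfull : ∀ d, RS P b F₀ d → ∀ w, P.B d w = 0 → InA P M d w := by
    intro d hd w hw
    obtain ⟨e, a, a', -, ha, ha', H⟩ := exists_hb h hk hn hd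
    have := ((hall (P.B a' w) d hd a ha.rat H.da).add hd.sing
      (hall (P.ε * P.B a w) d hd a' ha'.rat H.da')).add_smul hd.sing (P.B e w)
    convert this using 1
    conv_lhs => rw [H.decomp h.nd h4' w, hw]
    module
  have hX : ∀ d, RS P b F₀ d → XLe P M d := by
    intro d hd w c hw hc
    obtain ⟨-, c', hc', k1⟩ := hfull d hd w hw
    obtain ⟨a, ha⟩ := hΛ (c - c') (by simpa using P.Λ.sub_mem hc hc')
    exact has_eu_valid hd.sing hw k1 (ha ▸ hG a (hall a) d hd)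
  obtain ⟨e, a, a', he, -, -, H⟩ := exists_hb h hk hn hd₀
  exact EG_le_of_xle h.nd he.sing hd₀.sing (hX e he) (hX d₀ hd₀) (by simp [H.ed])

theorem eq_two_of_quad {r : ℕ} (hr : r.Prime) (hcard : Fintype.card F = Nat.card F₀ ^ r)
    {θ A B C : F} (hθ : θ ∉ F₀) (hA : A ∈ F₀) (hB : B ∈ F₀) (hC : C ∈ F₀) (hA0 : A ≠ 0)
    (h : A * θ ^ 2 = B * θ + C) : finrank F₀ F = 2 := by
  let T : Subring F :=
    { carrier := {z | ∃ x ∈ F₀, ∃ y ∈ F₀, z = x + y * θ}
      mul_mem' := by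
        rintro _ _ ⟨x, hx, y, hy, rfl⟩ ⟨x', hx', y', hy', rfl⟩
        refine ⟨x * x' + y * y' * (C / A), F₀.add_mem (F₀.mul_mem hx hx')
          (F₀.mul_mem (F₀.mul_mem hy hy') (F₀.div_mem hC hA)), x * y' + y * x' + y * y' * (B / A),
          F₀.add_mem (F₀.add_mem (F₀.mul_mem hx hy') (F₀.mul_mem hy hx'))
            (F₀.mul_mem (F₀.mul_mem hy hy') (F₀.div_mem hB hA)), ?_⟩
        field_simp
        linear_combination (y * y') * h
      one_mem' := ⟨1, F₀.one_mem, 0, F₀.zero_mem, by simp⟩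
      add_mem' := by
        rintro _ _ ⟨x, hx, y, hy, rfl⟩ ⟨x', hx', y', hy', rfl⟩
        exact ⟨_, F₀.add_mem hx hx', _, F₀.add_mem hy hy', by ring⟩
      zero_mem' := ⟨0, F₀.zero_mem, 0, F₀.zero_mem, by simp⟩
      neg_mem' := by
        rintro _ ⟨x, hx, y, hy, rfl⟩
        exact ⟨_, F₀.neg_mem hx, _, F₀.neg_mem hy, by ring⟩ }
  have h1 := subring_eq_top hr hcard T (fun a ha => ⟨a, ha, 0, F₀.zero_mem, by simp⟩)
    (s := θ) ⟨0, F₀.zero_mem, 1, F₀.one_mem, by simp⟩ hθ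
  have h2 : Submodule.span F₀ {(1 : F), θ} = ⊤ := eq_top_iff.2 fun z _ => by
    obtain ⟨x, hx, y, hy, rfl⟩ := h1 z
    exact Submodule.mem_span_pair.2 ⟨⟨x, hx⟩, ⟨y, hy⟩, by simp [Subfield.smul_def]⟩
  have h3 := H11.Sub.finrank_span_pair_le (F := F₀) (1 : F) θ
  rw [h2, finrank_top, finrank_eq_of_card hcard] at h3
  rw [finrank_eq_of_card hcard]
  exact le_antisymm h3 hr.two_le

theorem le_ratNorm4 (h : RatPQ P b F₀) (hk : RIso P b F₀ k) (hn : k + 2 ≤ Fintype.card ι)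
    (h4 : Fintype.card ι = 4) {r : ℕ} (hr : r.Prime) (hcard : Fintype.card F = Nat.card F₀ ^ r)
    {c₀ : F} (hc₀ : c₀ ∈ F₀) (hc₀' : c₀ ∈ P.Λ) (hc0 : c₀ ≠ 0)
    (hM : ratStab b F₀ ⊓ EG P ≤ M) (hMI : M ≤ P.Isom)
    (hI : ∀ d w, RS P b F₀ d → InA P M d w → ∃ t : F, Rat b F₀ (w + t • d)) :
    M ≤ ratNorm b F₀ := by
  have hεε := P.εε
  have h4' : finrank F V = 4 := by rw [finrank_eq_card_basis b, h4]
  have hσc : σ c₀ = -(P.ε * c₀) := by
    linear_combination P.ε * P.tr_mem c₀ hc₀' - σ c₀ * hεε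
  have hT : ∀ d, RS P b F₀ d → Has M (eu P d 0 c₀) := fun d hd =>
    (h.has_eu_rat hd rat_zero (by simp) hc₀ (P.Λ.sub_mem hc₀' P.q_zero)).mono hM
  have hT' : ∀ g ∈ M, ∀ d, RS P b F₀ d → Has M (eu P (g d) 0 c₀) := fun g hg d hd => by
    simpa using has_eu_conj (hT d hd) hg (hMI hg)
  have sub : ∀ u d, Has M (eu P u 0 c₀) → RS P b F₀ d → P.B d u = 0 → u ∉ F ∙ d →
      RatSub b F₀ (Submodule.span F {u, d}) := by
    intro u d ⟨y, hy, ey⟩ hd hdu hu
    obtain ⟨x, hx, hx1, hx2⟩ := h.exists_rat_B_ne (ratSub_single hd.rat.ratPt) hu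
    obtain ⟨t, ht⟩ := rat_of_fix h hM hMI hI hd hy
      (by rw [ey]; exact eu_fix c₀ (P.eq_zero_symm hdu) (by simp)) hx (mem_perp_singleton.1 hx1)
    have e : y x - x = (-(P.ε * c₀ * P.B u x)) • u := by rw [ey, eu_apply]; simp
    rw [e] at ht
    rw [← span_pair_smul_add (neg_ne_zero.2 (mul_ne_zero (mul_ne_zero P.ε_ne_zero hc0) hx2)) t]
    exact ratSub_pair ht.ratPt hd.rat.ratPt
  have C1 : ∀ u d, P.q u ∈ P.Λ → Has M (eu P u 0 c₀) → RS P b F₀ d → P.B d u = 0 →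
      RatPt b F₀ u := by
    intro u d hu hTu hd hdu
    by_cases hud : u ∈ F ∙ d
    · obtain ⟨t, rfl⟩ := Submodule.mem_span_singleton.1 hud
      exact hd.rat.ratPt.smul t
    obtain ⟨d', hd', hd1, hd2⟩ := (sub u d hTu hd hdu hud).exists_rat_notMem (U := F ∙ d)
      fun hh => hud (hh (left_mem_pair u d))
    obtain ⟨s, t, e⟩ := Submodule.mem_span_pair.1 hd'
    have hs : s ≠ 0 := by
      rintro rfl
      exact hd2 (Submodule.mem_span_singleton.2 ⟨t, by simpa using e⟩)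
    have hq : P.q d' ∈ P.Λ := e ▸ sing_add_smul hu hd.sing (P.eq_zero_symm hdu) s t
    have hdd : P.B d d' = 0 := by rw [← e]; simp [hdu, hd.self]
    have hdd' : P.B d' d = 0 := P.eq_zero_symm hdd
    have hd'd' : P.B d' d' = 0 := P.self_eq_zero hq
    obtain ⟨α, β, hα, rfl⟩ : ∃ α β : F, α ≠ 0 ∧ u = α • d' + β • d :=
      ⟨s⁻¹, -(s⁻¹ * t), inv_ne_zero hs, by rw [← e]; simp [smul_smul, hs]⟩
    have hd0 : d' ≠ 0 := by rintro rfl; simp at hd2
    obtain ⟨x, hx, hx1, hx2⟩ := h.exists_rat_B (ratSub_single hd.rat.ratPt) hd1 hd2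
    replace hx1 := mem_perp_singleton.1 hx1
    obtain ⟨y, hy, ey⟩ := id hTu
    obtain ⟨t1, ht1⟩ := rat_of_fix h hM hMI hI hd hy
      (by rw [ey]; exact eu_fix c₀ (P.eq_zero_symm hdu) (by simp)) hx hx1
    have h1 : -(P.ε * (c₀ * σ α * α)) ∈ F₀ :=
      mem_of_rat_add (ratSub_single hd.rat.ratPt) hd1 hd2
        (Submodule.smul_mem _ (t1 - P.ε * c₀ * σ α * β) (Submodule.mem_span_singleton_self d))
        (by
          convert ht1 using 1
          rw [ey, eu_apply]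
          simp only [map_add, LinearMap.add_apply, B_smul_left, hx1, hx2, map_zero,
            LinearMap.zero_apply]
          module)
    have h2 : c₀ * σ α * α ∈ F₀ := by
      convert F₀.mul_mem (eps_mem P F₀) (F₀.neg_mem h1) using 1
      linear_combination (-(c₀ * σ α * α)) * hεε
    have h3 : InA P M d ((c₀ * σ β * α) • d') := by
      refine ⟨by simp [hdd], c₀ * (σ β * β), P.Λ.sub_mem ?_ (P.q_smul_mem hq _), ?_⟩
      · rw [mul_comm]; exact P.norm_mem β _ hc₀'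
      refine (Has.comp hTu ((h.has_eu_rat ⟨hd1, hd0, hq⟩ rat_zero (by simp) (F₀.neg_mem h2)
        (P.Λ.sub_mem (P.Λ.neg_mem ?_) P.q_zero)).mono hM)).congr fun z => ?_
      · convert P.norm_mem α _ hc₀' using 1; ring
      · simp only [eu_apply, map_add, map_sub, map_smul, LinearMap.add_apply, B_smul_left, hdd,
          hd'd', map_zero, LinearMap.zero_apply, smul_eq_mul, map_mul, hσc, P.σσ]
        module
    obtain ⟨t2, ht2⟩ := hI d _ hd h3
    have h5 : c₀ * σ β * α ∈ F₀ :=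
      mem_of_rat_add (ratSub_single hd.rat.ratPt) hd1 hd2
        (Submodule.smul_mem _ t2 (Submodule.mem_span_singleton_self d)) (by rwa [add_comm])
    have h6 : β / α ∈ F₀ := by
      have := h.σ_mem _ (F₀.div_mem h5 h2)
      have hσα := σ_ne_zero (σ := σ) hα
      rwa [show c₀ * σ β * α / (c₀ * σ α * α) = σ (β / α) by rw [map_div₀]; field_simp,
        P.σσ] at this
    exact ⟨α, _, hd1.add (hd.rat.smul h6), by rw [smul_add, smul_smul, mul_div_cancel₀ _ hα]⟩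
  have B : ∀ g ∈ M, ∀ d, RS P b F₀ d → RatPt b F₀ (g d) → g ∈ ratNorm b F₀ := by
    intro g hg d hd hgd
    have step : ∀ a a', RS P b F₀ a → RS P b F₀ a' → P.B a a' = 0 → RatPt b F₀ (g a) →
        RatPt b F₀ (g a') := by
      rintro a a' ha ha' haa ⟨c, v, hv, e⟩
      have hc : c ≠ 0 := by rintro rfl; exact ha.ne (g.injective (by simpa using e))
      have e' : v = c⁻¹ • g a := by rw [e]; simp [smul_smul, hc]
      refine C1 _ v (isom_q (hMI hg) ha'.sing) (hT' g hg a' ha') ⟨hv, fun h0 => ?_, ?_⟩ ?_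
      · exact ha.ne (g.injective (by simp [e, h0]))
      · rw [e']; exact P.q_smul_mem (isom_q (hMI hg) ha.sing) _
      · rw [e', B_smul_left, (hMI hg).1, haa, mul_zero]
    refine h.mem_ratNorm_of_sing hk (by omega) fun a ha => ?_
    obtain ⟨a', ha', h1, h2⟩ := h.exists_rs_perp hk (by omega) hd.rat.ratPt ha.rat.ratPt
    exact step a' a ha' ha (P.eq_zero_symm h2) (step d a' hd ha' h1 hgd)
  intro g hg
  obtain ⟨d, hd, -⟩ := h.exists_rs_perp hk (by omega) rat_zero.ratPt rat_zero.ratPt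
  refine B g hg d hd ?_
  by_contra hu
  have hTu := hT' g hg d hd
  have huq := isom_q (hMI hg) hd.sing
  set u := g d
  have hφ : ∀ a, RS P b F₀ a → P.B u a ≠ 0 := fun a ha h0 =>
    hu (C1 u a huq hTu ha (P.eq_zero_symm h0))
  obtain ⟨e, d', a', he, hd', ha', H⟩ := exists_hb h hk hn hd
  obtain ⟨y, hy, ey⟩ := hTu
  have key : ∀ a, RS P b F₀ a → ∃ k ∈ M, (∃ c : F, c ≠ 0 ∧ k a = c • u) ∧
      ∀ z, P.B a z = 0 → P.B u z = 0 → k z = z := by
    intro a ha
    obtain ⟨x, hx, ex⟩ := hT a ha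
    have hau := B_ne_zero_symm (hφ a ha)
    obtain ⟨k, hk, hk'⟩ := exists_map_center (x := x) (y := y) (d := a) (u := u)
      (α := -(P.ε * c₀ * P.B a u)) (β := -(P.ε * c₀ * P.B u a))
      (fun s t h => by
        have h1 := congrArg (P.B a) h
        simp only [map_add, map_smul, ha.self, smul_eq_mul, mul_zero, zero_add, map_zero,
          mul_eq_zero] at h1
        have ht := h1.resolve_right hau
        rw [ht, zero_smul, add_zero, smul_eq_zero] at h
        exact ⟨h.resolve_right ha.ne, ht⟩)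
      (by rw [ex]; exact eu_fix _ ha.self (by simp)) (by rw [ex, eu_apply]; simp)
      (by rw [ey]; exact eu_fix _ (P.self_eq_zero huq) (by simp)) (by rw [ey, eu_apply]; simp)
      (neg_ne_zero.2 (mul_ne_zero (mul_ne_zero P.ε_ne_zero hc0) hau))
      (neg_ne_zero.2 (mul_ne_zero (mul_ne_zero P.ε_ne_zero hc0) (hφ a ha)))
    exact ⟨k, closure_pair_le hx hy hk, hk', fun z h1 h2 =>
      closure_pair_fix (by rw [ex]; exact eu_fix _ h1 (by simp))
        (by rw [ey]; exact eu_fix _ h2 (by simp)) hk⟩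
  obtain ⟨k, hk1, ⟨c, hc, ek⟩, hkz⟩ := key d hd
  obtain ⟨k', hk', ⟨c', hc', ek'⟩, hkz'⟩ := key d' hd'
  set j := k'⁻¹ * k
  have hh : j d = (c / c') • d' := by
    apply k'.injective
    rw [le_mul_apply, le_apply_inv, map_smul, ek, ek', smul_smul, div_mul_cancel₀ _ hc']
  have hhM : j ∈ M := M.mul_mem (M.inv_mem hk') hk1
  obtain ⟨s, hs, hj⟩ := B j hhM d hd (hh ▸ hd'.rat.ratPt.smul _)
  have hφa := hφ d hd
  have hφa' := hφ d' hd'
  set θ := -(P.B u d / P.B u d') with hθ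
  have hθ0 : θ ≠ 0 := neg_ne_zero.2 (div_ne_zero hφa hφa')
  have hup : P.B u (d + θ • d') = 0 := by
    simp only [map_add, map_smul, smul_eq_mul, hθ]; field_simp; ring
  have hθ' : θ ∉ F₀ := fun ht => hφ _ ⟨hd.rat.add (hd'.rat.smul ht), fun h0 => by
    simpa [H.ed, H.ea] using congrArg (P.B e) h0, by
      simpa using sing_add_smul hd.sing hd'.sing H.da 1 θ⟩ hup
  have hp : j (d + θ • d') = d + θ • d' := by
    apply k'.injective
    rw [le_mul_apply, le_apply_inv, hkz _ (by simp [H.dd, H.da]) hup,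
      hkz' _ (by simp [H.ad, H.aa0]) hup]
  have h1 : s • j d' = (s * θ⁻¹) • d + (s - θ⁻¹ * (s * (c / c'))) • d' := by
    rw [map_add, map_smul, hh] at hp
    have : j d' = θ⁻¹ • (d + θ • d' - (c / c') • d') := by
      rw [← hp, add_sub_cancel_left, smul_smul, inv_mul_cancel₀ hθ0, one_smul]
    rw [this]
    match_scalars <;> field_simp
  have h2 := (hj d').1 hd'.rat
  have h3 := h.B_mem _ _ he.rat h2
  have h5 := h.B_mem _ _ ha'.rat h2
  have h6 := h.B_mem _ _ ha'.rat ((hj d).1 hd.rat)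
  rw [h1] at h3 h5
  rw [hh] at h6
  simp only [map_add, map_smul, H.ed, H.ea, H.aa, H.ad', smul_eq_mul, mul_one, mul_zero,
    add_zero, zero_add] at h3 h5 h6
  obtain ⟨f₁, f₂, θ₁, θ₂, hf⟩ := exists_two_proj (eq_two_of_quad hr hcard hθ' h3 h5 h6
    (mul_ne_zero hs (inv_ne_zero hθ0)) (by field_simp; ring))
  obtain ⟨a, ha, h7, h8⟩ := h.exists_rs_perp hk hn (rat_proj f₁ u).ratPt (rat_proj f₂ u).ratPt
  have huv : u = θ₁ • proj b f₁ u + θ₂ • proj b f₂ u := by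
    apply b.repr.injective
    ext i
    simp only [map_add, map_smul, Finsupp.add_apply, Finsupp.smul_apply, repr_proj, smul_eq_mul]
    exact hf _
  refine hφ a ha ?_
  rw [huv]
  simp [h7, h8]

theorem isMaximalIn_sub4 (h : RatPQ P b F₀) (hk : RIso P b F₀ k) (hk2 : k ≤ 2)
    (h4 : Fintype.card ι = 4) {r : ℕ} (hr : r.Prime) (hcard : Fintype.card F = Nat.card F₀ ^ r)
    {c₀ : F} (hc₀ : c₀ ∈ F₀) (hc₀' : c₀ ∈ P.Λ) (hc0 : c₀ ≠ 0)
    (hΛ : ∀ l ∈ P.Λ, ∃ a, l = a - P.ε * σ a)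
    (hβ : ∀ β ∉ F₀, (∃ c ∈ F₀, c * β - P.ε * σ (c * β) ∉ F₀) ∨
      ∀ z, ∃ x ∈ F₀, ∃ y ∈ F₀, z = x + y * β) :
    Geo.IsMaximalIn (EG P) (ratNorm b F₀ ⊓ EG P) := by
  have hn : k + 2 ≤ Fintype.card ι := by omega
  refine isMaximalIn_of inf_le_right (fun hle => ?_) fun M h1 h2 hex => ?_
  · obtain ⟨s, hs⟩ := exists_notMem_of_card hr hcard
    obtain ⟨d, hd, -⟩ := h.exists_rs_perp hk hn rat_zero.ratPt rat_zero.ratPt
    obtain ⟨e, a, a', -, ha, ha', H⟩ := exists_hb h hk hn hd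
    obtain ⟨g, hg, eg⟩ := has_eu_EG (w := σ s • a') (c := P.q (σ s • a')) hd.sing
      (by simp [H.da']) (by simp)
    have := ha.rat.ratPt.apply (hle hg).1
    rw [eg, eu_apply] at this
    exact not_ratPt_add_smul hd.rat ha.rat hd.ne H.notMem hs
      (by simpa [B_smul_left, P.σσ, H.aa, H.da] using this)
  have hM : ratStab b F₀ ⊓ EG P ≤ M := (inf_le_inf_right _ ratStab_le_ratNorm).trans h1
  have hMI := h2.trans EG_le_isom
  by_contra hE
  obtain ⟨g, hg, hg'⟩ := hex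
  refine hg' ⟨le_ratNorm4 h hk hn h4 hr hcard hc₀ hc₀' hc0 hM hMI (fun d w hd hw => ?_) hg, h2 hg⟩
  by_contra hc
  push Not at hc
  exact hE (EG_le_of_level4 h hk hk2 h4 hr hcard hc₀ hc₀' hc0 hΛ hβ hM hMI hd hw hc)

theorem exists_coords (h2 : finrank F₀ F = 2) {β : F} (hβ : β ∉ F₀) (z : F) :
    ∃ x ∈ F₀, ∃ y ∈ F₀, z = x + y * β := by
  have hli : LinearIndependent F₀ ![(1 : F), β] := by
    rw [LinearIndependent.pair_iff]
    intro s t hst
    simp only [Subfield.smul_def, smul_eq_mul, mul_one] at hst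
    have ht : (t : F) = 0 := by
      by_contra ht
      exact hβ (by
        convert F₀.neg_mem (F₀.div_mem s.2 t.2) using 1
        field_simp; linear_combination hst)
    rw [ht, zero_mul, add_zero] at hst
    exact ⟨Subtype.ext hst, Subtype.ext ht⟩
  have hs := hli.span_eq_top_of_card_eq_finrank' (by simp [h2])
  have hz : z ∈ Submodule.span F₀ (Set.range ![(1 : F), β]) := hs ▸ Submodule.mem_top
  obtain ⟨c, rfl⟩ := (Submodule.mem_span_range_iff_exists_fun F₀).1 hz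
  exact ⟨c 0, (c 0).2, c 1, (c 1).2, by simp [Fin.sum_univ_two, Subfield.smul_def]⟩

section Concrete

open scoped Matrix MatrixGroups

theorem subfield_Sp4 (hodd : Odd (Fintype.card F)) (F₀ : Subfield F) {r : ℕ} (hr : r.Prime)
    (hcard : Fintype.card F = Nat.card F₀ ^ r) (A : GL (Fin 2 ⊕ Fin 2) F) {ζ : F} (hζ : ζ ≠ 0)
    (hA : Geo.IsFormRationalStructure (sympForm 2 F) F₀ ζ A) :
    Geo.IsMaximalIn (spGL 2 F) (Geo.subfieldSubgroup F₀ A ⊓ spGL 2 F) := by
  let P := scale (spP 2 F) ζ 1 hζ (by simp) (by simp) (by simp)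
  have hΛ : ∀ l, l ∈ P.Λ := fun _ => trivial
  have h : RatPQ P (colBasis A) F₀ := ⟨scale_nd (spP_nd 2), fun a ha => ha,
    fun x y hx hy => formRat hA hx hy, fun x _ => ⟨0, F₀.zero_mem, hΛ _⟩⟩
  have hk : RIso P (colBasis A) F₀ 1 := riso_one fun _ _ => hΛ _
  have hε : P.ε = -1 := by change (-1 : F) * 1 = -1; simp
  have h2 := two_ne_zero_of_odd hodd
  rw [subfieldSubgroup_eq, spGL_eq, ← pull_inf, ← scale_EG (ζ := ζ) (δ := 1) (hζ := hζ)
    (hδ := by simp) (hσδ := by simp) (hσζ := by simp)]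
  refine isMaximalIn_pull (isMaximalIn_sub4 h hk (by omega) (by simp) hr hcard F₀.one_mem (hΛ _)
    one_ne_zero (fun l _ => ⟨l / 2, by rw [hε]; simp; field_simp; ring⟩) fun β hβ => Or.inl ⟨1, F₀.one_mem, ?_⟩)
  intro hh
  refine hβ ?_
  convert F₀.div_mem hh (show (2 : F) ∈ F₀ by simp) using 1
  rw [hε]; simp; field_simp; ring

open H11.U

variable {q : ℕ} [IsSq F q]

theorem subfield_SU4_odd (F₀ : Subfield F) {r : ℕ} (hr : r.Prime)
    (hro : Odd r) (hcard : Fintype.card F = Nat.card F₀ ^ r) (A : GL (Fin 4) F)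
    (hA : Geo.IsFormRationalStructure (hermForm 4 F q) F₀ 1 A) :
    Geo.IsMaximalIn (GU 4 F q ⊓ Geo.specialLinear (Fin 4) F)
      (Geo.subfieldSubgroup F₀ A ⊓ (GU 4 F q ⊓ Geo.specialLinear (Fin 4) F)) := by
  obtain ⟨a, ha, ha'⟩ := exists_cj_ne_of_odd (q := q) hr hro hcard
  let σ₀ : F₀ →+* F₀ := (cj q).restrict F₀ F₀ fun x hx => cj_mem F₀ hx
  have hσ₀ : σ₀ ≠ RingHom.id F₀ := fun h =>
    ha' (congrArg Subtype.val (congrArg (fun φ : F₀ →+* F₀ => φ ⟨a, ha⟩) h))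
  have hσσ : ∀ x, σ₀ (σ₀ x) = x := fun x => Subtype.ext (cj_cj x.1)
  obtain ⟨θ, hθ⟩ := exists_trace_one hσ₀ hσσ
  have hθ' : (θ : F) + cj q (θ : F) = 1 := congrArg Subtype.val hθ
  have hB : ∀ x y, Rat (colBasis A) F₀ x → Rat (colBasis A) F₀ y → (uP 4 F q).B x y ∈ F₀ :=
    fun x y hx hy => by rw [uP_B]; simpa using formRat hA hy hx
  have h : RatPQ (uP 4 F q) (colBasis A) F₀ := ⟨uP_nd, fun a ha => cj_mem F₀ ha, hB,
    fun x hx => ⟨θ * (uP 4 F q).B x x, F₀.mul_mem θ.2 (hB x x hx hx), uP_valid.2 (by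
      rw [map_mul, uP_B, cj_form]; linear_combination (hermForm 4 F q x x) * hθ')⟩⟩
  have hk : RIso (uP 4 F q) (colBasis A) F₀ 2 := riso_two h rfl uP_iso fun t ht ht' => by
    obtain ⟨x, hx⟩ := H28.exists_norm_eq hσ₀ hσσ (t := ⟨t, ht⟩) (Subtype.ext ht')
    exact ⟨x, x.2, congrArg Subtype.val hx⟩
  rw [subfieldSubgroup_eq, SU_eq (by omega), ← pull_inf]
  refine isMaximalIn_pull (isMaximalIn_sub4 h hk le_rfl (by simp) hr hcard (c₀ := a - cj q a)
    (F₀.sub_mem ha (cj_mem F₀ ha)) (mem_uP_Λ.2 (by rw [map_sub, cj_cj]; ring))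
    (sub_ne_zero.2 ha'.symm) (fun l hl => ?_) fun β hβ => Or.inl ?_)
  · obtain ⟨c, hc⟩ := exists_sub_cj (mem_uP_Λ.1 hl)
    exact ⟨c, by simpa [uP_ε] using hc⟩
  by_contra hc
  push Not at hc
  refine hβ ?_
  have h1 := sub_ne_zero.2 ha'.symm
  convert F₀.div_mem (F₀.sub_mem (hc a ha) (F₀.mul_mem (cj_mem F₀ ha) (hc 1 F₀.one_mem)))
    (F₀.sub_mem ha (cj_mem (q := q) F₀ ha)) using 1
  simp only [uP_ε, map_mul, one_mul]
  field_simp
  ring

theorem subfield_SU4_symp (F₀ : Subfield F)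
    (hcard : Fintype.card F = Nat.card F₀ ^ 2) {ζ : F} (hζ0 : ζ ≠ 0) (hζ : ζ + ζ ^ q = 0)
    (A : GL (Fin 4) F) (hA : Geo.IsFormRationalStructure (hermForm 4 F q) F₀ ζ A)
    (halt : ∀ u : Fin 4 → F, (∀ i, u i ∈ F₀) →
      hermForm 4 F q ((A : Matrix (Fin 4) (Fin 4) F) *ᵥ u) ((A : Matrix (Fin 4) (Fin 4) F) *ᵥ u) = 0) :
    Geo.IsMaximalIn (GU 4 F q ⊓ Geo.specialLinear (Fin 4) F)
      (Geo.subfieldSubgroup F₀ A ⊓ (GU 4 F q ⊓ Geo.specialLinear (Fin 4) F)) := by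
  have hσζ : cj q ζ = -1 * ζ := by rw [cj_apply]; linear_combination hζ
  let P := scale (uP 4 F q) ζ (-1) hζ0 (by simp) (by simp) hσζ
  have hs : ∀ x, Rat (colBasis A) F₀ x → P.q x ∈ P.Λ := fun x hx => by
    obtain ⟨u, hu, rfl⟩ := (rat_colBasis_iff' A F₀ x).1 hx
    exact scale_sing.2 (uP_iso _ (halt u hu))
  have h : RatPQ P (colBasis A) F₀ := ⟨scale_nd uP_nd, fun a ha => cj_mem F₀ ha,
    fun x y hx hy => formRat hA hy hx, fun x hx => ⟨0, F₀.zero_mem, by simpa using hs x hx⟩⟩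
  have hk : RIso P (colBasis A) F₀ 1 := riso_one hs
  rw [subfieldSubgroup_eq, SU_eq (by omega), ← pull_inf, ← scale_EG (ζ := ζ) (δ := -1) (hζ := hζ0)
    (hδ := by simp) (hσδ := by simp) (hσζ := hσζ)]
  refine isMaximalIn_pull (isMaximalIn_sub4 h hk (by omega) (by simp) Nat.prime_two hcard
    F₀.one_mem (mem_scale_Λ.2 (mem_uP_Λ.2 ?_)) one_ne_zero (fun l hl => ?_)
    fun β hβ => Or.inr (exists_coords (finrank_eq_of_card hcard) hβ))
  · rw [mul_one, map_inv₀, hσζ]; field_simp; ring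
  · obtain ⟨c, hc⟩ := exists_sub_cj (mem_uP_Λ.1 (mem_scale_Λ.1 hl))
    refine ⟨ζ * c, ?_⟩
    rw [scale_ε, uP_ε, map_mul, hσζ]
    field_simp at hc
    linear_combination hc

end Concrete

end H28.Four
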