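import Mathlib
import Cfsg.Agent.Base
import Cfsg.Agent.Lib.Four.Sub

/-!
Orthogonal subfield subgroups of the unitary group in dimension four.
-/

set_option autoImplicit false
set_option linter.unusedSectionVars false

namespace H28.Four

open Module Cfsg H97 H28 H11.Sub

variable {F V : Type*} [Field F] [AddCommGroup V] [Module F V] {σ : F →+* F}
  {ι : Type*} [Fintype ι] [FiniteDimensional F V] [Fintype F]

theorem exists_rat_zero {b : Basis ι F V} {F₀ : Subfield F} (Q₀ : QuadraticForm F₀ V)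
    {X : Submodule F V} (hX : RatSub b F₀ X) (h3 : 3 ≤ finrank F X) :
    ∃ x ∈ X, Rat b F₀ x ∧ x ≠ 0 ∧ Q₀ x = 0 := by
  have := finite_of_basis b
  have : Module.Finite F₀ V := Module.Finite.of_finite
  let W : Submodule F₀ V :=
    { carrier := {x | x ∈ X ∧ Rat b F₀ x}
      zero_mem' := ⟨X.zero_mem, rat_zero⟩
      add_mem' := fun hx hy => ⟨X.add_mem hx.1 hy.1, hx.2.add hy.2⟩
      smul_mem' := fun c x hx => ⟨X.smul_mem (c : F) hx.1, hx.2.smul c.2⟩ }
  let e := Module.finBasis F₀ W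
  have h1 : X ≤ Submodule.span F (Set.range fun i => (e i : V)) := hX.le_of_rat fun v hv hv' => by
    have := congrArg Subtype.val (e.sum_repr ⟨v, hv, hv'⟩)
    simp only [AddSubmonoidClass.coe_finsetSum] at this
    rw [← this]
    exact Submodule.sum_mem _ fun i _ =>
      Submodule.smul_mem _ (e.repr ⟨v, hv, hv'⟩ i : F) (Submodule.subset_span ⟨i, rfl⟩)
  have h2 := (Submodule.finrank_mono h1).trans (finrank_range_le_card _)
  rw [Fintype.card_fin] at h2
  obtain ⟨v, hv, hv0, hq⟩ := exists_singular_of_three_le Q₀ W (h3.trans h2)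
  exact ⟨v, hv.1, hv.2, hv0, hq⟩

theorem finrank_three {a b c : V}
    (h : ∀ s t u : F, s • a + t • b + u • c = 0 → s = 0 ∧ t = 0 ∧ u = 0) :
    finrank F (Submodule.span F ({a, b, c} : Set V)) = 3 := by
  have hli : LinearIndependent F ![a, b, c] := by
    rw [Fintype.linearIndependent_iff]
    intro g hg
    rw [Fin.sum_univ_three] at hg
    obtain ⟨h1, h2, h3⟩ := h _ _ _ hg
    intro i
    fin_cases i <;> assumption
  have := finrank_span_eq_card hli
  rwa [Matrix.range_cons, Matrix.range_cons, Matrix.range_cons, Matrix.range_empty,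
    Set.union_empty, Set.singleton_union, Set.singleton_union] at this

/-- In dimension four, the perpendicular of three independent vectors is a point. -/
theorem mem_span_of_perp {P : PQ F V σ} (hP : P.B.SeparatingLeft) (h4 : finrank F V = 4)
    {a b c p x : V} (h : ∀ s t u : F, s • a + t • b + u • c = 0 → s = 0 ∧ t = 0 ∧ u = 0)
    (hp : p ≠ 0) (h1 : P.B a p = 0) (h2 : P.B b p = 0) (h3 : P.B c p = 0)
    (k1 : P.B a x = 0) (k2 : P.B b x = 0) (k3 : P.B c x = 0) : x ∈ F ∙ p := by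
  have h5 := finrank_perp hP (Submodule.span F ({a, b, c} : Set V))
  rw [finrank_three h] at h5
  have h6 : (F ∙ p) = perp P (Submodule.span F ({a, b, c} : Set V)) :=
    Submodule.eq_of_le_of_finrank_le
      ((Submodule.span_singleton_le_iff_mem _ _).2 (mem_perp_triple.2 ⟨h1, h2, h3⟩))
      (by rw [finrank_span_singleton hp]; omega)
  exact h6 ▸ mem_perp_triple.2 ⟨k1, k2, k3⟩

/-- A unitary space of dimension four with an orthogonal rational structure. -/
structure OU (P : PQ F V σ) (b : Basis ι F V) (F₀ : Subfield F) (θ t₀ : F) : Prop where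
  h : RatPQ P b F₀
  eps : P.ε = 1
  fix : ∀ a, a ∈ F₀ ↔ σ a = a
  two : (2 : F) ≠ 0
  lam : ∀ l, l ∈ P.Λ ↔ l + σ l = 0
  th : σ θ = -θ
  th0 : θ ≠ 0
  t0 : t₀ ∈ F₀
  t1 : t₀ ≠ 0
  t2 : t₀ ^ 2 ≠ 1
  dim : Fintype.card ι = 4
  sl : ∀ g ∈ P.Isom, g ∈ SLV F V → g ∈ EG P

/-- The reflection in `v`. -/
def rf (P : PQ F V σ) (v x : V) : V := x - (2 * (P.B v v)⁻¹ * P.B v x) • v

namespace OU

variable {P : PQ F V σ} {b : Basis ι F V} {F₀ : Subfield F} {θ t₀ : F} (E : OU P b F₀ θ t₀)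
  {M : Subgroup (V ≃ₗ[F] V)}
include E

theorem four : finrank F V = 4 := by rw [finrank_eq_card_basis b, E.dim]

theorem symm (x y : V) : P.B y x = σ (P.B x y) := by rw [P.symm, E.eps, one_mul]

theorem real (x : V) : σ (P.B x x) = P.B x x := (E.symm x x).symm

theorem comm {x y : V} (hx : Rat b F₀ x) (hy : Rat b F₀ y) : P.B x y = P.B y x := by
  rw [E.symm x y, (E.fix _).1 (E.h.B_mem _ _ hx hy)]

theorem app (d w : V) (c : F) (x : V) :
    eu P d w c x = x + (P.B w x - c * P.B d x) • d - P.B d x • w := by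
  rw [eu_apply, E.eps, one_mul, one_mul]

theorem valid {w : V} {c : F} : c - P.q w ∈ P.Λ ↔ c + σ c = P.B w w := by
  rw [E.lam, P.self, E.eps, map_sub]
  constructor <;> intro h <;> linear_combination h

theorem sing {x : V} : P.q x ∈ P.Λ ↔ P.B x x = 0 := by rw [E.lam, P.self, E.eps, one_mul]

theorem two_mem : (2 : F) ∈ F₀ := by simp

theorem half_valid (w : V) : P.B w w / 2 - P.q w ∈ P.Λ := by
  have := E.two
  rw [E.valid, map_div₀, E.real, map_ofNat]; field_simp; ring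

theorem rs {d : V} (hd : Rat b F₀ d) (h0 : d ≠ 0) (h : P.B d d = 0) : RS P b F₀ d :=
  ⟨hd, h0, E.sing.2 h⟩

theorem not_mem {ϑ : F} (h : σ ϑ = -ϑ) (h0 : ϑ ≠ 0) : ϑ ∉ F₀ := fun hh => by
  rw [(E.fix _).1 hh] at h
  exact h0 ((mul_eq_zero.1 (by linear_combination h : 2 * ϑ = 0)).resolve_left E.two)

theorem sep {x y : F} (hx : x ∈ F₀) (hy : y ∈ F₀) (h : x + θ * y = 0) : x = 0 ∧ y = 0 := by
  have h1 := congrArg σ h
  rw [map_add, map_mul, E.th, (E.fix _).1 hx, (E.fix _).1 hy, map_zero] at h1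
  have h2 : x = 0 := (mul_eq_zero.1 (by linear_combination h + h1 : 2 * x = 0)).resolve_left E.two
  rw [h2, zero_add] at h
  exact ⟨h2, (mul_eq_zero.1 h).resolve_left E.th0⟩

theorem coords (z : F) : ∃ x ∈ F₀, ∃ y ∈ F₀, z = x + θ * y := by
  have h2 := E.two
  have h0 := E.th0
  refine ⟨(z + σ z) / 2, (E.fix _).2 ?_, (z - σ z) / (2 * θ), (E.fix _).2 ?_, ?_⟩
  · rw [map_div₀, map_add, P.σσ, map_ofNat, add_comm]
  · rw [map_div₀, map_sub, P.σσ, map_mul, map_ofNat, E.th]; field_simp; ring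
  · field_simp; ring

theorem split (v : V) : ∃ v₁ v₂, Rat b F₀ v₁ ∧ Rat b F₀ v₂ ∧ v = v₁ + θ • v₂ := by
  choose x hx y hy h using fun i => E.coords (b.repr v i)
  refine ⟨b.repr.symm (Finsupp.equivFunOnFinite.symm x),
    b.repr.symm (Finsupp.equivFunOnFinite.symm y), fun i => by simpa using hx i,
    fun i => by simpa using hy i, b.repr.injective (Finsupp.ext fun i => ?_)⟩
  simpa using h i

theorem has_rat {d w : V} (hd : RS P b F₀ d) (hw : Rat b F₀ w) (hdw : P.B d w = 0) :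
    Has (ratStab b F₀ ⊓ EG P) (eu P d w (P.B w w / 2)) :=
  E.h.has_eu_rat hd hw hdw (F₀.div_mem (E.h.B_mem _ _ hw hw) E.two_mem) (E.half_valid w)

theorem rat_rf {v x : V} (hv : Rat b F₀ v) (hx : Rat b F₀ x) : Rat b F₀ (rf P v x) :=
  hx.sub (hv.smul (F₀.mul_mem (F₀.mul_mem E.two_mem (F₀.inv_mem (E.h.B_mem _ _ hv hv)))
    (E.h.B_mem _ _ hv hx)))

theorem exists_rf {v : V} (hv : P.B v v ≠ 0) : ∃ g ∈ P.Isom,
    LinearMap.det (g : V →ₗ[F] V) = -1 ∧ ∀ x, g x = rf P v x := by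
  obtain ⟨g, hg, e⟩ := has_qrefl_isom E.h.nd (c := -(2 * (P.B v v)⁻¹)) (d := v) (by
    have h1 := P.self v
    rw [E.eps, one_mul] at h1
    rw [E.lam, E.eps]
    simp only [map_add, map_mul, map_neg, map_inv₀, E.real, map_ofNat, map_one]
    field_simp
    linear_combination (-4) * h1)
  refine ⟨g, hg, ?_, fun x => by rw [e, P.qrefl_apply, rf]; module⟩
  rw [det_of_rank_one (φ := (-(2 * (P.B v v)⁻¹)) • P.B v) (d := v)
    fun x => by rw [e, P.qrefl_apply]; simp]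
  simp only [LinearMap.smul_apply, smul_eq_mul]
  field_simp; ring

theorem has_rr {v w : V} (hv : Rat b F₀ v) (hw : Rat b F₀ w) (hv0 : P.B v v ≠ 0)
    (hw0 : P.B w w ≠ 0) : ∃ g ∈ ratStab b F₀ ⊓ EG P, ∀ x, g x = rf P v (rf P w x) := by
  have := finite_of_basis b
  obtain ⟨g, hg, h1, e⟩ := E.exists_rf hv0
  obtain ⟨g', hg', h1', e'⟩ := E.exists_rf hw0
  have e2 : ∀ x, (g * g') x = rf P v (rf P w x) := fun x => by rw [le_mul_apply, e, e']
  refine ⟨g * g', ⟨fun x => ⟨fun hx => e2 x ▸ E.rat_rf hv (E.rat_rf hw hx), fun hx => ?_⟩,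
    E.sl _ (P.Isom.mul_mem hg hg') ?_⟩, e2⟩
  · let k : {x // Rat b F₀ x} → {x // Rat b F₀ x} := fun y =>
      ⟨(g * g') y.1, e2 y.1 ▸ E.rat_rf hv (E.rat_rf hw y.2)⟩
    have hk : Function.Injective k := fun y z e =>
      Subtype.ext ((g * g').injective (congrArg Subtype.val e))
    obtain ⟨y, hy⟩ := Finite.surjective_of_injective hk ⟨_, hx⟩
    rw [← (g * g').injective (congrArg Subtype.val hy)]
    exact y.2
  · rw [mem_SLV, LinearEquiv.coe_toLinearMap_mul, map_mul, h1, h1']; ring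

theorem partner {u : V} (hu : RS P b F₀ u) : ∃ e, RS P b F₀ e ∧ P.B e u = 1 ∧ P.B u e = 1 := by
  obtain ⟨e, he, h1, -⟩ := E.h.exists_partner ratSub_bot hu (by simpa using hu.ne) (mem_perp_bot _)
  exact ⟨e, he, h1, by rw [E.comm hu.rat he.rat, h1]⟩

theorem torus {u e : V} (hu : RS P b F₀ u) (he : RS P b F₀ e) (h1 : P.B e u = 1) {t : F}
    (ht : t ∈ F₀) (ht0 : t ≠ 0) : ∃ g ∈ ratStab b F₀ ⊓ EG P, g u = t • u ∧ g e = t⁻¹ • e ∧
      ∀ x, P.B u x = 0 → P.B e x = 0 → g x = x := by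
  have h2 : P.B u e = 1 := by rw [E.comm hu.rat he.rat, h1]
  have h3 := (E.fix _).1 ht
  have h4 := E.two
  have h5 : P.B (u + t⁻¹ • e) (u + t⁻¹ • e) = 2 * t⁻¹ := by
    simp [B_smul_left, hu.self, he.self, h1, h2, h3]; ring
  have h6 : P.B (u + e) (u + e) = 2 := by simp [hu.self, he.self, h1, h2]; ring
  obtain ⟨g, hg, eg⟩ := E.has_rr (hu.rat.add (he.rat.smul (F₀.inv_mem ht))) (hu.rat.add he.rat)
    (by rw [h5]; simp [h4, ht0]) (by rwa [h6])
  refine ⟨g, hg, ?_, ?_, fun x k1 k2 => ?_⟩ <;> rw [eg, rf, rf, h5, h6]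
  · simp only [map_add, map_sub, map_smul, LinearMap.add_apply, B_smul_left, hu.self, he.self,
      h1, h2, map_inv₀, h3, smul_eq_mul]
    match_scalars <;> field_simp <;> ring
  · simp only [map_add, map_sub, map_smul, LinearMap.add_apply, B_smul_left, hu.self, he.self,
      h1, h2, map_inv₀, h3, smul_eq_mul]
    match_scalars <;> field_simp <;> ring
  · simp [B_smul_left, k1, k2]

/-- An orthogonal basis of the complement of a hyperbolic pair. -/
theorem frame {u e : V} (hu : RS P b F₀ u) (he : RS P b F₀ e) (h1 : P.B e u = 1) :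
    ∃ c d, Rat b F₀ c ∧ Rat b F₀ d ∧ P.B c c ≠ 0 ∧ P.B d d ≠ 0 ∧ P.B c d = 0 ∧ P.B u c = 0 ∧
      P.B u d = 0 ∧ P.B e c = 0 ∧ P.B e d = 0 ∧ ∀ w, P.B u w = 0 →
        w = P.B e w • u + ((P.B c c)⁻¹ * P.B c w) • c + ((P.B d d)⁻¹ * P.B d w) • d := by
  have h2 : P.B u e = 1 := by rw [E.comm hu.rat he.rat, h1]
  have hC := E.h.ratSub_perp (ratSub_pair hu.rat.ratPt he.rat.ratPt)
  have h3 := E.h.finrank_perp_pair u e
  rw [E.dim] at h3
  have nd : ∀ x, P.B u x = 0 → P.B e x = 0 → (∀ y, Rat b F₀ y → P.B u y = 0 → P.B e y = 0 →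
      P.B y x = 0) → x = 0 := fun x k1 k2 k3 => E.h.eq_zero_of_rat fun v hv => by
    have := k3 (v - P.B e v • u - P.B u v • e)
      ((hv.sub (hu.rat.smul (E.h.B_mem _ _ he.rat hv))).sub (he.rat.smul (E.h.B_mem _ _ hu.rat hv)))
      (by simp [hu.self, h2]) (by simp [he.self, h1])
    simpa [B_smul_left, k1, k2] using this
  obtain ⟨c, hc, hc1, hc2, hc0⟩ : ∃ c, Rat b F₀ c ∧ P.B u c = 0 ∧ P.B e c = 0 ∧ P.B c c ≠ 0 := by
    by_contra hh
    push Not at hh
    obtain ⟨x', hx', hx0'⟩ := exists_ne_zero_mem (X := perp P (Submodule.span F {u, e})) (by omega)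
    obtain ⟨x, hx, hx1, hx0⟩ := hC.exists_rat hx' hx0'
    obtain ⟨k1, k2⟩ := mem_perp_pair.1 hx
    refine hx0 (nd x k1 k2 fun y hy l1 l2 => ?_)
    have := hh (x + y) (hx1.add hy) (by simp [k1, l1]) (by simp [k2, l2])
    simp only [map_add, LinearMap.add_apply, hh x hx1 k1 k2, hh y hy l1 l2, E.comm hx1 hy] at this
    exact (mul_eq_zero.1 (by linear_combination this : 2 * P.B y x = 0)).resolve_left E.two
  have h5 := finrank_inf_ker' (perp P (Submodule.span F {u, e})) (P.B c)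
  obtain ⟨y', hy', hy0'⟩ := exists_ne_zero_mem
    (X := perp P (Submodule.span F {u, e}) ⊓ LinearMap.ker (P.B c)) (by omega)
  obtain ⟨d, hd, hd1, hd0⟩ := (hC.inf (E.h.ratD hc).ratSub_ker).exists_rat hy' hy0'
  obtain ⟨k1, k2⟩ := mem_perp_pair.1 hd.1
  have k3 : P.B c d = 0 := hd.2
  have hs : ∀ x, P.B u x = 0 → P.B e x = 0 → P.B c x = 0 → x ∈ F ∙ d := fun x l1 l2 l3 =>
    mem_span_of_perp E.h.nd E.four (a := u) (b := e) (c := c) (fun s t r hh => by
      have e1 := congrArg (P.B e) hh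
      have e2 := congrArg (P.B u) hh
      have e3 := congrArg (P.B c) hh
      simp [hu.self, he.self, h1, h2, hc1, hc2, P.eq_zero_symm hc1, P.eq_zero_symm hc2, hc0]
        at e1 e2 e3
      exact ⟨e1, e2, e3⟩) hd0 k1 k2 k3 l1 l2 l3
  have hdd : P.B d d ≠ 0 := fun h0 => hd0 (nd d k1 k2 fun y hy l1 l2 => by
    obtain ⟨s, hs'⟩ := Submodule.mem_span_singleton.1 (hs (y - ((P.B c c)⁻¹ * P.B c y) • c)
      (by simp [l1, hc1]) (by simp [l2, hc2]) (by simp; field_simp; ring))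
    have := congrArg (fun z => P.B z d) hs'
    simpa [B_smul_left, h0, k3] using this.symm)
  refine ⟨c, d, hc, hd1, hc0, hdd, k3, hc1, k1, hc2, k2, fun w hw => ?_⟩
  obtain ⟨s, hs'⟩ := Submodule.mem_span_singleton.1
    (hs (w - P.B e w • u - ((P.B c c)⁻¹ * P.B c w) • c) (by simp [hw, hu.self, hc1])
      (by simp [h1, hc2]) (by simp [P.eq_zero_symm hc1]; field_simp; ring))
  have h6 := congrArg (P.B d) hs'
  simp only [map_sub, map_smul, smul_eq_mul, P.eq_zero_symm k1, P.eq_zero_symm k3, mul_zero,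
    sub_zero] at h6
  rw [← h6, mul_comm s, inv_mul_cancel_left₀ hdd, hs']
  abel

theorem trans {x y : V} (hx : RS P b F₀ x) (hy : RS P b F₀ y) :
    ∃ g ∈ ratStab b F₀ ⊓ EG P, ∃ t ∈ F₀, t ≠ 0 ∧ g x = t • y := by
  by_cases h : P.B y x = 0
  · exact E.h.exists_map_of_perp hx hy (P.eq_zero_symm h)
  have hm := F₀.inv_mem (E.h.B_mem _ _ hy.rat hx.rat)
  have he := hy.smul hm (inv_ne_zero h)
  have h1 : P.B ((P.B y x)⁻¹ • y) x = 1 := by rw [B_smul_left, (E.fix _).1 hm, inv_mul_cancel₀ h]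
  obtain ⟨c, -, hc, -, hc0, -, -, h2, -, h3, -⟩ := E.frame hx he h1
  obtain ⟨g, hg, eg⟩ := E.has_rat hx hc h2
  have h4 : P.B x ((P.B y x)⁻¹ • y) = 1 := by rw [E.comm hx.rat he.rat, h1]
  have h5 : P.B y c = 0 := by simpa [B_smul_left, h] using h3
  have h6 : g ((P.B y x)⁻¹ • y) = (P.B y x)⁻¹ • y - (P.B c c / 2) • x - c := by
    rw [eg, E.app, h4, P.eq_zero_symm h3]; module
  refine E.h.exists_map_of_ne (e := g ((P.B y x)⁻¹ • y)) ⟨(hg.1 _).1 he.rat,
    by simpa using ⟨h, hy.ne⟩, isom_q (EG_le_isom hg.2) he.sing⟩ hx hy ?_ ?_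
  · rw [h6]; simp [B_smul_left, hx.self, P.eq_zero_symm h2, h]
  · rw [h6]
    simp [B_smul_left, hy.self, P.eq_zero_symm h5, hc0, E.two, B_ne_zero_symm h]

theorem sq_closed {T : F → Prop} (h0 : T 0) (hs : ∀ x y, T x → T y → T (x - y)) {c : F}
    (h : ∀ t ∈ F₀, t ≠ 0 → T (t ^ 2 * c)) {s : F} (hs' : s ∈ F₀) : T (s * c) := by
  have h2 := E.two
  have sq : ∀ t ∈ F₀, T (t ^ 2 * c) := fun t ht => by
    by_cases h3 : t = 0
    · simpa [h3] using h0
    · exact h t ht h3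
  convert hs _ _ (sq _ (F₀.div_mem (F₀.add_mem hs' F₀.one_mem) E.two_mem))
    (sq _ (F₀.div_mem (F₀.sub_mem hs' F₀.one_mem) E.two_mem)) using 1
  field_simp; ring

section Gain

variable (hM : ratStab b F₀ ⊓ EG P ≤ M) (hMI : M ≤ P.Isom)
include hM hMI

theorem tr_all {u : V} (hu : RS P b F₀ u) {c : F} (hc : c ∈ P.Λ) (hc0 : c ≠ 0)
    (h : Has M (eu P u 0 c)) {d : V} (hd : RS P b F₀ d) {l : F} (hl : l ∈ P.Λ) :
    Has M (eu P d 0 l) := by
  obtain ⟨g, hg, t, ht, ht0, e1⟩ := E.trans hu hd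
  have h1 := has_eu_conj h (hM hg) (EG_le_isom hg.2)
  rw [e1, map_zero] at h1
  have h2 : Has M (eu P d 0 (t * t * c)) := h1.congr fun x => by
    rw [eu_smul, smul_zero, (E.fix _).1 ht]
  obtain ⟨e, he, h3, -⟩ := E.partner hd
  have h4 : l / (t * t * c) ∈ F₀ := (E.fix _).2 (by
    rw [map_div₀, map_mul, map_mul, (E.fix _).1 ht, eq_neg_of_add_eq_zero_right ((E.lam _).1 hl),
      eq_neg_of_add_eq_zero_right ((E.lam _).1 hc)]
    field_simp)
  have := E.sq_closed (T := fun l => Has M (eu P d 0 l)) (has_id.congr fun x => (eu_zero d x).symm)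
    (fun x y hx hy => has_eu_sub_same hd.sing (by simp) hx hy) (c := t * t * c) (fun s hs hs0 => by
      obtain ⟨k, hk, e2, -⟩ := E.torus hd he h3 hs hs0
      have h5 := has_eu_conj h2 (hM hk) (EG_le_isom hk.2)
      rw [e2, map_zero] at h5
      exact h5.congr fun x => by rw [eu_smul, smul_zero, (E.fix _).1 hs, sq]) h4
  rwa [div_mul_cancel₀ _ (mul_ne_zero (mul_ne_zero ht0 ht0) hc0)] at this

theorem xle (hT : ∀ d, RS P b F₀ d → ∀ l ∈ P.Λ, Has M (eu P d 0 l)) {u : V} (hu : RS P b F₀ u) :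
    XLe P M u := by
  have h2 := E.two
  obtain ⟨e, he, heu, hue⟩ := E.partner hu
  obtain ⟨c, d, hc, hd, hc0, hd0, hcd, huc, hud, hec, hed, hdec⟩ := E.frame hu he heu
  have hα := E.h.B_mem _ _ hc hc
  have hγ := E.h.B_mem _ _ hd hd
  obtain ⟨ϑ, hϑ, hϑ0, hϑ1⟩ : ∃ ϑ : F, σ ϑ = -ϑ ∧ ϑ ≠ 0 ∧ ϑ ^ 2 + 1 ≠ 0 := by
    by_cases h : θ ^ 2 + 1 = 0
    · refine ⟨t₀ * θ, by rw [map_mul, E.th, (E.fix _).1 E.t0]; ring, mul_ne_zero E.t1 E.th0,
        fun h' => E.t2 ?_⟩
      linear_combination t₀ ^ 2 * h - h'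
    · exact ⟨θ, E.th, E.th0, h⟩
  have hϑF := E.not_mem hϑ hϑ0
  have hδ : ϑ ^ 2 ∈ F₀ := (E.fix _).2 (by rw [map_pow, hϑ]; ring)
  have hsq : ∀ s ∈ F₀, s ^ 2 ≠ ϑ ^ 2 := fun s hs h => by
    rcases sq_eq_sq_iff_eq_or_eq_neg.1 h with h | h
    · exact hϑF (h ▸ hs)
    · exact hϑF (by rw [← neg_neg ϑ, ← h]; exact F₀.neg_mem hs)
  obtain ⟨s, hs, t, ht, hst, hs1⟩ : ∃ s ∈ F₀, ∃ t ∈ F₀,
      P.B c c * s ^ 2 + P.B d d * t ^ 2 = ϑ ^ 2 * P.B c c ∧ ϑ ^ 2 + 1 - 2 * s ≠ 0 := by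
    obtain ⟨s, t, h⟩ := exists_binary_repr (F := F₀) (fun h => h2 (congrArg Subtype.val h))
      (a := ⟨_, hα⟩) (b := ⟨_, hγ⟩) (fun h => hc0 (congrArg Subtype.val h))
      (fun h => hd0 (congrArg Subtype.val h)) ⟨_, F₀.mul_mem hδ hα⟩
    have h' : P.B c c * s ^ 2 + P.B d d * t ^ 2 = ϑ ^ 2 * P.B c c := congrArg Subtype.val h
    by_cases h3 : ϑ ^ 2 + 1 - 2 * s = 0
    · refine ⟨-s, F₀.neg_mem s.2, t, t.2, by linear_combination h', fun h4 => hϑ1 ?_⟩
      exact (mul_eq_zero.1 (by linear_combination h3 + h4 : 2 * (ϑ ^ 2 + 1) = 0)).resolve_left h2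
    · exact ⟨s, s.2, t, t.2, h', h3⟩
  have ht0 : t ≠ 0 := by
    rintro rfl
    exact hsq s hs (mul_left_cancel₀ hc0 (by linear_combination hst))
  have hσs := (E.fix _).1 hs
  have hσt := (E.fix _).1 ht
  have hdc := P.eq_zero_symm hcd
  have hcu := P.eq_zero_symm huc
  have hdu := P.eq_zero_symm hud
  have hce := P.eq_zero_symm hec
  have hde := P.eq_zero_symm hed
  have h1ϑ : 1 + ϑ ≠ 0 := fun h => hsq 1 F₀.one_mem (by linear_combination (1 - ϑ) * h)
  have h1ϑ' : 1 - ϑ ≠ 0 := fun h => hsq 1 F₀.one_mem (by linear_combination (1 + ϑ) * h)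
  have hv : Rat b F₀ (s • c + t • d) := (hc.smul hs).add (hd.smul ht)
  have hvv : P.B (s • c + t • d) (s • c + t • d) = ϑ ^ 2 * P.B c c := by
    simp only [map_add, map_smul, LinearMap.add_apply, B_smul_left, hσs, hσt, hcd, hdc, smul_eq_mul]
    linear_combination hst
  obtain ⟨g1, hg1, e1⟩ := E.has_rat hu hv (by simp [huc, hud])
  obtain ⟨g2, hg2, e2⟩ := E.has_rat hu hc huc
  have ha : RS P b F₀ (g1 e) := ⟨(hg1.1 _).1 he.rat, by simpa using he.ne,
    isom_q (EG_le_isom hg1.2) he.sing⟩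
  have hb : RS P b F₀ (g2 e) := ⟨(hg2.1 _).1 he.rat, by simpa using he.ne,
    isom_q (EG_le_isom hg2.2) he.sing⟩
  have e3 : g1 e = e - (ϑ ^ 2 * P.B c c / 2) • u - (s • c + t • d) := by
    rw [e1, E.app, hvv, hue]; simp [B_smul_left, hce, hde]; module
  have e4 : g2 e = e - (P.B c c / 2) • u - c := by rw [e2, E.app, hue, hce]; module
  have hσα := E.real c
  have hσδ := (E.fix _).1 hδ
  have hΛ : ∀ x ∈ F₀, ϑ * x ∈ P.Λ := fun x hx => (E.lam _).2 (by
    rw [map_mul, hϑ, (E.fix _).1 hx]; ring)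
  obtain ⟨g3, hg3, e5⟩ := hT _ hb _ (hΛ (2 / (P.B c c * (ϑ ^ 2 + 1 - 2 * s)))
    (F₀.div_mem E.two_mem (F₀.mul_mem hα (F₀.sub_mem (F₀.add_mem hδ F₀.one_mem)
      (F₀.mul_mem E.two_mem hs)))))
  have e6 : g3 (g1 e) = g1 e + ϑ • g2 e := by
    rw [e5, E.app]
    have : P.B (g2 e) (g1 e) = -(P.B c c * (ϑ ^ 2 + 1 - 2 * s) / 2) := by
      rw [e3, e4]
      simp only [map_add, map_sub, map_smul, LinearMap.sub_apply, B_smul_left, smul_eq_mul, he.self,
        hu.self, heu, hue, hec, hed, huc, hud, hce, hcu, hcd, map_div₀, hσα, map_ofNat]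
      field_simp; ring
    rw [this]
    simp only [map_zero, LinearMap.zero_apply]
    match_scalars <;> field_simp <;> ring
  have hp : ∀ l ∈ P.Λ, Has M (eu P (g1 e + ϑ • g2 e) 0 l) := fun l hl => by
    simpa [e6] using has_eu_conj (hT _ ha l hl) hg3 (hMI hg3)
  have h1δ : 1 - ϑ ^ 2 ≠ 0 := fun h => hsq 1 F₀.one_mem (by linear_combination h)
  obtain ⟨g4, hg4, e7⟩ := hp _ (hΛ (2 / (ϑ ^ 2 * P.B c c * (1 - ϑ ^ 2)))
    (F₀.div_mem E.two_mem (F₀.mul_mem (F₀.mul_mem hδ hα) (F₀.sub_mem F₀.one_mem hδ))))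
  obtain ⟨k, e8⟩ : ∃ k : F, g4 e = (1 + ϑ)⁻¹ • ((s + ϑ) • c + t • d) + k • u := by
    refine ⟨(1 + ϑ)⁻¹ * (ϑ ^ 2 * P.B c c / 2 + ϑ * (P.B c c / 2)), ?_⟩
    rw [e7, E.app]
    have : P.B (g1 e + ϑ • g2 e) e = ϑ * (1 - ϑ) * P.B c c / 2 := by
      rw [e3, e4]
      simp only [map_add, map_sub, LinearMap.sub_apply, LinearMap.add_apply, B_smul_left, he.self,
        hue, hce, hde, map_div₀, map_mul, hσα, hσδ, hϑ, map_ofNat]
      ring
    rw [this, e3, e4, show 1 - ϑ ^ 2 = (1 - ϑ) * (1 + ϑ) by ring]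
    simp only [map_zero, LinearMap.zero_apply]
    match_scalars <;> field_simp <;> ring
  set n := (s + ϑ) • c + t • d with hn
  have hn1 : ∀ w, Rat b F₀ w → P.B u w = 0 → ∀ x ∈ F₀, InA P M u ((ϑ * x * P.B n w) • n) := by
    intro w hw huw x hx
    have h3 := has_eu_conj (hT e he _ (hΛ (x * (1 - ϑ ^ 2))
      (F₀.mul_mem hx (F₀.sub_mem F₀.one_mem hδ)))) hg4 (hMI hg4)
    rw [map_zero] at h3
    have h4 := (inA_tr hMI hu.sing (by rw [e8, hn]; simp [B_smul_left, hcu, hdu, hu.self])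
      (E.h.inA_rat hM hu hw huw) h3).add_smul hu.sing
        (-(ϑ * (x * (1 - ϑ ^ 2)) * P.B (g4 e) w * k))
    convert h4 using 1
    rw [e8, E.eps, show 1 - ϑ ^ 2 = (1 - ϑ) * (1 + ϑ) by ring]
    simp only [map_add, LinearMap.add_apply, B_smul_left, huw, map_inv₀, map_one, hϑ,
      ← sub_eq_add_neg]
    match_scalars <;> field_simp <;> ring
  have hnc : P.B n c = (s - ϑ) * P.B c c := by
    simp [hn, B_smul_left, hdc, hσs, hϑ, sub_eq_add_neg]
  have hnd : P.B n d = t * P.B d d := by simp [hn, B_smul_left, hcd, hσt]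
  have hn2 : ∀ x ∈ F₀, InA P M u ((ϑ * x) • n) := fun x hx => by
    convert hn1 d hd hud (x / (t * P.B d d)) (F₀.div_mem hx (F₀.mul_mem ht hγ)) using 2
    rw [hnd]; field_simp
  have hn3 : ∀ x ∈ F₀, InA P M u (x • n) := fun x hx => by
    have := (hn2 (x * s / ϑ ^ 2) (F₀.div_mem (F₀.mul_mem hx hs) hδ)).sub hu.sing
      (hn1 c hc huc (x / (ϑ ^ 2 * P.B c c)) (F₀.div_mem hx (F₀.mul_mem hδ hα)))
    rw [← sub_smul] at this
    convert this using 2
    rw [hnc]; field_simp; ring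
  have hr : ∀ x ∈ F₀, ∀ y ∈ F₀, InA P M u (x • c + y • d) := fun x hx y hy =>
    E.h.inA_rat hM hu ((hc.smul hx).add (hd.smul hy)) (by simp [huc, hud])
  have hθ : θ / ϑ ∈ F₀ := (E.fix _).2 (by rw [map_div₀, E.th, hϑ, neg_div_neg_eq])
  have hA : ∀ x y : F, InA P M u (x • c + y • d) := fun x y => by
    obtain ⟨x1, hx1, x2, hx2, rfl⟩ := E.coords x
    obtain ⟨y1, hy1, y2, hy2, rfl⟩ := E.coords y
    have k1 := F₀.mul_mem hθ hx2
    have k2 := F₀.div_mem (F₀.mul_mem hθ hy2) ht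
    have k3 := F₀.sub_mem k1 (F₀.mul_mem k2 hs)
    have := ((hn3 _ k3).add hu.sing (hn2 _ k2)).add hu.sing
      (hr _ (F₀.sub_mem (F₀.sub_mem hx1 (F₀.mul_mem k3 hs)) (F₀.mul_mem k2 hδ)) _
        (F₀.sub_mem hy1 (F₀.mul_mem k3 ht)))
    convert this using 1
    rw [hn]
    match_scalars <;> field_simp <;> ring
  intro w l hw hl
  obtain ⟨-, c', hc', k1⟩ := (hA ((P.B c c)⁻¹ * P.B c w) ((P.B d d)⁻¹ * P.B d w)).add_smul hu.sing
    (P.B e w)
  rw [show ((P.B c c)⁻¹ * P.B c w) • c + ((P.B d d)⁻¹ * P.B d w) • d + P.B e w • u = w by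
    conv_rhs => rw [hdec w hw]
    abel] at hc' k1
  exact has_eu_valid hu.sing hw k1 (hT u hu _ (by simpa using P.Λ.sub_mem hl hc'))

theorem EG_le_of_gain {u : V} (hu : RS P b F₀ u) {c : F} (hc : c ∈ P.Λ) (hc0 : c ≠ 0)
    (h : Has M (eu P u 0 c)) : EG P ≤ M := by
  have hT := fun d hd l hl => E.tr_all hM hMI hu hc hc0 h (d := d) hd (l := l) hl
  obtain ⟨e, he, h1, -⟩ := E.partner hu
  exact EG_le_of_xle E.h.nd he.sing hu.sing (E.xle hM hMI hT he) (E.xle hM hMI hT hu) (by simp [h1])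

end Gain

section NoGain

variable (hM : ratStab b F₀ ⊓ EG P ≤ M) (hMI : M ≤ P.Isom)
  (N : ∀ u, RS P b F₀ u → ∀ c ∈ P.Λ, Has M (eu P u 0 c) → c = 0)
include hM hMI N

theorem level {u w : V} (hu : RS P b F₀ u) (hw : InA P M u w) : ∃ t : F, Rat b F₀ (w + t • u) := by
  obtain ⟨e, he, h1, h2⟩ := E.partner hu
  refine ⟨-P.B e w, E.h.rat_of_B fun v hv => ?_⟩
  have h3 := N u hu _ (P.sub_mem _) (has_comm hu.sing (E.h.inA_rat hM hu
    (hv.sub (he.rat.smul (E.h.B_mem _ _ hu.rat hv))) (by simp [h2])) hw)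
  rw [E.eps, one_mul, sub_eq_zero] at h3
  convert (E.fix _).2 h3.symm using 1
  simp only [map_add, map_smul, map_sub, LinearMap.sub_apply, B_smul_left, smul_eq_mul, ← E.symm]
  ring

theorem rigid {u : V} (hu : RS P b F₀ u) {y : V ≃ₗ[F] V} (hy : y ∈ M) {l : F} (hl : l ≠ 0)
    (e : y u = l • u) {w : V} (hw : Rat b F₀ w) (huw : P.B u w = 0) : Rat b F₀ (σ l • y w) := by
  have h1 := has_eu_conj ((E.has_rat hu hw huw).mono hM) hy (hMI hy)
  rw [e] at h1
  have h2 : Has M (eu P u (σ l • y w) (σ l * l * (P.B w w / 2))) :=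
    h1.congr fun x => eu_smul _ _ _ _ _
  have h3 : P.B u (σ l • y w) = 0 := by
    have := (hMI hy).1 u w
    rw [e, B_smul_left, huw] at this
    simpa using this
  obtain ⟨t, ht⟩ := E.level hM hMI N hu ⟨h3, _, valid_smul' l (isom_valid (hMI hy)
    (E.half_valid w)), h2⟩
  have h4 : P.B u (σ l • y w + t • u) = 0 := by rw [map_add, h3]; simp [hu.self]
  have h5 : Has M (eu P u (σ l • y w) (P.B (σ l • y w + t • u) (σ l • y w + t • u) / 2 + t -
      P.ε * σ t)) := ((E.has_rat hu ht h4).mono hM).congr fun x => eu_add_smul _ _ _ _ _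
  have h6 : P.B (σ l • y w + t • u) (σ l • y w + t • u) = σ l * l * P.B w w := by
    have h9 : P.B u (y w) = 0 := by simpa [hl] using h3
    simp only [map_add, map_smul, LinearMap.add_apply, B_smul_left, h9, P.eq_zero_symm h9, hu.self,
      (hMI hy).1, P.σσ, smul_eq_mul]
    ring
  have h7 := N u hu _ (by
    rw [h6]
    convert P.sub_mem t using 1; ring) (has_eu_sub_same hu.sing h3 h5 h2)
  rw [h6, E.eps] at h7
  have h8 : t ∈ F₀ := (E.fix _).2 (by linear_combination -h7)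
  simpa using ht.sub (hu.rat.smul h8)

theorem special {u u₁ u₀ : V} (hu : RS P b F₀ u) (hu₁ : RS P b F₀ u₁) (h : P.B u u₁ = 0)
    (hu₀ : RS P b F₀ u₀) {g : V ≃ₗ[F] V} (hg : g ∈ M) {α β : F}
    (e : g u₀ = α • u + β • u₁) : RatPt b F₀ (g u₀) := by
  by_contra hp
  have hα : α ≠ 0 := by
    rintro rfl
    exact hp ⟨β, u₁, hu₁.rat, by simpa using e⟩
  have hβ : β ≠ 0 := by
    rintro rfl
    exact hp ⟨α, u, hu.rat, by simpa using e⟩
  have hσα := σ_ne_zero (σ := σ) hα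
  have h' := P.eq_zero_symm h
  obtain ⟨z, hz, ez⟩ := (E.has_rat hu hu₁.rat h).mono hM
  rw [hu₁.self, zero_div] at ez
  have hzp : z (g u₀) = g u₀ := by rw [ez]; exact eu_fix _ (by simp [e, hu.self, h]) (by simp [e, hu₁.self, h'])
  have hy : g⁻¹ * z * g ∈ M := M.mul_mem (M.mul_mem (M.inv_mem hg) hz) hg
  obtain ⟨w, hw, hw1, hw2⟩ := E.h.exists_rat_B_ne (ratSub_single hu₀.rat.ratPt) (u := g⁻¹ u₁)
    fun hh => by
      obtain ⟨s, hs⟩ := Submodule.mem_span_singleton.1 hh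
      have h1 := congrArg g hs
      rw [le_apply_inv, map_smul] at h1
      exact hp (RatPt.of_smul (h1 ▸ hu₁.rat.ratPt) (by rintro rfl; exact hu₁.ne (by simpa using h1.symm)))
  replace hw1 := mem_perp_singleton.1 hw1
  rw [← (hMI hg).1, le_apply_inv] at hw2
  have h1 := E.rigid hM hMI N hu₀ hy one_ne_zero (by
    simp only [le_mul_apply, hzp, le_inv_apply_apply, one_smul]) hw hw1
  rw [map_one, one_smul] at h1
  have h2 := E.comm hw h1
  rw [← (hMI hg).1 w, ← (hMI hg).1 _ w] at h2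
  have h3 := (hMI hz).1 (g w) (g w)
  have h4 := (hMI hg).1 u₀ w
  rw [hw1, e] at h4
  simp only [le_mul_apply, le_apply_inv] at h2
  rw [ez, E.app] at h2 h3
  generalize g w = x at *
  simp only [map_add, map_sub, map_smul, LinearMap.add_apply, LinearMap.sub_apply, B_smul_left,
    smul_eq_mul, hu.self, hu₁.self, h, h', E.symm u x, E.symm u₁ x, zero_mul, sub_zero, mul_zero,
    add_zero] at h2 h3 h4
  have h5 : P.B u₁ x * σ (P.B u x) = P.B u x * σ (P.B u₁ x) :=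
    mul_left_cancel₀ E.two (by linear_combination h2 + h3)
  have h6 : β / α ∈ F₀ := (E.fix _).2 (by
    have h7 := congrArg σ h4
    simp only [map_add, map_mul, P.σσ, map_zero] at h7
    have := σ_ne_zero (σ := σ) hw2
    rw [map_div₀]
    field_simp
    apply mul_right_cancel₀ (mul_ne_zero hw2 this)
    linear_combination (α * σ (P.B u₁ x)) * h4 - (σ α * P.B u₁ x) * h7 + α * σ α * h5)
  exact hp ⟨α, _, hu.rat.add (hu₁.rat.smul h6), by
    rw [e, smul_add, smul_smul, mul_div_cancel₀ _ hα]⟩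

omit hM hMI N in
theorem gen {u x : V} (hu : RS P b F₀ u) (hux : P.B u x = 0)
    (hg : ∀ s t : F, s ≠ 0 → ¬ Rat b F₀ (s • x + t • u)) :
    (∃ w, Rat b F₀ w ∧ P.B u w = 0 ∧ P.B w x = 1) ∧
      ∀ w, Rat b F₀ w → P.B u w = 0 → P.B w x = 0 → w ∈ F ∙ u := by
  obtain ⟨x₁, x₂, h1, h2, rfl⟩ := E.split x
  have hs : ∀ w, Rat b F₀ w → P.B w (x₁ + θ • x₂) = 0 → P.B w x₁ = 0 ∧ P.B w x₂ = 0 :=
    fun w hw h => E.sep (E.h.B_mem _ _ hw h1) (E.h.B_mem _ _ hw h2) (by simpa using h)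
  obtain ⟨h3, h4⟩ := hs u hu.rat hux
  have h5 : ∀ r s : F, x₁ ≠ r • u + s • x₂ := fun r s h => by
    by_cases h0 : s + θ = 0
    · refine hg 1 (-r) one_ne_zero ?_
      rw [show (1 : F) • (x₁ + θ • x₂) + -r • u = (s + θ) • x₂ by rw [h]; module, h0, zero_smul]
      exact rat_zero
    · refine hg (s + θ)⁻¹ (-((s + θ)⁻¹ * r)) (inv_ne_zero h0) ?_
      convert h2 using 1
      rw [h]; match_scalars <;> field_simp; ring
  refine ⟨?_, fun w hw k1 k2 => ?_⟩
  · obtain ⟨w, hw, hw1, hw2⟩ := E.h.exists_rat_B (ratSub_pair hu.rat.ratPt h2.ratPt) h1 fun hh => by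
      obtain ⟨r, s, h⟩ := Submodule.mem_span_pair.1 hh
      exact h5 r s h.symm
    obtain ⟨k1, k2⟩ := mem_perp_pair.1 hw1
    exact ⟨w, hw, k1, by simp [E.comm hw h1, hw2, P.eq_zero_symm k2]⟩
  · obtain ⟨k3, k4⟩ := hs w hw k2
    refine mem_span_of_perp E.h.nd E.four (a := u) (b := x₁) (c := x₂) (fun r s t h => ?_) hu.ne
      hu.self (P.eq_zero_symm h3) (P.eq_zero_symm h4) k1 (P.eq_zero_symm k3) (P.eq_zero_symm k4)
    have hs0 : s = 0 := by
      by_contra h0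
      refine h5 (-(s⁻¹ * r)) (-(s⁻¹ * t)) ?_
      linear_combination (norm := skip) s⁻¹ • h
      match_scalars <;> field_simp <;> ring
    have ht0 : t = 0 := by
      by_contra h0
      refine hg 1 (θ * t⁻¹ * r) one_ne_zero ?_
      convert h1 using 1
      rw [hs0] at h
      linear_combination (norm := skip) (θ * t⁻¹) • h
      match_scalars <;> field_simp <;> ring
    rw [hs0, ht0] at h
    exact ⟨by simpa [hu.ne] using h, hs0, ht0⟩

theorem generic {u u₀ : V} (hu : RS P b F₀ u) (hu₀ : RS P b F₀ u₀) {g : V ≃ₗ[F] V} (hg : g ∈ M)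
    (h : P.B u (g u₀) = 0) (h1 : ∀ s t : F, s ≠ 0 → ¬ Rat b F₀ (s • g u₀ + t • u))
    (h2 : ∀ s t : F, s ≠ 0 → ¬ Rat b F₀ (s • g⁻¹ u + t • u₀)) : False := by
  have h' := P.eq_zero_symm h
  obtain ⟨⟨w, hw, hw1, hw2⟩, inj⟩ := E.gen hu h h1
  obtain ⟨⟨v, hv, hv1, hv2⟩, -⟩ := E.gen hu₀ (by rw [← (hMI hg).1, le_apply_inv, h']) h2
  rw [← (hMI hg).1, le_apply_inv] at hv2
  have hp : P.B (g u₀) (g u₀) = 0 := by rw [(hMI hg).1, hu₀.self]
  have hx : ∀ s ∈ F₀, ∃ k ∈ M, k u = u ∧ k (g u₀) = g u₀ + s • u := fun s hs => by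
    obtain ⟨k, hk, ek⟩ := (E.has_rat hu (hw.smul hs) (by simp [hw1])).mono hM
    refine ⟨k, hk, ?_, ?_⟩ <;> rw [ek, E.app] <;>
      simp [B_smul_left, hu.self, P.eq_zero_symm hw1, h, hw2, (E.fix _).1 hs]
  have hy : ∀ s ∈ F₀, ∃ k ∈ M, k (g u₀) = g u₀ ∧ k u = u + s • g u₀ := fun s hs => by
    obtain ⟨k, hk, ek⟩ := has_eu_conj ((E.has_rat hu₀ (hv.smul hs) (by simp [hv1])).mono hM) hg
      (hMI hg)
    refine ⟨k, hk, ?_, ?_⟩ <;> rw [ek, E.app] <;>
      simp [B_smul_left, hp, (hMI hg).1, P.eq_zero_symm hv1, h', hv2, (E.fix _).1 hs]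
  have ht := E.t1
  obtain ⟨k1, m1, a1, b1⟩ := hy 1 F₀.one_mem
  obtain ⟨k2, m2, a2, b2⟩ := hx _ (F₀.sub_mem E.t0 F₀.one_mem)
  obtain ⟨k3, m3, a3, b3⟩ := hy _ (F₀.neg_mem (F₀.inv_mem E.t0))
  have hk : k3 * k2 * k1 ∈ M := M.mul_mem (M.mul_mem m3 m2) m1
  have e1 : (k3 * k2 * k1) u = t₀ • u := by
    simp only [le_mul_apply, map_add, map_smul, a1, a2, a3, b1, b2, b3]
    match_scalars <;> field_simp <;> ring
  have e2 : g u₀ = t₀ • (k3 * k2 * k1) (g u₀) - (t₀ * (t₀ - 1)) • u := by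
    simp only [le_mul_apply, map_add, map_smul, a1, a2, a3, b1, b2, b3]
    match_scalars <;> field_simp <;> ring
  generalize k3 * k2 * k1 = k at *
  obtain ⟨e, he, h3, -⟩ := E.partner hu
  obtain ⟨c, -, hc, -, hc0, -, -, huc, -⟩ := E.frame hu he h3
  have hσ := (E.fix _).1 E.t0
  have h4 := E.rigid hM hMI N hu hk ht e1 hc huc
  have h5 : P.B u (k c) = 0 := by
    have := (hMI hk).1 u c
    rw [e1, B_smul_left, huc] at this
    exact (mul_eq_zero.1 this).resolve_left (σ_ne_zero ht)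
  rw [hσ] at h4
  obtain ⟨s, hs⟩ := Submodule.mem_span_singleton.1 (inj _ (h4.sub (hc.smul (F₀.pow_mem E.t0 2)))
    (by simp [h5, huc]) (by
      rw [map_sub, LinearMap.sub_apply, B_smul_left, B_smul_left, map_pow, hσ]
      conv_lhs => enter [1, 2]; rw [e2]
      simp only [map_sub, map_smul, (hMI hk).1, P.eq_zero_symm h5, smul_eq_mul]
      ring))
  have h6 : t₀ • k c = t₀ ^ 2 • c + s • u := by rw [hs]; abel
  have h7 := congrArg₂ (fun x y => P.B x y) h6 h6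
  simp only [map_add, map_smul, LinearMap.add_apply, B_smul_left, smul_eq_mul, (hMI hk).1, hσ,
    map_pow, huc, P.eq_zero_symm huc, hu.self] at h7
  exact E.t2 (mul_left_cancel₀ (mul_ne_zero (pow_ne_zero 2 ht) hc0) (by linear_combination -h7))

theorem ratPt_of_perp {u u₀ : V} (hu : RS P b F₀ u) (hu₀ : RS P b F₀ u₀) {g : V ≃ₗ[F] V}
    (hg : g ∈ M) (h : P.B u (g u₀) = 0) : RatPt b F₀ (g u₀) := by
  have key : ∀ {u u₀ : V} {g : V ≃ₗ[F] V}, RS P b F₀ u → RS P b F₀ u₀ → g ∈ M →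
      P.B u (g u₀) = 0 → ∀ s t : F, s ≠ 0 → Rat b F₀ (s • g u₀ + t • u) → RatPt b F₀ (g u₀) := by
    intro u u₀ g hu hu₀ hg h s t hs hr
    by_cases h0 : s • g u₀ + t • u = 0
    · exact RatPt.of_smul (c := s) ⟨-t, u, hu.rat, by linear_combination (norm := module) h0⟩ hs
    exact E.special hM hMI N hu ⟨hr, h0,
      sing_add_smul (isom_q (hMI hg) hu₀.sing) hu.sing (P.eq_zero_symm h) s t⟩
      (by simp [h, hu.self]) hu₀ hg (α := -(s⁻¹ * t)) (β := s⁻¹)
      (by match_scalars <;> field_simp; ring)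
  by_contra hp
  have h1 : ∀ s t : F, s ≠ 0 → ¬ Rat b F₀ (s • g u₀ + t • u) := fun s t hs hr =>
    hp (key hu hu₀ hg h s t hs hr)
  have h2 : P.B u₀ (g⁻¹ u) = 0 := by rw [← (hMI hg).1, le_apply_inv, P.eq_zero_symm h]
  refine E.generic hM hMI N hu hu₀ hg h h1 fun s t hs hr => ?_
  obtain ⟨c, v, hv, e⟩ := key hu₀ hu (M.inv_mem hg) h2 s t hs hr
  have hc : c ≠ 0 := by
    rintro rfl
    exact hu.ne (by simpa using e)
  have e1 : g v = c⁻¹ • u := by
    rw [← le_apply_inv g u, e, map_smul, smul_smul, inv_mul_cancel₀ hc, one_smul]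
  have h3 : P.B u₀ v = 0 := by simpa [e, hc] using h2
  have h4 : P.B v v = 0 := by rw [← (hMI hg).1, e1]; simp [hu.self]
  have h5 := has_eu_conj ((E.has_rat hu₀ hv h3).mono hM) hg (hMI hg)
  rw [h4, zero_div, e1] at h5
  obtain ⟨r, hr⟩ := E.level hM hMI N hu (w := (-σ c⁻¹) • g u₀) ⟨by simp [h], 0,
    zero_valid (isom_q (hMI hg) hu₀.sing) _, h5.congr fun x => by
      simp only [E.app, B_smul_left, map_neg, P.σσ]; module⟩
  exact h1 _ r (neg_ne_zero.2 (σ_ne_zero (inv_ne_zero hc))) hr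

theorem mem_of_fix {u : V} (hu : RS P b F₀ u) {g : V ≃ₗ[F] V} (hg : g ∈ M) {l : F} (hl : l ≠ 0)
    (e1 : g u = l • u) : g ∈ ratNorm b F₀ := by
  have := finite_of_basis b
  have hσ := σ_ne_zero (σ := σ) hl
  have h2 := E.two
  obtain ⟨e, he, heu, hue⟩ := E.partner hu
  have e2 : g⁻¹ u = l⁻¹ • u := by
    apply g.injective; rw [le_apply_inv, map_smul, e1, smul_smul, inv_mul_cancel₀ hl, one_smul]
  have hll : σ l * l ∈ F₀ := (E.fix _).2 (by rw [map_mul, P.σσ, mul_comm])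
  have hue' : P.B u (σ l • g e) = 1 := by
    have := (hMI hg).1 u e
    rwa [e1, B_smul_left, hue, ← smul_eq_mul, ← map_smul] at this
  have h3 : Rat b F₀ (σ l • g e - P.B e (σ l • g e) • u) := E.h.rat_of_B fun v hv => by
    have h4 := E.rigid hM hMI N hu (M.inv_mem hg) (inv_ne_zero hl) e2
      (hv.sub (he.rat.smul (E.h.B_mem _ _ hu.rat hv))) (by simp [hue])
    have h5 := F₀.mul_mem hll (E.h.B_mem _ _ h4 he.rat)
    rw [← (hMI hg).1, map_smul, le_apply_inv] at h5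
    convert h5 using 1
    simp only [map_sub, map_smul, LinearMap.sub_apply, B_smul_left, smul_eq_mul, ← E.symm, P.σσ,
      map_inv₀]
    field_simp
  obtain ⟨k₁, hk₁, k₂, hk₂, hk⟩ := E.coords (P.B e (σ l • g e))
  have h4 : Rat b F₀ (σ l • g e - (θ * k₂) • u) := by
    convert h3.add (hu.rat.smul hk₁) using 1
    rw [hk]; module
  obtain ⟨f, hf⟩ : ∃ f, f = σ l • g e - (θ * k₂) • u := ⟨_, rfl⟩
  rw [← hf] at h4
  have h5 : σ l • g e = f + (θ * k₂) • u := by rw [hf]; abel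
  have huf : P.B u f = 1 := by rw [hf, map_sub, hue']; simp [hu.self]
  have hfu : P.B f u = 1 := by rw [E.comm h4 hu.rat, huf]
  have hσk := (E.fix _).1 hk₂
  have hff : P.B f f = 0 := by
    have := congrArg₂ (fun x y => P.B x y) h5 h5
    simp only [map_add, map_smul, LinearMap.add_apply, B_smul_left, smul_eq_mul, (hMI hg).1,
      he.self, hu.self, huf, hfu, map_mul, E.th, hσk] at this
    linear_combination -this
  have hfr := E.rs h4 (by rintro rfl; simp at huf) hff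
  have ht := E.t1
  obtain ⟨k, hk1, a1, b1, c1⟩ := E.torus hu he heu E.t0 ht
  obtain ⟨k', hk1', a2, b2, c2⟩ := E.torus hu hfr hfu (F₀.inv_mem E.t0) (inv_ne_zero ht)
  have h6 : k₂ = 0 := by
    have h7 := N u hu (θ * k₂ * (1 - t₀⁻¹ ^ 2)) ((E.lam _).2 (by
      simp only [map_mul, map_sub, map_pow, map_one, E.th, hσk, (E.fix _).1 (F₀.inv_mem E.t0)]
      ring)) ((has_of_mem (M.mul_mem (hM hk1') (M.mul_mem (M.mul_mem hg (hM hk1))
        (M.inv_mem hg)))).congr fun x => ?_)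
    · refine (mul_eq_zero.1 ((mul_eq_zero.1 h7).resolve_right fun h => E.t2 ?_)).resolve_left E.th0
      field_simp at h
      linear_combination h
    have j1 : (g * k * g⁻¹) u = t₀ • u := by
      rw [le_mul_apply, le_mul_apply, e2, map_smul, a1, map_smul, map_smul, e1]
      match_scalars; field_simp
    have j2 : (g * k * g⁻¹) (σ l • g e) = t₀⁻¹ • σ l • g e := by
      rw [le_mul_apply, le_mul_apply, map_smul, le_inv_apply_apply, map_smul, b1, map_smul,
        map_smul, smul_comm]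
    have j3 : (g * k * g⁻¹) f = t₀⁻¹ • f + (θ * k₂ * (t₀⁻¹ - t₀)) • u := by
      conv_lhs => rw [hf, map_sub, j2, map_smul, j1, h5]
      module
    obtain ⟨y, hy⟩ : ∃ y, y = x - P.B f x • u - P.B u x • f := ⟨_, rfl⟩
    have y1 : P.B u y = 0 := by simp [hy, hu.self, huf]
    have y2 : P.B f y = 0 := by simp [hy, hff, hfu]
    have j4 : (g * k * g⁻¹) y = y := by
      rw [le_mul_apply, le_mul_apply, c1, le_apply_inv]
      · rw [← (hMI hg).1, le_apply_inv, e1, B_smul_left, y1, mul_zero]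
      · have := congrArg (fun z => P.B z y) h5
        simp only [map_add, LinearMap.add_apply, B_smul_left, y1, y2, P.σσ] at this
        rw [← (hMI hg).1, le_apply_inv]
        simpa [hl] using this
    have hx : x = y + P.B f x • u + P.B u x • f := by rw [hy]; abel
    rw [le_mul_apply, E.app]
    conv_lhs => rw [hx]
    conv_rhs => enter [1, 1]; rw [hx]
    simp only [map_add, map_smul, j1, j3, j4, a2, b2, c2 y y1 y2, map_zero, LinearMap.zero_apply]
    match_scalars <;> field_simp <;> ring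
  rw [h6, mul_zero, zero_smul, add_zero] at h5
  refine mem_ratNorm_of_maps hσ fun x hx => ?_
  have h8 := E.h.B_mem _ _ hu.rat hx
  convert (E.rigid hM hMI N hu hg hl e1 (hx.sub (he.rat.smul h8)) (by simp [hue])).add
    (h4.smul h8) using 1
  rw [← h5, map_sub, map_smul]; module

theorem mem_of_ratPt {u : V} (hu : RS P b F₀ u) {g : V ≃ₗ[F] V} (hg : g ∈ M)
    (h : RatPt b F₀ (g u)) : g ∈ ratNorm b F₀ := by
  obtain ⟨c, v, hv, e⟩ := h
  have hc : c ≠ 0 := by
    rintro rfl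
    exact hu.ne (by simpa using e)
  have hv' : RS P b F₀ v := E.rs hv (by rintro rfl; exact hu.ne (by simpa using e)) (by
    have := (hMI hg).1 u u
    rw [e, hu.self] at this
    simpa [hc] using this)
  obtain ⟨k, hk, t, -, ht0, e1⟩ := E.trans hv' hu
  have := E.mem_of_fix hM hMI N hu (M.mul_mem (hM hk) hg) (mul_ne_zero hc ht0)
    (by rw [le_mul_apply, e, map_smul, e1, smul_smul])
  simpa using (ratNorm b F₀).mul_mem ((ratNorm b F₀).inv_mem (ratStab_le_ratNorm hk.1)) this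

theorem le_ratNorm {u : V} (hu : RS P b F₀ u) : M ≤ ratNorm b F₀ := by
  intro g hg
  refine E.mem_of_ratPt hM hMI N hu hg ?_
  by_contra hp
  have h2 := E.two
  have hpp : P.B (g u) (g u) = 0 := by rw [(hMI hg).1, hu.self]
  have hp0 : g u ≠ 0 := by simpa using hu.ne
  have an : ∀ c, Rat b F₀ c → c ≠ 0 → P.B c (g u) = 0 → P.B c c ≠ 0 := fun c hc hc0 h h0 =>
    hp (E.ratPt_of_perp hM hMI N (E.rs hc hc0 h0) hu hg h)
  obtain ⟨c, d, hc, hd, hc0, hd0, hcp, hdp, hcd⟩ : ∃ c d, Rat b F₀ c ∧ Rat b F₀ d ∧ c ≠ 0 ∧ d ≠ 0 ∧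
      P.B c (g u) = 0 ∧ P.B d (g u) = 0 ∧ P.B c d = 0 := by
    obtain ⟨v₁, v₂, h1, h3, e⟩ := E.split (g u)
    have hC := E.h.ratSub_perp (ratSub_pair h1.ratPt h3.ratPt)
    have h4 := E.h.finrank_perp_pair v₁ v₂
    rw [E.dim] at h4
    obtain ⟨x', hx', hx0'⟩ := exists_ne_zero_mem (X := perp P (Submodule.span F {v₁, v₂})) (by omega)
    obtain ⟨c, hc, hc1, hc0⟩ := hC.exists_rat hx' hx0'
    have h5 := finrank_inf_ker' (perp P (Submodule.span F {v₁, v₂})) (P.B c)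
    obtain ⟨y', hy', hy0'⟩ := exists_ne_zero_mem
      (X := perp P (Submodule.span F {v₁, v₂}) ⊓ LinearMap.ker (P.B c)) (by omega)
    obtain ⟨d, hd, hd1, hd0⟩ := (hC.inf (E.h.ratD hc1).ratSub_ker).exists_rat hy' hy0'
    have k : ∀ x ∈ perp P (Submodule.span F {v₁, v₂}), P.B x (g u) = 0 := fun x hx => by
      rw [e]; simp [P.eq_zero_symm (mem_perp_pair.1 hx).1, P.eq_zero_symm (mem_perp_pair.1 hx).2]
    exact ⟨c, d, hc1, hd1, hc0, hd0, k c hc, k d hd.1, hd.2⟩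
  have hdc := P.eq_zero_symm hcd
  have hα := an c hc hc0 hcp
  have hγ := an d hd hd0 hdp
  have an2 : ∀ k ∈ F₀, P.B c c + k ^ 2 * P.B d d ≠ 0 := fun k hk h => by
    refine an (c + k • d) (hc.add (hd.smul hk)) (fun h0 => hα ?_) (by simp [B_smul_left, hcp, hdp]) ?_
    · simpa [hcd] using congrArg (P.B c) h0
    · simp only [map_add, map_smul, LinearMap.add_apply, B_smul_left, hcd, hdc, (E.fix _).1 hk,
        smul_eq_mul]
      linear_combination h
  have hαγ : P.B c c + P.B d d ≠ 0 := by simpa using an2 1 F₀.one_mem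
  have hcd2 : P.B (c + d) (c + d) = P.B c c + P.B d d := by simp [hcd, hdc]
  obtain ⟨t, ht, et⟩ := E.has_rr hc (hc.add hd) hα (by rwa [hcd2])
  have htp : t (g u) = g u := by simp [et, rf, hcp, hdp]
  have step : ∀ w, Rat b F₀ w → P.B u w = 0 → P.B w w = 0 → w ∈ F ∙ u := by
    intro w hw huw hww
    have h3 := E.rigid hM hMI N hu (M.mul_mem (M.mul_mem (M.inv_mem hg) (hM ht)) hg) one_ne_zero
      (by simp only [le_mul_apply, htp, le_inv_apply_apply, one_smul]) hw huw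
    rw [map_one, one_smul] at h3
    have h4 := E.comm hw h3
    rw [← (hMI hg).1 w, ← (hMI hg).1 _ w] at h4
    simp only [le_mul_apply, le_apply_inv] at h4
    have h5 : P.B (g u) (g w) = 0 := by rw [(hMI hg).1, huw]
    have h6 : P.B (g w) (g w) = 0 := by rw [(hMI hg).1, hww]
    obtain ⟨k, hk⟩ := Submodule.mem_span_singleton.1 (mem_span_of_perp E.h.nd E.four
      (a := c) (b := d) (c := g u) (x := g w - ((P.B c c)⁻¹ * P.B c (g w)) • c -
        ((P.B d d)⁻¹ * P.B d (g w)) • d) (fun r s t h => by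
        have e1 := congrArg (P.B c) h
        have e2 := congrArg (P.B d) h
        simp [hcd, hdc, hcp, hdp, hα, hγ] at e1 e2
        rw [e1, e2] at h
        exact ⟨e1, e2, by simpa [hp0] using h⟩) hp0 hcp hdp hpp
      (by simp [hcd]; field_simp; ring) (by simp [hdc]; field_simp; ring)
      (by simp [h5, P.eq_zero_symm hcp, P.eq_zero_symm hdp]))
    generalize (P.B c c)⁻¹ * P.B c (g w) = x at hk
    generalize (P.B d d)⁻¹ * P.B d (g w) = y at hk
    have h7 : g w = k • g u + x • c + y • d := by rw [hk]; abel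
    rw [et, rf, rf, hcd2, h7] at h4
    rw [h7] at h6
    simp only [map_add, map_sub, map_smul, LinearMap.add_apply, LinearMap.sub_apply, B_smul_left,
      smul_eq_mul, hcd, hdc, hcp, hdp, hpp, P.eq_zero_symm hcp, P.eq_zero_symm hdp, map_mul,
      map_inv₀, E.real, map_ofNat, map_zero] at h4 h6
    have h8 : σ x * y = x * σ y := by
      field_simp at h4
      apply mul_left_cancel₀ (mul_ne_zero (mul_ne_zero h2 h2) (mul_ne_zero (mul_ne_zero hα hα) hγ))
      linear_combination h4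
    have hx : x = 0 := by
      by_contra hx
      have hσx := σ_ne_zero (σ := σ) hx
      have h9 : σ (y / x) = y / x := by rw [map_div₀]; field_simp; linear_combination -h8
      refine an2 _ ((E.fix _).2 h9) ?_
      field_simp
      apply mul_left_cancel₀ hσx
      linear_combination x * h6 + y * P.B d d * h8
    have hy : y = 0 := by
      rw [hx] at h6
      simpa [hγ] using h6
    rw [hx, hy, ← map_smul] at h7
    exact Submodule.mem_span_singleton.2 ⟨k, (g.injective (by simpa using h7)).symm⟩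
  obtain ⟨m, hm, hm0, hmp, hcm⟩ : ∃ m, Rat b F₀ m ∧ P.B m m ≠ 0 ∧ P.B m (g u) ≠ 0 ∧ P.B c m ≠ 0 := by
    obtain ⟨l₀, hl₀, -, h3⟩ := E.h.exists_rat_B_ne ratSub_bot (u := g u) (by simpa using hp0)
    have h4 := F₀.mul_mem (F₀.inv_mem (E.h.B_mem _ _ hc hc)) (E.h.B_mem _ _ hc hl₀)
    obtain ⟨l, hl, h5, h6⟩ : ∃ l, Rat b F₀ l ∧ P.B c l = 0 ∧ P.B l (g u) ≠ 0 :=
      ⟨_, hl₀.sub (hc.smul h4), by simp; field_simp; ring,
        by simpa [B_smul_left, hcp] using B_ne_zero_symm h3⟩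
    have h7 : ∀ s ∈ F₀, s ≠ 0 → P.B l l + s ^ 2 * P.B c c ≠ 0 → ∃ m, Rat b F₀ m ∧ P.B m m ≠ 0 ∧
        P.B m (g u) ≠ 0 ∧ P.B c m ≠ 0 := fun s hs hs0 h => ⟨l + s • c, hl.add (hc.smul hs), by
      convert h using 1
      simp only [map_add, map_smul, LinearMap.add_apply, B_smul_left, h5, P.eq_zero_symm h5,
        (E.fix _).1 hs, smul_eq_mul]
      ring, by simpa [B_smul_left, hcp] using h6, by simp [h5, hs0, hα]⟩
    by_cases h : P.B l l + 1 ^ 2 * P.B c c = 0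
    · exact h7 t₀ E.t0 E.t1 fun h' => E.t2 (mul_right_cancel₀ hα (by linear_combination h' - h))
    · exact h7 1 F₀.one_mem one_ne_zero h
  obtain ⟨f, hf⟩ := exists_proj_one F₀
  set μ := P.B m (g u) with hμ
  let B₀ : LinearMap.BilinForm F₀ V := LinearMap.mk₂ F₀
    (fun x y => f (σ μ * μ * P.B x y + P.B m m * (P.B x (g u) * P.B (g u) y)))
    (fun x y z => by rw [← map_add]; congr 1; simp only [map_add, LinearMap.add_apply]; ring)
    (fun c x y => by
      rw [← map_smul]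
      congr 1
      simp only [Subfield.smul_def, B_smul_left, (E.fix _).1 c.2, smul_eq_mul]; ring)
    (fun x y z => by rw [← map_add]; congr 1; simp only [map_add]; ring)
    (fun c x y => by
      rw [← map_smul]
      congr 1
      simp only [Subfield.smul_def, map_smul, smul_eq_mul]; ring)
  obtain ⟨n, hmn, hn, hn0, hq⟩ := exists_rat_zero (LinearMap.BilinMap.toQuadraticMap B₀)
    (E.h.ratSub_perp (ratSub_single hm.ratPt)) (by
      have := finrank_le_perp (P := P) (F ∙ m)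
      have := finrank_span_singleton_le (F := F) m
      have := E.four
      omega)
  replace hmn := mem_perp_singleton.1 hmn
  have hnm := P.eq_zero_symm hmn
  set ν := P.B n (g u) with hν
  have hq1 : σ μ * μ * P.B n n + P.B m m * (ν * σ ν) = 0 := by
    have h3 : (f (σ μ * μ * P.B n n + P.B m m * (ν * P.B (g u) n)) : F) = 0 :=
      congrArg Subtype.val hq
    rw [E.symm n (g u), ← hν, proj_of_mem f ((E.fix _).2 (by
      simp only [map_add, map_mul, P.σσ, E.real]; ring)), hf] at h3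
    simpa using h3
  have hnn : P.B n n ≠ 0 := fun h => by
    rw [h] at hq1
    exact an n hn hn0 (by simpa [hm0] using hq1) h
  obtain ⟨k, hk, ek⟩ := E.has_rr hm hn hm0 hnn
  have e1 : k (g u) = g u - (2 * (P.B n n)⁻¹ * ν) • n - (2 * (P.B m m)⁻¹ * μ) • m := by
    simp [ek, rf, hmn, ← hμ, ← hν]
  have h3 : P.B u ((g⁻¹ * k * g) u) = 0 := by
    rw [← (hMI hg).1, le_mul_apply, le_mul_apply, le_apply_inv, e1]
    simp only [map_sub, map_smul, hpp, E.symm n (g u), E.symm m (g u), ← hμ, ← hν, smul_eq_mul]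
    field_simp
    linear_combination (-2) * hq1
  have hy := M.mul_mem (M.mul_mem (M.inv_mem hg) (hM hk)) hg
  obtain ⟨s, w, hw, e2⟩ := E.ratPt_of_perp hM hMI N hu hu hy h3
  have hs : s ≠ 0 := by
    rintro rfl
    exact hu.ne (by simpa using e2)
  obtain ⟨r, hr⟩ := Submodule.mem_span_singleton.1 (step w hw (by simpa [e2, hs] using h3) (by
    have := (hMI hy).1 u u
    rw [e2, hu.self] at this
    simpa [hs] using this))
  have e3 := congrArg g e2
  rw [le_mul_apply, le_mul_apply, le_apply_inv, e1, ← hr, map_smul, map_smul] at e3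
  have h4 := congrArg (P.B m) e3
  have h5 := congrArg (P.B c) e3
  simp only [map_sub, map_smul, hmn, hcp, ← hμ, smul_eq_mul] at h4 h5
  have h6 : s * r = -1 := mul_right_cancel₀ (mul_ne_zero hmp hnn)
    (by field_simp at h4; linear_combination -h4)
  have h7 : P.B c n * ν ≠ 0 := fun h => by
    field_simp at h5
    exact mul_ne_zero (mul_ne_zero (mul_ne_zero h2 hnn) hmp) hcm
      (by linear_combination -h5 - 2 * P.B m m * h)
  have h8 := left_ne_zero_of_mul h7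
  refine hp ⟨(P.B m m)⁻¹ * μ, _, hm.sub (hn.smul (F₀.div_mem (E.h.B_mem _ _ hc hm)
    (E.h.B_mem _ _ hc hn))), ?_⟩
  have h9 : (P.B n n)⁻¹ * ν = -((P.B m m)⁻¹ * μ * (P.B c m / P.B c n)) := by
    field_simp at h5 ⊢
    apply mul_left_cancel₀ h2
    linear_combination -h5
  rw [smul_smul s, h6, mul_assoc, h9] at e3
  apply smul_right_injective V h2
  linear_combination (norm := module) e3

end NoGain

theorem isMaximalIn {u : V} (hu : RS P b F₀ u) :
    Geo.IsMaximalIn (EG P) (ratNorm b F₀ ⊓ EG P) := by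
  refine isMaximalIn_of inf_le_right (fun hle => ?_) fun M h1 h2 ⟨g, hg, hg'⟩ => ?_
  · obtain ⟨e, he, h1, h2⟩ := E.partner hu
    obtain ⟨g, hg, eg⟩ := has_eu_EG (P := P) (w := 0) (c := -θ) hu.sing (by simp)
      (E.valid.2 (by simp [E.th]))
    have := he.rat.ratPt.apply (hle hg).1
    rw [eg, E.app] at this
    refine not_ratPt_add_smul hu.rat he.rat hu.ne (fun hh => ?_) (E.not_mem E.th E.th0)
      (by simpa [h2] using this)
    obtain ⟨s, rfl⟩ := Submodule.mem_span_singleton.1 hh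
    simp [hu.self] at h2
  have hM : ratStab b F₀ ⊓ EG P ≤ M := (inf_le_inf_right _ ratStab_le_ratNorm).trans h1
  have hMI := h2.trans EG_le_isom
  by_contra hE
  refine hg' ⟨E.le_ratNorm hM hMI (fun d hd c hc h => ?_) hu hg, h2 hg⟩
  by_contra h0
  exact hE (E.EG_le_of_gain hM hMI hd hc h0 h)

end OU

open scoped Matrix MatrixGroups in
open H11.U in
theorem subfield_SU4_orth {q : ℕ} [IsSq F q] (hodd : Odd q) (h5 : 5 ≤ q) (F₀ : Subfield F)
    (hcard : Fintype.card F = Nat.card F₀ ^ 2) (A : GL (Fin 4) F)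
    (hA : Geo.IsFormRationalStructure (hermForm 4 F q) F₀ 1 A) :
    Geo.IsMaximalIn (GU 4 F q ⊓ Geo.specialLinear (Fin 4) F)
      (Geo.subfieldSubgroup F₀ A ⊓ (GU 4 F q ⊓ Geo.specialLinear (Fin 4) F)) := by
  classical
  have h2 : (2 : F) ≠ 0 := two_ne_zero_of_odd (by rw [IsSq.card_eq (F := F) (q := q)]; exact hodd.pow)
  have hfix : ∀ a ∈ F₀, cj q a = a := fun a ha => cj_eq_of_index_two hcard ha
  have hB : ∀ x y, Rat (colBasis A) F₀ x → Rat (colBasis A) F₀ y → (uP 4 F q).B x y ∈ F₀ :=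
    fun x y hx hy => by rw [uP_B]; simpa using formRat hA hy hx
  have h : RatPQ (uP 4 F q) (colBasis A) F₀ := ⟨uP_nd, fun a ha => cj_mem F₀ ha, hB,
    fun x hx => by
      have h3 : (uP 4 F q).B x x / 2 ∈ F₀ := F₀.div_mem (hB x x hx hx) (by simp)
      exact ⟨_, h3, uP_valid.2 (by rw [hfix _ h3]; field_simp; ring)⟩⟩
  obtain ⟨f, hf⟩ := exists_proj_one F₀
  let B₀ : LinearMap.BilinForm F₀ (Fin 4 → F) := LinearMap.mk₂ F₀ (fun x y => f ((uP 4 F q).B x y))
    (fun x y z => by simp) (fun c x y => by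
      rw [← map_smul]
      congr 1
      exact (B_smul_left (P := uP 4 F q) (c : F) x y).trans (by rw [hfix _ c.2]; rfl))
    (fun x y z => by simp) (fun c x y => by
      rw [← map_smul]
      congr 1
      exact map_smul ((uP 4 F q).B x) (c : F) y)
  obtain ⟨u, -, hu, hu0, hq⟩ := exists_rat_zero (b := colBasis A)
    (LinearMap.BilinMap.toQuadraticMap B₀) ratSub_top (by simp)
  have h1 : (f ((uP 4 F q).B u u) : F) = 0 := congrArg Subtype.val hq
  rw [proj_of_mem f (hB u u hu hu), hf] at h1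
  obtain ⟨a, ha⟩ := exists_cj_ne F q
  have hθ : cj q (a - cj q a) = -(a - cj q a) := by rw [map_sub, cj_cj]; ring
  have hθ0 : a - cj q a ≠ 0 := sub_ne_zero.2 ha.symm
  obtain ⟨t, ht1, ht2⟩ : ∃ t : F₀, t ≠ 0 ∧ t * t ≠ 1 := by
    have := Fintype.ofFinite F₀
    by_contra hc
    push Not at hc
    have h3 := card_le_three_of_sq hc
    rw [IsSq.card_eq (F := F) (q := q), Nat.card_eq_fintype_card] at hcard
    have := Nat.pow_left_injective two_ne_zero hcard
    omega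
  have E : OU (uP 4 F q) (colBasis A) F₀ (a - cj q a) t := ⟨h, rfl, fun x => ⟨hfix x, fun hx => by
      obtain ⟨y, hy, z, hz, rfl⟩ := exists_coords (finrank_eq_of_card hcard)
        (fun h => ha (hfix a h)) x
      rw [map_add, map_mul, hfix y hy, hfix z hz] at hx
      have : z = 0 := (mul_eq_zero.1 (by linear_combination -hx : z * (a - cj q a) = 0)).resolve_right hθ0
      simpa [this] using hy⟩, h2, fun _ => mem_uP_Λ, hθ, hθ0, t.2,
    fun h => ht1 (Subtype.ext h), fun h => ht2 (Subtype.ext (by simpa [sq] using h)), by simp,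
    fun g hg hg' => by rw [uP_EG le_rfl]; exact ⟨hg, hg'⟩⟩
  rw [subfieldSubgroup_eq, SU_eq (by omega), ← pull_inf]
  exact isMaximalIn_pull (E.isMaximalIn (E.rs hu hu0 (by simpa using h1)))

end H28.Four
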