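import Mathlib
import Cfsg.Agent.Base
import Cfsg.Agent.Lib.Imprim.SU
import Cfsg.Agent.Lib.LowRows.SuOne

/-!
The stabiliser of a non-degenerate point of a unitary space.
-/

set_option autoImplicit false
set_option linter.unusedSectionVars false

namespace H28.Four

open Module Cfsg H28 H97 H98

section

variable {F V : Type*} [Field F] [Finite F] [AddCommGroup V] [Module F V] {σ : F →+* F}
  {P : PQ F V σ} [FiniteDimensional F V] {M : Subgroup (V ≃ₗ[F] V)}

theorem EG_le_of_rt (U : Uni P) (h : ∀ u, P.q u ∈ P.Λ → Rt P M u) : EG P ≤ M := by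
  have hP := U.nd
  have h4 := U.four
  have key : ∀ d e, P.q d ∈ P.Λ → P.q e ∈ P.Λ → P.B e d = 1 → XLe P M d := fun d e hd he hed => by
    refine xle_of_Sd (hd := hd) (h := h d hd) fun w hw => ?_
    obtain ⟨c, hc0, hc⟩ := exists_valid_ne_zero U.lam
    have hde : P.B d e = 1 := by rw [← U.symm, hed, map_one]
    have h1 : Submodule.span F {e, d} ⊓ perp P (Submodule.span F {e, d}) = ⊥ :=
      eq_bot_iff.2 fun x hx => by
        obtain ⟨s, t, rfl⟩ := Submodule.mem_span_pair.1 hx.1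
        have a1 := mem_perp_span.1 hx.2 e (by simp)
        have a2 := mem_perp_span.1 hx.2 d (by simp)
        simp [U.sing_iff.1 hd, U.sing_iff.1 he, hed, hde] at a1 a2
        simp [a1, a2]
    have h2 := finrank_perp hP (Submodule.span F {e, d})
    have h3 := H12G.finrank_span_pair_le (F := F) e d
    obtain ⟨f, hf, hf0, hfq⟩ := U.isoK (perp P (Submodule.span F {e, d})) (by omega)
    obtain ⟨h5, h6⟩ := pair_proj he hd hed w
    have h7 := le_of_sing hP (perp_nondeg hP h1) hf hf0 hfq (Sd hd (h d hd)) (fun u hu hq => by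
      have a1 : P.B d ((-(P.ε * c))⁻¹ • u) = 0 := by simp [mem_perp_span.1 hu d (by simp)]
      have a2 := P.q_smul_mem hq (-(P.ε * c))⁻¹
      have := mem_Sd_of_rt (hd := hd) (h := h d hd) a1 (h _ a2)
        (h _ (sing_add a2 hd (P.eq_zero_symm a1))) (valid_of_sing a2 hc)
      rwa [smul_smul, mul_inv_cancel₀ (neg_ne_zero.2 (mul_ne_zero P.ε_ne_zero hc0)), one_smul]
        at this) _ (mem_perp_span.2 (by rintro _ (rfl | rfl) <;> assumption))
    simpa [hw] using (Sd hd (h d hd)).add_mem h7 (smul_mem_Sd (P.B e w))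
  obtain ⟨e, f, he, hf, hef, -⟩ := U.isoK.exists_pair hP ⊥ (by simp; omega)
  exact EG_le_of_xle hP he hf (key e f he hf (by rw [← U.symm, hef, map_one])) (key f e hf he hef)
    (by simp [hef])

theorem isMaximalIn_point_uni (U : Uni P) {W : Submodule F V} (hW : W ⊓ perp P W = ⊥) (h0 : W ≠ ⊥)
    (h1 : finrank F W ≤ 1) : Geo.IsMaximalIn (EG P) (stab W ⊓ EG P) := by
  have hP := U.nd
  have h4 := U.four
  have h2 := finrank_perp hP W
  refine isMaximalIn_of inf_le_right (fun hle => U.isoK.not_EG_le_stab hP h4 h0 ?_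
    (hle.trans inf_le_left)) fun M hH hM ⟨g, hg, hg'⟩ => ?_
  · rintro rfl
    rw [finrank_top] at h1
    omega
  have hI : ∀ g ∈ M, g ∈ P.Isom := fun g hg => EG_le_isom (hM hg)
  have hY := perp_nondeg hP hW
  obtain ⟨a, ha, qa, ha'⟩ := Low.exists_sing_notMem U.isoK (irr_of_lambda hP hY U.lam) (by omega)
    (Z := (perp P W).comap (g : V →ₗ[F] V)) fun hle =>
      hg' ⟨stab_of_perp hP (hI g hg) (mem_stab_of_maps hle), hM hg⟩
  have hin : ∀ u ∈ perp P W, P.q u ∈ P.Λ → Rt P M u := fun u hu hq => rt_of_eu hq fun l hl =>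
    (has_eu_stab_of_perp (w := 0) hq (by simp) (P.Λ.sub_mem hl P.q_zero) hu
      (Submodule.zero_mem _)).mono hH
  have h3 := (hin a ha qa).apply hg (hI g hg)
  have h5 := U.sing_iff.1 (isom_q (hI g hg) qa)
  obtain ⟨y, hy, w, hw, e⟩ := H12G.exists_decomp hW (g a)
  have hw0 : w ≠ 0 := by rintro rfl; exact ha' (by simpa [e] using hy)
  have hsp : W = F ∙ w := (Submodule.eq_of_le_of_finrank_le
    ((Submodule.span_singleton_le_iff_mem _ _).2 hw) (by rwa [finrank_span_singleton hw0])).symm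
  have hww : P.B w w ≠ 0 := fun h => hw0 (H12G.eq_zero_of_nd hW hw (hsp ▸ mem_perp_singleton.2 h))
  have hB : ∀ y ∈ perp P W, P.B (y + w) (y + w) = 0 → P.B y y = -P.B w w := fun y hy h => by
    simp only [map_add, LinearMap.add_apply, hy w hw, mem_perp'.1 hy w hw] at h
    linear_combination h
  rw [e] at h3 h5
  have h6 := hB y hy h5
  refine EG_le_of_rt U fun u hu => ?_
  obtain ⟨y', hy', w', hw', rfl⟩ := H12G.exists_decomp hW u
  obtain ⟨c, rfl⟩ := Submodule.mem_span_singleton.1 (hsp ▸ hw')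
  by_cases hc : c = 0
  · exact hin _ (by simpa [hc] using hy') hu
  have e' : y' + c • w = c • (c⁻¹ • y' + w) := by rw [smul_add, smul_inv_smul₀ hc]
  have h7 := hB _ ((perp P W).smul_mem c⁻¹ hy') (U.sing_iff.1 (by
    have := P.q_smul_mem hu c⁻¹
    rwa [e', inv_smul_smul₀ hc] at this))
  have hne : ∀ x, P.B x x = -P.B w w → x ≠ 0 := by
    rintro _ h rfl
    exact hww (by simpa using h)
  obtain ⟨k, hk, -, hky, hkw⟩ := exists_isom_stab_apply_eq hP hY hy ((perp P W).smul_mem c⁻¹ hy')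
    (hne _ h6) (hne _ h7) (U.lmax.q_sub (h7.trans h6.symm))
  obtain ⟨z, hz, hyz, hzz⟩ := U.exists_nonsing_perp hY hy (Or.inl (by omega))
  obtain ⟨r, -, hr, hkr⟩ := U.fix hzz k hk
  have a1 : (k * r) w = w := by
    rw [le_mul_apply, hr w (mem_perp_singleton.2 (mem_perp'.1 hz w hw)), hkw w (le_perp_perp W hw)]
  have a2 : (k * r) y = c⁻¹ • y' := by
    rw [le_mul_apply, hr y (mem_perp_singleton.2 (P.eq_zero_symm hyz)), hky]
  have := h3.apply (hH ⟨mem_stab_of_fix fun x hx => by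
    obtain ⟨t, rfl⟩ := Submodule.mem_span_singleton.1 (hsp ▸ hx)
    rw [map_smul, a1], hkr⟩) (EG_le_isom hkr)
  rw [map_add, a1, a2] at this
  exact e' ▸ this.smul c

end

theorem su4_point {F : Type*} [Field F] [Fintype F] {q : ℕ} [H11.U.IsSq F q]
    (W : Submodule F (Fin 4 → F)) (hW0 : W ≠ ⊥) (hW : Geo.IsNondegenerateOn (hermForm 4 F q) W)
    (hdim : 2 * finrank F W < 4) : Geo.IsMaximalIn (GU 4 F q ⊓ Geo.specialLinear (Fin 4) F)
      (Geo.subspaceStabilizer W ⊓ (GU 4 F q ⊓ Geo.specialLinear (Fin 4) F)) := by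
  rw [SU_eq (by omega), subspaceStabilizer_eq, ← pull_inf]
  exact isMaximalIn_pull (isMaximalIn_point_uni (uni_uP le_rfl) (nondegOn_u.1 hW) hW0 (by omega))

end H28.Four
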