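import Mathlib
import Cfsg.Agent.Base
import Cfsg.Agent.Lib.Four.OU
import Cfsg.Agent.Lib.ClassMax.C8Low
import Cfsg.Agent.Lib.OrthLow.C1

/-!
The similarity groups of forms in `SL₄`.
-/

set_option autoImplicit false
set_option linter.unusedSectionVars false

namespace H28.Four

open Module Cfsg H97 H28 H11.Sub

section Sesq

variable {F V : Type*} [Field F] [AddCommGroup V] [Module F V] {σ : F →+* F} {P : PQ F V σ}
  [FiniteDimensional F V] [Fintype F] {M : Subgroup (V ≃ₗ[F] V)} {k : ℕ}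

theorem add_sq_closed {T : F → Prop} (h0 : T 0) (hs : ∀ x y, T x → T y → T (x - y)) {c : F}
    (h : ∀ t, t ≠ 0 → T (t ^ 2 * c)) (s : F) : T (s * c) := by
  have sq : ∀ t, T (t ^ 2 * c) := fun t => by
    by_cases h3 : t = 0
    · simpa [h3] using h0
    · exact h t h3
  by_cases h2 : (2 : F) = 0
  · obtain ⟨t, rfl⟩ := exists_sq_eq_of_two_eq_zero h2 s
    exact sq t
  convert hs _ _ (sq ((s + 1) / 2)) (sq ((s - 1) / 2)) using 1
  field_simp; ring

theorem ratPQ_top (hP : P.B.SeparatingLeft) : RatPQ P (Module.finBasis F V) ⊤ :=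
  ⟨hP, fun _ _ => trivial, fun _ _ _ _ => trivial, fun x _ => ⟨P.q x, trivial, by simp⟩⟩

theorem rs_top {d : V} (hd : P.q d ∈ P.Λ) (h0 : d ≠ 0) : RS P (Module.finBasis F V) ⊤ d :=
  ⟨fun _ => trivial, h0, hd⟩

theorem exists_HB (h : IsoK P k) (hP : P.B.SeparatingLeft) (hn : k + 2 ≤ finrank F V) {d : V}
    (hd : P.q d ∈ P.Λ) (h0 : d ≠ 0) : ∃ e a a', HB P d e a a' := by
  obtain ⟨e, a, a', -, -, -, H⟩ := exists_hb (k := k) (ratPQ_top hP) (fun X _ hX => by
    obtain ⟨x, h1, h2, h3⟩ := h X hX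
    exact ⟨x, h1, rs_top h3 h2⟩) (by simpa using hn) (rs_top hd h0)
  exact ⟨e, a, a', H⟩

theorem HB.ne {d e a a' : V} (H : HB P d e a a') : d ≠ 0 ∧ e ≠ 0 ∧ a ≠ 0 ∧ a' ≠ 0 := by
  refine ⟨?_, ?_, ?_, ?_⟩ <;> rintro rfl
  · simpa using H.ed
  · simpa using H.ed
  · simpa using H.aa
  · simpa using H.aa

theorem HB.torus (hP : P.B.SeparatingLeft) {d e a a' : V} (H : HB P d e a a') {l : F} (hl : l ≠ 0) :
    ∃ g ∈ EG P, g d = l • d ∧ g a = σ l • a := by
  obtain ⟨h1, h2, h3, h4⟩ := H.ne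
  obtain ⟨g, hg, e⟩ := exists_torus (ratPQ_top hP) (rs_top H.qd h1) (rs_top H.qe h2)
    (rs_top H.qa h3) (rs_top H.qa' h4) H (l := l) trivial hl
  exact ⟨g, hg.2, e⟩

theorem SLV_le_of_transvection4 (h : IsoK P k) (hP : P.B.SeparatingLeft) (hk : k ≤ 2)
    (h4 : finrank F V = 4) {l : F} (hl : l ∈ P.Λ) (hl0 : l ≠ 0) (hE : EG P ≤ M) {u w : V}
    (hw : u ∉ F ∙ w) (hw0 : w ≠ 0) (hwu : P.B w u = 0) (hT : HasT M u (P.B w)) : SLV F V ≤ M := by
  have hεε := P.εε
  obtain ⟨d, hd, hdw, hdu⟩ := h.exists_sing_perp hP (by omega) hw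
  have hd0 : d ≠ 0 := by rintro rfl; simp at hdu
  have hdd := P.self_eq_zero hd
  have hTd : ∀ a, P.q a ∈ P.Λ → HasT M a ((-(P.ε * l)) • P.B a) := fun a ha =>
    ((has_eu_EG ha (w := 0) (c := l) (by simp) (P.Λ.sub_mem hl P.q_zero)).mono hE).congr
      fun x => by simp [eu_apply]
  obtain ⟨x, hx, hxd, hx0⟩ : ∃ x, HasT M d (P.B x) ∧ P.B d x = 0 ∧ x ∉ F ∙ d := by
    have h1 := (hTd d hd).comm hT (by simp [hdd]) hwu (P.eq_zero_symm hdw)
    refine ⟨σ (-(P.ε * l) * P.B d u) • w, ?_, by simp [hdw], fun hh => ?_⟩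
    · convert h1 using 1
      ext y; simp [B_smul_left, P.σσ]
    · obtain ⟨t, ht⟩ := Submodule.mem_span_singleton.1 hh
      have h2 := congrArg (fun y => P.B y u) ht
      simp only [B_smul_left, hwu, mul_zero, mul_eq_zero, hdu, or_false, map_eq_zero] at h2
      rw [h2, zero_smul, eq_comm, smul_eq_zero] at ht
      simp [hw0, hdu, hl0, P.ε_ne_zero] at ht
  obtain ⟨e, a, a', H⟩ := exists_HB h hP (by omega) hd hd0
  let A : V → Prop := fun y => P.B y d = 0 ∧ HasT M d (P.B y)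
  have hadd : ∀ y z, A y → A z → A (y + z) := fun y z hy hz =>
    ⟨by simp [hy.1, hz.1], by rw [map_add]; exact hy.2.add_right hz.2 hy.1⟩
  have hsub : ∀ y z, A y → A z → A (y - z) := fun y z hy hz =>
    ⟨by simp [hy.1, hz.1], by rw [map_sub]; exact hy.2.sub_right hz.2 hy.1 hz.1⟩
  have hconj : ∀ g ∈ EG P, ∀ t : F, g d = t • d → ∀ y, A y → A (σ t • g y) := fun g hg t e y hy => by
    have h1 := hy.2.conj' (ψ := P.B (g y)) (hE hg) fun z => (EG_le_isom hg).1 y z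
    rw [e, hasT_smul_iff] at h1
    refine ⟨?_, by convert h1 using 1; ext z; simp [B_smul_left, P.σσ]⟩
    have := (EG_le_isom hg).1 y d
    rw [e, hy.1, map_smul] at this
    rwa [B_smul_left, P.σσ]
  have hfix : ∀ c w' y, P.q c ∈ P.Λ → P.B c w' = 0 → ∀ s, s - P.q w' ∈ P.Λ → P.B c d = 0 →
      P.B w' d = 0 → A y → A (y - eu P c w' s y) := fun c w' y hc hcw s hs h1 h2 hy => by
    obtain ⟨g, hg, eg⟩ := has_eu_EG hc hcw hs
    have := hconj g hg 1 (by rw [eg, eu_fix _ h1 h2, one_smul]) y hy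
    rw [map_one, one_smul, eg] at this
    exact hsub _ _ hy this
  have htr : ∀ c y, P.q c ∈ P.Λ → P.B c d = 0 → A y → A ((P.ε * l * P.B c y) • c) :=
    fun c y hc h1 hy => by
      simpa [eu_apply] using hfix c 0 y hc (by simp) l (P.Λ.sub_mem hl P.q_zero) h1 (by simp) hy
  have hAx : A x := ⟨P.eq_zero_symm hxd, hx⟩
  have h1 : ∀ s : F, A (s • d) := fun s => by
    obtain ⟨z, hz1, hz2⟩ := exists_B_eq hP hx0 (-s)
    have hz := hz1 d (Submodule.mem_span_singleton_self d)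
    simpa [eu_apply, hxd, hz2] using hfix d z x hd (P.eq_zero_symm hz) (P.q z) (by simp) hdd hz hAx
  obtain ⟨s₀, hs₀, h2⟩ : ∃ s₀ : F, s₀ ≠ 0 ∧ A (s₀ • a) := by
    have hε := mul_ne_zero P.ε_ne_zero hl0
    by_cases h3 : P.B a x = 0
    · refine ⟨_, ?_, htr a _ H.qa H.ad (htr a' x H.qa' H.ad' hAx)⟩
      simp only [map_smul, H.aa', smul_eq_mul]
      refine mul_ne_zero hε (mul_ne_zero (mul_ne_zero hε fun h5 => hx0 ?_) P.ε_ne_zero)
      rw [H.decomp hP h4 x, hxd, h3, h5]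
      simpa using Submodule.smul_mem _ _ (Submodule.mem_span_singleton_self d)
    · exact ⟨_, mul_ne_zero hε h3, htr a x H.qa H.ad hAx⟩
  have h3 : ∀ s : F, A (s • a) := fun s => by
    have := add_sq_closed (T := fun s => A (s • a)) ⟨by simp, by simpa using hasT_zero_right d⟩
      (fun x y hx hy => by rw [sub_smul]; exact hsub _ _ hx hy) (c := s₀) (fun t ht => by
        obtain ⟨g, hg, e1, e2⟩ := H.torus hP (σ_ne_zero ht)
        have := hconj g hg _ e1 _ h2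
        rw [map_smul, e2, P.σσ, smul_smul, smul_smul] at this
        convert this using 2; ring) (s / s₀)
    rwa [div_mul_cancel₀ _ hs₀] at this
  have h5 : ∀ s : F, A (s • a') := fun s => by
    convert htr a' _ H.qa' H.ad' (h3 (P.ε * s / l)) using 2
    simp only [map_smul, H.aa, smul_eq_mul]
    field_simp
    linear_combination (-s) * hεε
  refine SLV_le_of_cen (cen_eq_top h hP (by omega) hE (cen_of_hasT_perp hP fun y hy => ?_) hd0)
  have := hadd _ _ (hadd _ _ (h1 (P.B e y)) (h3 (P.B a' y))) (h5 (P.ε * P.B a y))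
  convert this.2 using 2
  conv_lhs => rw [H.decomp hP h4 y, P.eq_zero_symm hy]
  module

theorem scalar_of_sing2 (h : IsoK P k) (hP : P.B.SeparatingLeft) (hn : k + 2 ≤ finrank F V)
    {f : V →ₗ[F] V} (hf : ∀ u, P.q u ∈ P.Λ → f u ∈ F ∙ u) : ∃ a : F, ∀ x, f x = a • x := by
  have h1 : ∀ u v (a : F), P.q u ∈ P.Λ → P.q v ∈ P.Λ → P.B u v = 0 → u ≠ 0 → f u = a • u →
      f v = a • v := by
    intro u v a hu hv huv hu0 ha
    by_cases hm : v ∈ F ∙ u
    · obtain ⟨t, rfl⟩ := Submodule.mem_span_singleton.1 hm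
      rw [map_smul, ha, smul_comm]
    obtain ⟨b, hb⟩ := Submodule.mem_span_singleton.1 (hf _ hv)
    obtain ⟨c, hc⟩ := Submodule.mem_span_singleton.1 (hf _ (sing_add hu hv huv))
    rw [map_add, ha, ← hb] at hc
    have h2 : b = c := by
      by_contra h3
      refine hm (Submodule.mem_span_singleton.2 ⟨(b - c)⁻¹ * (c - a), ?_⟩)
      have := sub_ne_zero.2 h3
      linear_combination (norm := skip) (b - c)⁻¹ • hc
      match_scalars <;> field_simp <;> ring
    have h3 : (c - a) • u = 0 := by rw [h2] at hc; linear_combination (norm := module) hc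
    rw [← hb, h2, sub_eq_zero.1 ((smul_eq_zero.1 h3).resolve_right hu0)]
  obtain ⟨z, -, hz0, hz⟩ := h ⊤ (by simp; omega)
  obtain ⟨a, ha⟩ := Submodule.mem_span_singleton.1 (hf z hz)
  have h2 : ∀ u, P.q u ∈ P.Λ → f u = a • u := fun u hu => by
    obtain ⟨y, hy, hy0, hy1⟩ := h (perp P (Submodule.span F {z, u})) (by
      have := finrank_le_perp (P := P) (Submodule.span F {z, u})
      have := H97.finrank_span_pair_le (F := F) z u
      omega)
    obtain ⟨k1, k2⟩ := mem_perp_pair.1 hy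
    exact h1 y u a hy1 hu (P.eq_zero_symm k2) hy0 (h1 z y a hz hy1 k1 hz0 ha.symm)
  refine ⟨a, fun x => ?_⟩
  obtain ⟨e, f', he, hf', hef, hxe, hxf⟩ := h.pair1 hP (by omega) x
  have h3 := h2 _ (by simpa using q_add_pair he hf' hef hxe hxf 0)
  simp only [map_add, map_neg, map_smul, h2 e he, h2 f' hf'] at h3
  linear_combination (norm := module) h3

theorem isMaximalIn_simG4 (h : IsoK P k) (hP : P.B.SeparatingLeft) (hk : k ≤ 2)
    (h4 : finrank F V = 4) (hΛ : ∃ l ∈ P.Λ, l ≠ 0) :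
    Geo.IsMaximalIn (SLV F V) (simG (fun x y => P.B x y) ⊓ SLV F V) := by
  refine isMaximalIn_of inf_le_right (fun hle => ?_) fun M h1 h2 ⟨g, hg, hg'⟩ => ?_
  · obtain ⟨d, -, hd0, hd⟩ := h ⊤ (by simp; omega)
    obtain ⟨e, a, a', H⟩ := exists_HB h hP (by omega) hd hd0
    obtain ⟨g, hg, eg⟩ := (hasT_SLV (u := d) (φ := P.B a') H.ad').elim
    obtain ⟨c, -, hc⟩ := mem_simG.1 (hle hg).1
    have := hc e a
    simp [eg, H.ae', H.aa, H.ea, H.ed] at this
  have hE : EG P ≤ M := fun s hs =>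
    h1 ⟨mem_simG.2 ⟨1, one_ne_zero, fun x y => by rw [(EG_le_isom hs).1, one_mul]⟩, EG_le_SLV hs⟩
  by_contra hM
  obtain ⟨l, hl, hl0⟩ := hΛ
  obtain ⟨f, hf⟩ := exists_repr_form hP (Bg P g)
  obtain ⟨a, ha⟩ := scalar_of_sing2 h hP (by omega) (f := f) fun u hu => by
    rw [← perp_perp hP (F ∙ u)]
    intro x hx
    refine P.eq_zero_symm ?_
    rw [hf, Bg_apply]
    have hux := mem_perp_singleton.1 hx
    by_cases hu0 : u = 0
    · simp [hu0]
    have h3 : HasT M u ((-(P.ε * l)) • P.B u) :=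
      ((has_eu_EG hu (w := 0) (c := l) (by simp) (P.Λ.sub_mem hl P.q_zero)).mono hE).congr
        fun x => by simp [eu_apply]
    have h4' := h3.conj hg
    obtain ⟨w, hw⟩ := exists_repr_dual P.σσ P.B hP (((-(P.ε * l)) • P.B u) ∘ₗ (g⁻¹ : V ≃ₗ[F] V))
    rw [← LinearMap.ext hw] at h4'
    have hw' : ∀ y, P.B w (g y) = -(P.ε * l) * P.B u y := fun y => by
      rw [hw]; simp
    have h5 : g u ∈ F ∙ w := by
      by_contra h5
      refine hM (SLV_le_of_transvection4 h hP hk h4 hl hl0 hE h5 (fun h0 => hu0 (hP u fun y => ?_))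
        (by rw [hw', P.self_eq_zero hu, mul_zero]) h4')
      simpa [h0, hl0, P.ε_ne_zero] using hw' y
    obtain ⟨b, hb⟩ := Submodule.mem_span_singleton.1 h5
    rw [← hb, B_smul_left, hw', hux]; simp
  exact hg' ⟨mem_simG_of_prop hP (by omega) (a := σ a) fun x y => by
    rw [← Bg_apply, ← hf, ha, B_smul_left], h2 hg⟩

end Sesq

section Quad

open H12G

variable {F V : Type*} [Field F] [AddCommGroup V] [Module F V] [FiniteDimensional F V] [Fintype F]
  {Q : QuadraticForm F V} {M : Subgroup (V ≃ₗ[F] V)}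

local notation "𝒫" => PQ.ofQuad Q
local notation "𝔅" => PQ.B (PQ.ofQuad Q)

/-- A non-degenerate quadratic space of dimension four in odd characteristic. -/
structure Q4 (Q : QuadraticForm F V) : Prop where
  nd : (PQ.ofQuad Q).B.SeparatingLeft
  two : (2 : F) ≠ 0
  dim : finrank F V = 4

theorem B_sing {x : V} (h : Q x = 0) : 𝔅 x x = 0 := by rw [B_self', h, mul_zero]

theorem has_ei {d w : V} (hd : Q d = 0) (hw : 𝔅 d w = 0) : Has (EG 𝒫) (eu 𝒫 d w (Q w)) :=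
  has_eu_EG (P := 𝒫) hd hw (by simp [q_eq])

theorem Q_ei {e v w : V} (he : Q e = 0) (hv : Q v = 0) (h1 : 𝔅 e v = 1) (h2 : 𝔅 e w = 0)
    (h3 : 𝔅 v w = 0) : Q (e - w - Q w • v) = 0 := by
  have := eu_q (P := 𝒫) (d := v) (w := w) (c := Q w) hv h3 (by simp [q_eq]) e
  rw [mem_lam, q_eq, q_eq, he, sub_zero, eu_apply', B_symm v e, h1, B_symm w e, h2] at this
  convert this using 2; module

namespace Q4

variable (E : Q4 Q)
include E

theorem B_ne {x : V} (h : Q x ≠ 0) : 𝔅 x x ≠ 0 := by rw [B_self']; exact mul_ne_zero E.two h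

theorem partner {d : V} (hd : Q d = 0) (h0 : d ≠ 0) : ∃ e, Q e = 0 ∧ 𝔅 e d = 1 := by
  obtain ⟨e, h1, h2, -⟩ := (𝒫).exists_partner E.nd ⊥ (by simpa using h0) hd (by simp)
  exact ⟨e, h1, h2⟩

theorem complete {v e p : V} (hv : Q v = 0) (he : Q e = 0) (h1 : 𝔅 e v = 1) (hp : Q p ≠ 0)
    (hvp : 𝔅 v p = 0) (hep : 𝔅 e p = 0) : ∃ c, Q c ≠ 0 ∧ 𝔅 v c = 0 ∧ 𝔅 e c = 0 ∧ 𝔅 p c = 0 ∧
      ∀ x, x = 𝔅 e x • v + 𝔅 v x • e + ((𝔅 c c)⁻¹ * 𝔅 c x) • c + ((𝔅 p p)⁻¹ * 𝔅 p x) • p := by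
  have h2 : 𝔅 v e = 1 := by rw [B_symm, h1]
  have hpp := E.B_ne hp
  obtain ⟨c, hc, hc0⟩ := exists_ne_zero_mem (X := perp 𝒫 (Submodule.span F {v, e, p})) (by
    have := finrank_le_perp (P := 𝒫) (Submodule.span F {v, e, p})
    have := H97.finrank_span_triple_le (F := F) v e p
    have := E.dim
    omega)
  obtain ⟨k1, k2, k3⟩ := mem_perp_triple.1 hc
  have hs : ∀ x, ∃ s : F,
      x = 𝔅 e x • v + 𝔅 v x • e + s • c + ((𝔅 p p)⁻¹ * 𝔅 p x) • p := fun x => by
    obtain ⟨s, hs⟩ := Submodule.mem_span_singleton.1 (mem_span_of_perp E.nd E.dim (a := v) (b := e)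
      (c := p) (x := x - 𝔅 e x • v - 𝔅 v x • e - ((𝔅 p p)⁻¹ * 𝔅 p x) • p) (fun s t r hh => by
        have e1 := congrArg (𝔅 e) hh
        have e2 := congrArg (𝔅 v) hh
        have e3 := congrArg (𝔅 p) hh
        simp [B_sing hv, B_sing he, h1, h2, hvp, hep, B_symm p v, B_symm p e, hpp] at e1 e2 e3
        exact ⟨e1, e2, e3⟩) hc0 k1 k2 k3 (by simp [B_sing hv, h2, hvp])
      (by simp [B_sing he, h1, hep]) (by simp [B_symm p v, B_symm p e, hvp, hep]; field_simp; ring))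
    exact ⟨s, by rw [hs]; abel⟩
  have hB : ∀ x s, x = 𝔅 e x • v + 𝔅 v x • e + s • c + ((𝔅 p p)⁻¹ * 𝔅 p x) • p →
      𝔅 c x = s * 𝔅 c c := fun x s h => by
    conv_lhs => rw [h]
    simp [B_symm c v, B_symm c e, B_symm c p, k1, k2, k3]
  have hcc : 𝔅 c c ≠ 0 := fun h => hc0 (E.nd c fun x => by
    obtain ⟨s, hs⟩ := hs x
    rw [hB x s hs, h, mul_zero])
  refine ⟨c, fun h => hcc (B_sing h), k1, k2, k3, fun x => ?_⟩
  obtain ⟨s, hs⟩ := hs x
  rw [hB x s hs, mul_comm s, inv_mul_cancel_left₀ hcc]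
  exact hs

theorem exists_nonsing {v e : V} (hv : Q v = 0) (he : Q e = 0) (h1 : 𝔅 e v = 1) :
    ∃ p, Q p ≠ 0 ∧ 𝔅 v p = 0 ∧ 𝔅 e p = 0 := by
  by_contra hh
  push Not at hh
  have h2 : 𝔅 v e = 1 := by rw [B_symm, h1]
  have hq : ∀ p, 𝔅 v p = 0 → 𝔅 e p = 0 → Q p = 0 := fun p k1 k2 => by
    by_contra h; exact hh p h k1 k2
  obtain ⟨x, hx, hx0⟩ := exists_ne_zero_mem (X := perp 𝒫 (Submodule.span F {v, e})) (by
    have := finrank_le_perp (P := 𝒫) (Submodule.span F {v, e})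
    have := H97.finrank_span_pair_le (F := F) v e
    have := E.dim
    omega)
  obtain ⟨k1, k2⟩ := mem_perp_pair.1 hx
  refine hx0 (E.nd x fun y => ?_)
  have l1 : 𝔅 v (y - 𝔅 e y • v - 𝔅 v y • e) = 0 := by simp [B_sing hv, h2]
  have l2 : 𝔅 e (y - 𝔅 e y • v - 𝔅 v y • e) = 0 := by simp [B_sing he, h1]
  have := hq (x + (y - 𝔅 e y • v - 𝔅 v y • e)) (by rw [map_add, k1, l1, add_zero])
    (by rw [map_add, k2, l2, add_zero])
  rw [Q_add', hq x k1 k2, hq _ l1 l2] at this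
  simpa [B_symm x v, B_symm x e, k1, k2] using this

theorem exists_pair_perp {p : V} (hp : Q p ≠ 0) :
    ∃ v e, Q v = 0 ∧ Q e = 0 ∧ 𝔅 e v = 1 ∧ 𝔅 v p = 0 ∧ 𝔅 e p = 0 := by
  obtain ⟨v, hv, hv0, hq⟩ := exists_singular_of_three_le Q (perp 𝒫 (F ∙ p)) (by
    have := finrank_le_perp (P := 𝒫) (F ∙ p)
    have := finrank_span_singleton_le (F := F) p
    have := E.dim
    omega)
  replace hv := mem_perp_singleton.1 hv
  obtain ⟨e, h1, h2, h3⟩ := (𝒫).exists_partner E.nd (F ∙ p) (d := v) (fun hh => by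
    obtain ⟨t, rfl⟩ := Submodule.mem_span_singleton.1 hh
    simp [E.B_ne hp] at hv
    simp [hv] at hv0) hq fun x hx => by
      obtain ⟨t, rfl⟩ := Submodule.mem_span_singleton.1 hx
      simp [B_symm v p, hv]
  exact ⟨v, e, hq, h1, h2, by rw [B_symm, hv], h3 p (Submodule.mem_span_singleton_self p)⟩

theorem common {x y : V} (hx : Q x = 0) (hx0 : x ≠ 0) (hy0 : y ≠ 0) :
    ∃ d, Q d = 0 ∧ 𝔅 d x ≠ 0 ∧ 𝔅 d y ≠ 0 := by
  obtain ⟨e, he, h1⟩ := E.partner hx hx0
  obtain ⟨p, hp, k1, k2⟩ := E.exists_nonsing hx he h1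
  obtain ⟨c, hc, l1, l2, l3, hd⟩ := E.complete hx he h1 hp k1 k2
  by_contra hh
  push Not at hh
  have key : ∀ w, 𝔅 e w = 0 → 𝔅 x w = 0 → 𝔅 e y - 𝔅 w y - Q w * 𝔅 x y = 0 := fun w a1 a2 => by
    simpa using hh _ (Q_ei he hx h1 a1 a2) (by simp [h1, B_symm w x, a2, B_sing hx])
  have e0 := key 0 (by simp) (by simp)
  have e1 := key p k2 k1
  have e2 := key (-p) (by simp [k2]) (by simp [k1])
  have e3 := key c l2 l1
  simp only [map_zero, LinearMap.zero_apply, map_neg, LinearMap.neg_apply,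
    QuadraticMap.map_neg] at e0 e2
  have f1 : 𝔅 x y = 0 := mul_left_cancel₀ (mul_ne_zero E.two hp) (by linear_combination 2 * e0 - e1 - e2)
  have f2 : 𝔅 e y = 0 := by linear_combination e0
  have f3 : 𝔅 p y = 0 := by linear_combination e0 - e1 - Q p * f1
  have f4 : 𝔅 c y = 0 := by linear_combination e0 - e3 - Q c * f1
  exact hy0 (by rw [hd y, f1, f2, f3, f4]; simp)

theorem trans {x y : V} (hx : Q x = 0) (hy : Q y = 0) (hx0 : x ≠ 0) (hy0 : y ≠ 0) :
    ∃ g ∈ EG 𝒫, ∃ t : F, t ≠ 0 ∧ g x = t • y := by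
  obtain ⟨d, hd, h1, h2⟩ := E.common hx hx0 hy0
  obtain ⟨g, hg, -, e, -⟩ := (xle_EG (P := 𝒫) hd).exists_apply_eq hd (x := x)
    (y := (𝔅 d x / 𝔅 d y) • y) (by simp [mem_lam, q_eq, hx, hy, QuadraticMap.map_smul])
    (by simp [h2]) h1
  exact ⟨g, hg, _, div_ne_zero h1 h2, e⟩

theorem torus {u e : V} (hu : Q u = 0) (he : Q e = 0) (h1 : 𝔅 e u = 1) {t : F} (ht : t ≠ 0) :
    ∃ g ∈ (𝒫).Isom ⊓ SLV F V, g u = t • u := by
  have h2 : 𝔅 u e = 1 := by rw [B_symm, h1]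
  have h3 : ∀ s : F, Q (u + s • e) = s := fun s => by
    simp [Q_add', hu, he, h2, QuadraticMap.map_smul]
  obtain ⟨g, hg, eg⟩ := has_refl_isom E.nd (y := u + t⁻¹ • e) (by simp [h3, ht])
  obtain ⟨g', hg', eg'⟩ := has_refl_isom E.nd (y := u + (1 : F) • e) (by rw [h3]; exact one_ne_zero)
  refine ⟨g * g', ⟨(𝒫).Isom.mul_mem hg hg', SLV_mul_of_det (det_refl (by simp [h3, ht]) eg)
    (det_refl (by rw [h3]; exact one_ne_zero) eg')⟩, ?_⟩
  rw [le_mul_apply, eg, eg', PQ.qrefl_apply, PQ.qrefl_apply, h3, h3]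
  simp only [map_add, map_smul, LinearMap.add_apply, LinearMap.smul_apply, B_sing hu, B_sing he,
    h1, h2, smul_eq_mul]
  match_scalars <;> field_simp <;> ring

variable (hI : (PQ.ofQuad Q).Isom ⊓ SLV F V ≤ M)
include hI

theorem EG_le : EG 𝒫 ≤ M := fun _ hg => hI ⟨EG_le_isom hg, EG_le_SLV hg⟩

theorem conj {g : V ≃ₗ[F] V} (hg : g ∈ (𝒫).Isom ⊓ SLV F V) {u w : V} (h : HasT M u (𝔅 w)) :
    HasT M (g u) (𝔅 (g w)) := h.conj' (hI hg) fun x => hg.1.1 w x

theorem SLV_le_of_gain {u w : V} (hu : Q u = 0) (hu0 : u ≠ 0) (hw : 𝔅 w u = 0) (hw0 : w ≠ 0)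
    (h : HasT M u (𝔅 w)) : SLV F V ≤ M := by
  have h2 := E.two
  have hu1 : ∀ s : F, HasT M u (𝔅 (s • u)) := fun s => by
    by_cases hm : w ∈ F ∙ u
    · obtain ⟨c, rfl⟩ := Submodule.mem_span_singleton.1 hm
      have hc : c ≠ 0 := by rintro rfl; simp at hw0
      obtain ⟨e, he, h1⟩ := E.partner hu hu0
      have := add_sq_closed (T := fun s => HasT M u (𝔅 (s • u))) (by simpa using hasT_zero_right u)
        (fun x y hx hy => by
          rw [sub_smul, map_sub]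
          exact hx.sub_right hy (by simp [B_sing hu]) (by simp [B_sing hu])) (c := c) (fun t ht => by
          obtain ⟨g, hg, e1⟩ := E.torus hu he h1 ht
          have := E.conj hI hg h
          rw [map_smul, e1, hasT_smul_iff] at this
          convert this using 1
          ext x; simp; ring) (s / c)
      rwa [div_mul_cancel₀ _ hc] at this
    · obtain ⟨z, hz1, hz2⟩ := exists_B_eq E.nd hm s
      have hz := hz1 u (Submodule.mem_span_singleton_self u)
      obtain ⟨g, hg, eg⟩ := has_ei hu (w := z) (by rw [B_symm, hz])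
      have := (E.conj hI ⟨EG_le_isom hg, EG_le_SLV hg⟩ h)
      rw [eg u, eu_fix _ (B_sing hu) hz, eg, eu_apply', B_symm u w, hw, hz2] at this
      simpa using this.sub_right h (by simp [hw, B_sing hu]) hw
  have hZ : ∀ d, Q d = 0 → ∀ s : F, HasT M d (𝔅 (s • d)) := fun d hd s => by
    by_cases hd0 : d = 0
    · rw [hd0]; exact hasT_zero_left _
    obtain ⟨g, hg, t, ht, e⟩ := E.trans hu hd hu0 hd0
    have := E.conj hI ⟨EG_le_isom hg, EG_le_SLV hg⟩ (hu1 (s / t ^ 2))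
    rw [map_smul, e, hasT_smul_iff] at this
    convert this using 1
    ext x; simp; field_simp
  have hG : ∀ p p', Q p ≠ 0 → 𝔅 p p' = 0 → Q p' = -Q p → ∀ s : F, HasT M p (𝔅 (s • p')) := by
    intro p p' hp h1 h3 s
    have h4' : (4 : F) ≠ 0 := by rw [show (4 : F) = 2 * 2 by norm_num]; exact mul_ne_zero h2 h2
    have h4 : 𝔅 p' p = 0 := by rw [B_symm, h1]
    have h5 : 𝔅 p' p' = -(2 * Q p) := by rw [B_self', h3]; ring
    obtain ⟨g, hg, eg⟩ := (hZ (p - p') (by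
      rw [sub_eq_add_neg, Q_add', QuadraticMap.map_neg, h3]; simp [h1]) (4 * Q p)⁻¹).elim
    have := (hZ (p + p') (by rw [Q_add', h3, h1]; ring) (s / 4)).conj'
      (ψ := 𝔅 ((s / 2) • p')) hg fun x => by
        simp only [eg, map_add, map_sub, map_smul, LinearMap.add_apply, LinearMap.sub_apply,
          LinearMap.smul_apply, h4, h5, smul_eq_mul, RingHom.id_apply]
        field_simp; ring
    rw [show g (p + p') = (2 : F) • p by
      simp only [eg, map_add, map_sub, map_smul, LinearMap.sub_apply,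
        LinearMap.smul_apply, h1, h4, h5, B_self' p, smul_eq_mul, RingHom.id_apply]
      match_scalars <;> field_simp <;> ring, hasT_smul_iff] at this
    convert this using 1
    ext x; simp; field_simp
  have hc : ∀ p, Q p ≠ 0 → p ∈ cen M := fun p hp => by
    obtain ⟨v, e, hv, he, h1, k1, k2⟩ := E.exists_pair_perp hp
    obtain ⟨c, hc, l1, l2, l3, hd⟩ := E.complete hv he h1 hp k1 k2
    let S : Submodule F V :=
      { carrier := {x | 𝔅 x p = 0 ∧ ∀ s : F, HasT M p (𝔅 (s • x))}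
        zero_mem' := ⟨by simp, fun s => by simpa using hasT_zero_right p⟩
        add_mem' := fun hx hy => ⟨by simp [hx.1, hy.1], fun s => by
          rw [smul_add, map_add]; exact (hx.2 s).add_right (hy.2 s) (by simp [hx.1])⟩
        smul_mem' := fun t x hx => ⟨by simp [hx.1], fun s => by rw [smul_smul]; exact hx.2 _⟩ }
    have key : ∀ t : F, e - t • c - (Q p + t ^ 2 * Q c) • v ∈ S := fun t => by
      have h3 : Q (p + t • c) = Q p + t ^ 2 * Q c := by
        simp [Q_add', QuadraticMap.map_smul, l3, sq]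
      have h4 := Q_ei he hv h1 (w := p + t • c) (by simp [k2, l2]) (by simp [k1, l1])
      have h5 : 𝔅 (e - t • c - (Q p + t ^ 2 * Q c) • v) p = 0 := by simp [k1, k2, B_symm c p, l3]
      refine ⟨h5, fun s => ?_⟩
      refine hG p _ hp (by rw [B_symm, h5]) ?_ s
      rw [h3, show e - (p + t • c) - (Q p + t ^ 2 * Q c) • v =
        e - t • c - (Q p + t ^ 2 * Q c) • v + -p by abel, Q_add', QuadraticMap.map_neg, map_neg,
        h5] at h4
      linear_combination h4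
    have m1 : c ∈ S := by
      convert S.smul_mem (2 : F)⁻¹ (S.sub_mem (key (-1)) (key 1)) using 1
      match_scalars <;> field_simp <;> ring
    have m2 : v ∈ S := by
      convert S.smul_mem (Q c)⁻¹ (S.sub_mem (S.sub_mem (key 0) (key 1)) m1) using 1
      match_scalars <;> field_simp <;> ring
    have m3 : e ∈ S := by
      convert S.add_mem (key 0) (S.smul_mem (Q p) m2) using 1
      module
    refine cen_of_hasT_perp E.nd fun x hx => ?_
    have : x ∈ S := by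
      rw [hd x, B_symm p x, hx, mul_zero, zero_smul, add_zero]
      exact S.add_mem (S.add_mem (S.smul_mem _ m2) (S.smul_mem _ m3)) (S.smul_mem _ m1)
    simpa using this.2 1
  obtain ⟨e, he, h1⟩ := E.partner hu hu0
  obtain ⟨p, hp, -⟩ := E.exists_nonsing hu he h1
  refine SLV_le_of_cen (eq_top_iff.2 fun x _ => ?_)
  by_cases hx : Q x = 0
  swap
  · exact hc x hx
  by_cases h3 : Q (x + p) = 0
  · simpa using (cen M).add_mem (hc (x + -p) fun h4 => by
      rw [Q_add', QuadraticMap.map_neg, map_neg] at h4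
      rw [Q_add'] at h3
      exact mul_ne_zero h2 hp (by linear_combination h3 + h4 - 2 * hx)) (hc p hp)
  · simpa using (cen M).sub_mem (hc _ h3) (hc p hp)

variable (N : ∀ u w, Q u = 0 → u ≠ 0 → PQ.B (PQ.ofQuad Q) w u = 0 →
  HasT M u (PQ.B (PQ.ofQuad Q) w) → w = 0)
include N

theorem unip {u m : V} (hu : Q u = 0) (hu0 : u ≠ 0) {y : V ≃ₗ[F] V} (hy : y ∈ M) (h1 : y u = u)
    (h2 : ∀ x, 𝔅 u (y x) = 𝔅 u x) {φ : V → F} (h3 : ∀ x, 𝔅 u x = 0 → ∃ s : F, y x = x + φ x • m + s • u)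
    (hm : 𝔅 u m = 0) (hφ : φ m = 0) {x₀ : V} (hx₀ : 𝔅 u x₀ = 0) (h0 : φ x₀ ≠ 0) : m ∈ F ∙ u := by
  have rig : ∀ w x, 𝔅 u w = 0 → 𝔅 u x = 0 → 𝔅 (y w) (y x) = 𝔅 w x := fun w x hw hx => by
    have hyw : 𝔅 u (y w) = 0 := by rw [h2, hw]
    have k1 := ((has_ei hu hw).mono (E.EG_le hI)).conj hy
    have k2 := (has_ei hu (w := -y w) (by simp [hyw])).mono (E.EG_le hI)
    obtain ⟨a, ha⟩ := exists_repr_dual (𝒫).σσ 𝔅 E.nd (𝔅 w ∘ₗ (y⁻¹ : V ≃ₗ[F] V))
    replace ha : ∀ z, 𝔅 a z = 𝔅 w (y⁻¹ z) := ha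
    have h4 : ∀ z, 𝔅 u (y⁻¹ z) = 𝔅 u z := fun z => by rw [← h2, le_apply_inv]
    have k3 := N u (a - y w + (Q (y w) - Q w) • u) hu hu0 (by
      have : y⁻¹ u = u := by conv_lhs => rw [← h1, le_inv_apply_apply]
      simp [ha, this, B_symm w u, hw, B_symm (y w) u, hyw, B_sing hu]) ((k2.comp k1).congr fun z => by
        simp only [eu_apply', map_add, map_sub, map_smul, map_neg, le_apply_inv, h1, h4, hyw,
          B_sing hu, LinearMap.add_apply, LinearMap.sub_apply, LinearMap.smul_apply, ha,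
          LinearMap.neg_apply, B_symm (y w) u, B_self' (y w), QuadraticMap.map_neg, smul_eq_mul,
          RingHom.id_apply]
        module)
    have k4 := congrArg (fun z => 𝔅 z (y x)) k3
    simp only [map_add, map_sub, map_smul, LinearMap.add_apply, LinearMap.sub_apply,
      LinearMap.smul_apply, ha, le_inv_apply_apply, h2, hx, map_zero, LinearMap.zero_apply,
      smul_eq_mul] at k4
    linear_combination -k4
  have key : ∀ x x', 𝔅 u x = 0 → 𝔅 u x' = 0 →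
      φ x' * 𝔅 m x + φ x * 𝔅 m x' + φ x * φ x' * 𝔅 m m = 0 := fun x x' hx hx' => by
    obtain ⟨s, hs⟩ := h3 x hx
    obtain ⟨s', hs'⟩ := h3 x' hx'
    have := rig x x' hx hx'
    rw [hs, hs'] at this
    simp only [map_add, map_smul, LinearMap.add_apply, LinearMap.smul_apply, hx', hm, B_sing hu,
      B_symm x u, hx, B_symm m u, B_symm x m, smul_eq_mul, RingHom.id_apply] at this
    linear_combination this
  have e1 : 𝔅 m m = 0 := mul_left_cancel₀ h0 (by simpa [hφ] using key x₀ m hx₀ hm)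
  have e2 : 𝔅 m x₀ = 0 := mul_left_cancel₀ (mul_ne_zero E.two h0)
    (by linear_combination key x₀ x₀ hx₀ hx₀ - φ x₀ * φ x₀ * e1)
  rw [← perp_perp E.nd (F ∙ u)]
  intro x hx
  rw [B_symm]
  exact mul_left_cancel₀ h0 (by simpa [e1, e2] using key x₀ x hx₀ (mem_perp_singleton.1 hx))

theorem plane {u u' : V} (hu : Q u = 0) (hu0 : u ≠ 0) (hu' : Q u' = 0) {k : V ≃ₗ[F] V}
    (hk : k ∈ M) (e : k u = u') {x : V} (hx : 𝔅 u' x = 0) : 𝔅 u (k⁻¹ x) = 0 := by
  by_contra h0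
  have hu0' : u' ≠ 0 := by rw [← e]; simpa using hu0
  obtain ⟨w, hw, hw0⟩ := H97o.exists_notMem_of_lt
    (W := perp 𝒫 (F ∙ u) ⊓ LinearMap.ker (𝔅 u' ∘ₗ (k : V →ₗ[F] V))) (U := F ∙ u) (by
      have := finrank_inf_ker' (perp 𝒫 (F ∙ u)) (𝔅 u' ∘ₗ (k : V →ₗ[F] V))
      have := finrank_le_perp (P := 𝒫) (F ∙ u)
      have := finrank_span_singleton_le (F := F) u
      have := E.dim
      omega)
  have h1 := mem_perp_singleton.1 hw.1
  have h2 : 𝔅 u' (k w) = 0 := hw.2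
  obtain ⟨z, hz, ez⟩ := ((has_ei hu h1).mono (E.EG_le hI)).conj hk
  simp only [eu_apply', map_add, map_sub, map_smul, le_apply_inv, e] at ez
  have h3 : k⁻¹ u' = u := by rw [← e, le_inv_apply_apply]
  obtain ⟨s, hs⟩ := Submodule.mem_span_singleton.1 (E.unip hI N hu' hu0' hz (m := k w)
    (by rw [ez, h3]; simp [B_sing hu, B_symm w u, h1]) (fun x => by simp [ez, B_sing hu', h2])
    (φ := fun x => -𝔅 u (k⁻¹ x)) (fun x _ => ⟨_, by rw [ez, neg_smul]; abel⟩) h2 (by simp [h1]) hx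
    (neg_ne_zero.2 h0))
  exact hw0 (Submodule.mem_span_singleton.2 ⟨s, k.injective (by rw [map_smul, e, hs])⟩)

theorem sing_apply {u : V} (hu : Q u = 0) (hu0 : u ≠ 0) {g : V ≃ₗ[F] V} (hg : g ∈ M) :
    Q (g u) = 0 := by
  by_contra hp
  obtain ⟨v, e, hv, he, h1, k1, k2⟩ := E.exists_pair_perp hp
  obtain ⟨c, hc, l1, l2, l3, hd⟩ := E.complete hv he h1 hp k1 k2
  obtain ⟨z, hz, ez⟩ := (has_ei hv l1).mono (E.EG_le hI)
  have h2 : 𝔅 v e = 1 := by rw [B_symm, h1]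
  have hzp : z (g u) = g u := by rw [ez]; exact eu_fix _ k1 (by rw [B_symm, l3])
  have hy := M.mul_mem (M.mul_mem (M.inv_mem hg) hz) hg
  have h3 : (g⁻¹ * z * g) u = u := by simp only [le_mul_apply, hzp, le_inv_apply_apply]
  let ψ : Dual F V := 𝔅 u ∘ₗ (g⁻¹ : V ≃ₗ[F] V)
  have hψ : ∀ x, ψ x = 𝔅 u (g⁻¹ x) := fun _ => rfl
  have h4 : ∀ x, ψ x = 0 → ψ (z x) = 0 := fun x hx => by
    have := E.plane hI N hu hu0 hu (M.inv_mem hy) (by
      conv_lhs => rw [← h3, le_inv_apply_apply]) (x := g⁻¹ x) hx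
    rw [hψ]
    simpa [le_mul_apply] using this
  have h5 : ψ (g u) = 0 := by simp [hψ, B_sing hu]
  have h6 : ∀ x, ψ x = 𝔅 e x * ψ v + 𝔅 v x * ψ e + (𝔅 c c)⁻¹ * 𝔅 c x * ψ c := fun x => by
    conv_lhs => rw [hd x]
    simp [h5]
  have hcc := E.B_ne hc
  have a1 : ψ v = 0 := by
    have := h4 (ψ c • v - ψ v • c) (by simp [mul_comm])
    rw [ez, eu_apply'] at this
    simp only [map_add, map_sub, map_smul, B_sing hv, l1, B_symm c v, smul_eq_mul] at this
    exact mul_self_eq_zero.1 (mul_left_cancel₀ hcc (by linear_combination -this))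
  have a2 : ψ c = 0 := by
    have := h4 (ψ c • e - ψ e • c) (by simp [mul_comm])
    rw [ez, eu_apply'] at this
    simp only [map_add, map_sub, map_smul, h2, l1, a1, smul_eq_mul] at this
    exact mul_self_eq_zero.1 (by linear_combination -this)
  have h7 : ∀ x, ψ (z x) = ψ x := fun x => by rw [ez, eu_apply']; simp [a1, a2]
  have a3 : ψ e ≠ 0 := fun h => hu0 (E.nd u fun x => by
    rw [← le_inv_apply_apply g x, ← hψ, h6, a1, a2, h]; simp)
  obtain ⟨s, hs⟩ := Submodule.mem_span_singleton.1 (E.unip hI N hu hu0 hy h3 (m := g⁻¹ v)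
    (fun x => by rw [le_mul_apply, le_mul_apply, ← hψ, h7, hψ, le_inv_apply_apply])
    (φ := fun x => 𝔅 c (g x)) (fun x hx => ⟨0, by
      have h8 : 𝔅 v (g x) = 0 := by
        have := h6 (g x)
        rw [hψ, le_inv_apply_apply, hx, a1, a2] at this
        simpa [a3] using this
      simp [le_mul_apply, ez, eu_apply', h8]⟩) a1 (by simp [B_symm c v, l1]) (x₀ := g⁻¹ c) a2
    (by simpa using hcc))
  have := congrArg (fun x => 𝔅 e (g x)) hs
  simp [k2, h1] at this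

theorem le_simG : M ≤ simG fun x y => 𝔅 x y := by
  intro g hg
  obtain ⟨f, hf⟩ := exists_repr_form E.nd (Bg 𝒫 g)
  have h1 : ∀ u, Q u = 0 → ∃ a : F, f u = a • u := fun u hu => by
    by_cases hu0 : u = 0
    · exact ⟨0, by simp [hu0]⟩
    have : f u ∈ F ∙ u := by
      rw [← perp_perp E.nd (F ∙ u)]
      intro x hx
      rw [B_symm, hf, Bg_apply]
      simpa using E.plane hI N (E.sing_apply hI N hu hu0 hg) (by simpa using hu0) hu (M.inv_mem hg)
        (le_inv_apply_apply g u) (mem_perp_singleton.1 hx)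
    obtain ⟨a, ha⟩ := Submodule.mem_span_singleton.1 this
    exact ⟨a, ha.symm⟩
  have h2 : ∀ u d (a b : F), f u = a • u → f d = b • d → 𝔅 d u ≠ 0 → a = b := fun u d a b ha hb h => by
    have k1 := hf u d
    have k2 := hf d u
    rw [Bg_apply] at k1 k2
    rw [B_symm (g u), ← k2, ha, hb] at k1
    exact mul_right_cancel₀ h (by simpa [B_symm u d] using k1)
  obtain ⟨v, -, hv0, hv⟩ := exists_singular_of_three_le Q ⊤ (by simp [E.dim])
  obtain ⟨a, ha⟩ := h1 v hv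
  have h3 : ∀ u, Q u = 0 → f u = a • u := fun u hu => by
    by_cases hu0 : u = 0
    · simp [hu0]
    obtain ⟨d, hd, k1, k2⟩ := E.common hv hv0 hu0
    obtain ⟨b, hb⟩ := h1 d hd
    obtain ⟨c, hc⟩ := h1 u hu
    rw [hc, h2 v d a b ha hb k1, h2 u d c b hc hb k2]
  obtain ⟨e, he, h4⟩ := E.partner hv hv0
  refine mem_simG_of_prop E.nd (by rw [E.dim]; omega) (a := a) fun x y => ?_
  have h5 := h3 _ (Q_ei he hv h4 (w := x - 𝔅 e x • v - 𝔅 v x • e) (by simp [B_sing he, h4])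
    (by simp [B_sing hv, B_symm v e, h4]))
  simp only [map_sub, map_smul, h3 e he, ha] at h5
  have h6 : f x = a • x := by linear_combination (norm := module) -h5
  rw [← Bg_apply, ← hf, h6]; simp

end Q4

theorem isMaximalIn_qsimG4 (E : Q4 Q) : Geo.IsMaximalIn (SLV F V) (qsimG Q ⊓ SLV F V) := by
  refine isMaximalIn_of inf_le_right (fun hle => ?_) fun M h1 h2 ⟨g, hg, hg'⟩ => ?_
  · obtain ⟨v, -, hv0, hv⟩ := exists_singular_of_three_le Q ⊤ (by simp [E.dim])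
    obtain ⟨e, he, h4⟩ := E.partner hv hv0
    obtain ⟨g, hg, eg⟩ := (hasT_SLV (u := v) (φ := 𝔅 v) (B_sing hv)).elim
    obtain ⟨c, -, hc⟩ := mem_qsimG.1 (hle hg).1
    have := hc e
    simp [eg, Q_add', he, hv, h4, B_symm v e] at this
  have hI : (𝒫).Isom ⊓ SLV F V ≤ M := fun s hs => h1 ⟨by
    rw [qsimG_eq E.two]
    exact mem_simG.2 ⟨1, one_ne_zero, fun x y => by rw [hs.1.1, one_mul]⟩, hs.2⟩
  by_contra hM
  refine hg' ⟨?_, h2 hg⟩
  rw [qsimG_eq E.two]
  refine E.le_simG hI (fun u w hu hu0 hw h => ?_) hg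
  by_contra h0
  exact hM (E.SLV_le_of_gain hI hu hu0 hw h0 h)

end Quad

section Matrix

variable {F : Type*} [Field F] [Fintype F]

theorem sl4_symp (f : (Fin 4 → F) → (Fin 4 → F) → F) (hf : Geo.IsSymplecticForm f) :
    Geo.IsMaximalIn (Geo.specialLinear (Fin 4) F)
      (Geo.similarityGroup f ⊓ Geo.specialLinear (Fin 4) F) := by
  rw [H97.similarityGroup_eq, H97.specialLinear_eq, ← H97.pull_inf]
  exact H97.isMaximalIn_pull (isMaximalIn_simG4 (H97.isoK_alt (H97.bilOf hf.bilinear) hf.alternating)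
    (H97.sep_of_nondeg hf.nondegenerate) (by omega) (by simp) ⟨1, trivial, one_ne_zero⟩)

theorem sl4_herm (σ : F ≃+* F) (f : (Fin 4 → F) → (Fin 4 → F) → F) (hf : Geo.IsUnitaryForm σ f) :
    Geo.IsMaximalIn (Geo.specialLinear (Fin 4) F)
      (Geo.similarityGroup f ⊓ Geo.specialLinear (Fin 4) F) := by
  rw [H97.similarityGroup_eq, H97.specialLinear_eq, ← H97.pull_inf]
  have hσ : ∀ a, (σ : F →+* F) ((σ : F →+* F) a) = a := hf.involutive
  have hne : (σ : F →+* F) ≠ RingHom.id F := fun h =>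
    hf.ne_refl (RingEquiv.ext fun a => congrArg (fun g : F →+* F => g a) h)
  obtain ⟨c, hc⟩ := H28.exists_trace_one hne hσ
  let B : (Fin 4 → F) →ₛₗ[(σ : F →+* F)] (Fin 4 → F) →ₗ[F] F :=
    LinearMap.mk₂'ₛₗ (σ : F →+* F) (RingHom.id F) (fun x y => f y x)
      (fun x y z => by rw [hf.herm z, hf.add_left, map_add, ← hf.herm, ← hf.herm])
      (fun a x z => by rw [hf.herm z, hf.smul_left, map_mul, ← hf.herm]; rfl)
      (fun x y z => hf.add_left y z x) (fun a x z => hf.smul_left a z x)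
  have hS : ∀ x y, (σ : F →+* F) (B x y) = B y x := fun x y => (hf.herm x y).symm
  have hB : B.SeparatingLeft := H97.sep_of_nondeg fun v hv => (hf.nondegenerate v hv).symm
  have h1 : H97.simG (F := F) f = H97.simG fun x y => (H28.PQ.ofHerm hσ c hc B hS).B x y := by
    ext g
    exact ⟨fun ⟨a, ha⟩ => ⟨a, fun u v => ha v u⟩, fun ⟨a, ha⟩ => ⟨a, fun u v => ha v u⟩⟩
  rw [h1]
  obtain ⟨a, ha⟩ : ∃ a, (σ : F →+* F) a ≠ a := by
    by_contra h
    push Not at h
    exact hne (RingHom.ext h)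
  exact H97.isMaximalIn_pull (isMaximalIn_simG4 (H97.isoK_herm hne) hB le_rfl (by simp)
    ⟨a - (σ : F →+* F) a, H28.mem_traceZero.2 (by rw [map_sub, hσ]; ring),
      sub_ne_zero.2 (Ne.symm ha)⟩)

theorem sl4_quad (hodd : Odd (Fintype.card F)) (Q : (Fin 4 → F) → F)
    (hQ : Geo.IsNondegenerateQuadraticForm Q) :
    Geo.IsMaximalIn (Geo.specialLinear (Fin 4) F)
      (Geo.quadSimilarityGroup Q ⊓ Geo.specialLinear (Fin 4) F) := by
  obtain ⟨Q, rfl, hnd⟩ := H97.exists_quadForm hQ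
  rw [H97.quadSimilarityGroup_eq, H97.specialLinear_eq, ← H97.pull_inf]
  exact H97.isMaximalIn_pull (isMaximalIn_qsimG4 ⟨hnd, H97.two_ne_zero_of_odd hodd, by simp⟩)

end Matrix

end H28.Four
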